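import Mathlib
import Cfsg.Agent.Lib.MonType.Cross
import Cfsg.Agent.Lib.MRec.Mod

/-!
A subgroup `C` of shape `2^(1+24).Co1` of a group `G`, not assumed to be the full centraliser of its central
involution.
-/

set_option autoImplicit false

namespace H95.Ag

open Cfsg Subgroup H16

variable {G : Type*} [Group G]

structure MonC (z : G) (Q C : Subgroup G) (φ : C →* Spor.Co1) (cls : leechLattice → G → Prop) : Prop where
  h : ES Q z
  le : Q ≤ C
  cz : ∀ c ∈ C, c * z = z * c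
  cent : ∀ g ∈ C, (∀ x ∈ Q, x * g = g * x) → g = 1 ∨ g = z
  norm : ∀ c ∈ C, ∀ x ∈ Q, c * x * c⁻¹ ∈ Q
  card : Nat.card Q = 2 ^ 25
  surj : Function.Surjective φ
  ker : ∀ c, φ c = 1 ↔ (c : G) ∈ Q
  mem : ∀ {v x}, cls v x → x ∈ Q
  ex_cls : ∀ x ∈ Q, ∃ v, cls v x
  ex_elt : ∀ v, ∃ x, cls v x
  add : ∀ {v w x y}, cls v x → cls w y → cls (v + w) (x * y)
  eq_iff : ∀ {v w x y}, cls v x → cls w y → (Cg v w ↔ y = x ∨ y = x * z)
  congr : ∀ {v w x}, cls v x → Cg v w → cls w x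
  mul_z : ∀ {v x}, cls v x → cls v (x * z)
  smul : ∀ {v x} (c : C) (γ : Co0), (QuotientGroup.mk γ : Spor.Co1) = φ c →
    cls v x → cls (γ • v) (c * x * (c : G)⁻¹)

/-- The structure exists for every subgroup of the right shape. -/
theorem exists_monC {z : G} {Q C : Subgroup G} (h : ES Q z) (le : Q ≤ C) (cz : ∀ c ∈ C, c * z = z * c)
    (cent : ∀ g ∈ C, (∀ x ∈ Q, x * g = g * x) → g = 1 ∨ g = z)
    (norm : ∀ c ∈ C, ∀ x ∈ Q, c * x * c⁻¹ ∈ Q) (hc : Nat.card Q = 2 ^ 25) {φ : C →* Spor.Co1}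
    (hs : Function.Surjective φ) (hk : ∀ c, φ c = 1 ↔ (c : G) ∈ Q) : ∃ cls, MonC z Q C φ cls := by
  let z' : C := ⟨z, le h.mem⟩
  have h3 : L3 (Q.subgroupOf C) z' :=
    { toES := h.subgroupOf le
      cent := fun g hg => (cent g g.2 fun x hx => congrArg Subtype.val (hg ⟨x, le hx⟩ hx)).imp
        Subtype.ext Subtype.ext
      norm := fun g _ => mem_normalizer_of_conj (fun x hx => norm g g.2 x hx) fun x hx => by
        have := norm _ (inv_mem g.2) x hx
        rw [inv_inv] at this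
        exact this }
  have hz : ∀ c : C, c ∈ centralizer ({z'} : Set C) := fun c => mem_cent_iff.2 (Subtype.ext (cz c c.2))
  obtain ⟨cls, M⟩ := H96.MRec.exists_mon (φ := φ.comp (centralizer ({z'} : Set C)).subtype) h3
    ((Nat.card_congr (subgroupOfEquivOfLe le).toEquiv).trans hc)
    (fun y => (hs y).elim fun c e => ⟨⟨c, hz c⟩, e⟩) fun c => hk c
  refine ⟨fun v x => ∃ hx : x ∈ C, cls v ⟨x, hx⟩, h, le, cz, cent, norm, hc, hs, hk, fun ⟨_, e⟩ => M.mem e,
    fun x hx => (M.ex_cls ⟨x, le hx⟩ hx).imp fun _ e => ⟨_, e⟩,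
    fun v => (M.ex_elt v).elim fun x e => ⟨x, x.2, e⟩, fun ⟨_, e⟩ ⟨_, f⟩ => ⟨_, M.add e f⟩, ?_,
    fun ⟨_, e⟩ f => ⟨_, M.congr e f⟩, fun ⟨_, e⟩ => ⟨_, M.mul_z e⟩,
    fun c γ e ⟨_, f⟩ => ⟨_, M.smul ⟨c, hz c⟩ γ e f⟩⟩
  rintro v w x y ⟨_, e⟩ ⟨_, f⟩
  rw [M.eq_iff e f, Subtype.ext_iff, Subtype.ext_iff]
  rfl

namespace MonC

variable {z : G} {Q C : Subgroup G} {φ : C →* Spor.Co1} {cls : leechLattice → G → Prop}

theorem fin (M : MonC z Q C φ cls) : Finite Q := Nat.finite_of_card_ne_zero (by rw [M.card]; norm_num)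

theorem norm' (M : MonC z Q C φ cls) {c x : G} (hc : c ∈ C) (hx : x ∈ Q) : c⁻¹ * x * c ∈ Q := by
  simpa using M.norm _ (inv_mem hc) x hx

theorem mem_of_trivial (M : MonC z Q C φ cls) {g : G} (hC : g ∈ C)
    (hg : ∀ x ∈ Q, g * x * g⁻¹ = x ∨ g * x * g⁻¹ = x * z) : g ∈ Q := by
  have := M.fin
  obtain ⟨y, hy, hc⟩ := M.h.exists_mul_centralizer hg
  refine (mul_mem_cancel_left (inv_mem hy)).1 ?_
  rcases M.cent _ (mul_mem (inv_mem (M.le hy)) hC) (mem_centralizer_iff.1 hc) with e | e <;> rw [e]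
  exacts [one_mem _, M.h.mem]

theorem card_C (M : MonC z Q C φ cls) : Nat.card C = 2 ^ 25 * Nat.card Spor.Co1 := by
  have h1 := card_mul_index φ.ker
  rw [index_ker, MonoidHom.range_eq_top.2 M.surj, card_top,
    show φ.ker = Q.subgroupOf C from Subgroup.ext M.ker,
    Nat.card_congr (subgroupOfEquivOfLe M.le).toEquiv, M.card] at h1
  exact h1.symm

theorem cg_of_ap (M : MonC z Q C φ cls) {v : leechLattice} {s : G} (hs : cls v s) {c : C}
    (hc : (c : G) * s * (c : G)⁻¹ = s ∨ (c : G) * s * (c : G)⁻¹ = s * z) {γ : Co0}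
    (hγ : (QuotientGroup.mk γ : Spor.Co1) = φ c) : Cg (γ • v) v :=
  ((M.eq_iff hs (M.smul c γ hγ hs)).2 hc).symm

theorem twist (M : MonC z Q C φ cls) (δ : Co0) :
    MonC z Q C ((MulAut.conj (QuotientGroup.mk δ : Spor.Co1)).toMonoidHom.comp φ)
      (fun v x => cls (δ⁻¹ • v) x) where
  h := M.h
  le := M.le
  cz := M.cz
  cent := M.cent
  norm := M.norm
  card := M.card
  surj := (MulAut.conj _).surjective.comp M.surj
  ker c := by rw [← M.ker]; exact map_eq_one_iff _ (MulAut.conj _).injective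
  mem := M.mem
  ex_cls x hx := by
    obtain ⟨v, hv⟩ := M.ex_cls x hx
    exact ⟨δ • v, by simpa using hv⟩
  ex_elt v := M.ex_elt _
  add h1 h2 := by simpa only [smul_add] using M.add h1 h2
  eq_iff h1 h2 := by
    rw [← M.eq_iff h1 h2]
    exact ⟨fun h => h.smul _, fun h => by simpa using h.smul δ⟩
  congr h1 h2 := M.congr h1 (h2.smul _)
  mul_z := M.mul_z
  smul c γ hγ h1 := by
    have := M.smul c (δ⁻¹ * γ * δ) (by
      simp only [QuotientGroup.mk_mul, QuotientGroup.mk_inv, hγ]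
      simp [mul_assoc]) h1
    simpa only [mul_smul, smul_inv_smul] using this

theorem cls_zero (M : MonC z Q C φ cls) : cls 0 1 := by
  obtain ⟨v, hv⟩ := M.ex_cls 1 (one_mem _)
  have := M.add hv hv
  rw [one_mul] at this
  exact M.congr this (cg_iff.2 ⟨v, by simp⟩)

theorem cg_zero_iff (M : MonC z Q C φ cls) {v : leechLattice} {x : G} (h : cls v x) :
    Cg 0 v ↔ x = 1 ∨ x = z := by
  simpa using M.eq_iff M.cls_zero h

theorem exists_lift (M : MonC z Q C φ cls) (γ : Co0) :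
    ∃ c : C, (QuotientGroup.mk γ : Spor.Co1) = φ c := by
  obtain ⟨c, hc⟩ := M.surj (QuotientGroup.mk γ)
  exact ⟨c, hc.symm⟩

/-- An automorphism carrying the class of `x` to the class of `y` lifts to an element conjugating
`x` to `y`. -/
theorem exists_conj (M : MonC z Q C φ cls) {v w : leechLattice} {x y : G} (hx : cls v x)
    (hy : cls w y) (h0 : ¬ Cg 0 w) {γ : Co0} (hγ : Cg (γ • v) w) :
    ∃ c : C, (QuotientGroup.mk γ : Spor.Co1) = φ c ∧
      c * x * (c : G)⁻¹ = y := by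
  obtain ⟨c, hc⟩ := M.exists_lift γ
  rcases (M.eq_iff hy (M.smul c γ hc hx)).1 hγ.symm with e | e
  · exact ⟨c, hc, e⟩
  · rw [M.cg_zero_iff hy, not_or] at h0
    obtain ⟨u, hu, eu⟩ := M.h.exists_conj (M.mem hy) h0.1 h0.2
    have h1 : φ ⟨u, M.le hu⟩ = 1 := (M.ker _).2 hu
    refine ⟨(⟨u, M.le hu⟩ : C)⁻¹ * c, by simp [h1, hc], ?_⟩
    calc (u⁻¹ * c) * x * (u⁻¹ * c)⁻¹ = u⁻¹ * (c * x * (c : G)⁻¹) * u := by group
      _ = y := by rw [e, ← eu]; group

theorem sq_iff (M : MonC z Q C φ cls) {v : leechLattice} {x : G} (hx : cls v x) :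
    x * x = 1 ↔ (32 : ℤ) ∣ sqNorm (v : GolayPt → ℤ) := by
  have := M.fin
  obtain ⟨V, _, _, ⟨P⟩⟩ := M.h.top.exists_pres
  choose l hl using M.ex_elt
  let f : leechLattice → V := fun v => P.π ⟨l v, M.mem (hl v)⟩
  have hf : ∀ {v y} (h : cls v y), f v = P.π ⟨y, M.mem h⟩ := by
    intro v y h
    rw [P.eq_iff']
    rcases (M.eq_iff (hl v) h).1 (Cg.refl v) with e | e
    exacts [Or.inl (Subtype.ext e), Or.inr (Subtype.ext e)]
  have hadd : ∀ v w, f (v + w) = f v + f w := fun v w => by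
    rw [hf (M.add (hl v) (hl w)), ← P.π_mul]; rfl
  have hq : ∀ {v y} (_ : cls v y), y * y = 1 ↔ P.q (f v) = 0 := by
    intro v y h
    rw [hf h, ← P.sq_eq_one_iff, Subtype.ext_iff]; rfl
  have hc : ∀ v w, Cg v w → P.q (f v) = P.q (f w) := fun v w h => by
    rw [hf (M.congr (hl v) h)]
  have hs : ∀ v (γ : Co0), P.q (f (γ • v)) = P.q (f v) := by
    intro v γ
    obtain ⟨c, hc⟩ := M.exists_lift γ
    have h1 := hq (M.smul c γ hc (hl v))
    have h2 := hq (hl v)
    have h3 : (c : G) * l v * (c : G)⁻¹ * (c * l v * (c : G)⁻¹) = 1 ↔ l v * l v = 1 := by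
      rw [show (c : G) * l v * (c : G)⁻¹ * (c * l v * (c : G)⁻¹) = c * (l v * l v) * (c : G)⁻¹ by group]
      exact conj_eq_one_iff
    have h4 := h1.symm.trans (h3.trans h2)
    revert h4
    generalize P.q (f (γ • v)) = a, P.q (f v) = b
    revert a b; decide
  obtain ⟨a0, b0⟩ := quad_vanish (fun v => P.q (f v))
    (fun x y z => by simpa only [hadd] using QuadraticMap.map_add_add_add_map P.q (f x) (f y) (f z))
    hc (P.q (f Spor.leechU)) (P.q (f (e8 none)))
    (fun v hv => by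
      obtain ⟨g, rfl⟩ := Cfsg.Agent.S0400.result Spor.leechU v (by decide +kernel) hv
      exact hs _ g)
    (fun v hv => by
      obtain ⟨g, u, hu, e⟩ := Cfsg.Agent.S5593.result (e8 none) v (sqNorm_e8 _) hv
      exact (hc _ _ ((mem_twoLeech _).2 ⟨u, hu, e⟩)).symm.trans (hs _ g))
  have key : ∀ v : leechLattice, (v = 0 ∨ sqNorm (v : GolayPt → ℤ) = 32 ∨
      sqNorm (v : GolayPt → ℤ) = 64) → P.q (f v) = 0 := by
    rintro v (rfl | hv | hv)
    · exact (hq M.cls_zero).1 (one_mul 1)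
    · obtain ⟨g, rfl⟩ := Cfsg.Agent.S0400.result Spor.leechU v (by decide +kernel) hv
      exact (hs _ g).trans a0
    · obtain ⟨g, u, hu, e⟩ := Cfsg.Agent.S5593.result (e8 none) v (sqNorm_e8 _) hv
      exact ((hc _ _ ((mem_twoLeech _).2 ⟨u, hu, e⟩)).symm.trans (hs _ g)).trans b0
  have key3 : ∀ v : leechLattice, sqNorm (v : GolayPt → ℤ) = 48 → P.q (f v) ≠ 0 := by
    intro v hv h0
    obtain ⟨y, hy, -, ey⟩ := M.h.exists_sq_root (by rw [M.card]; norm_num) (one_mem _) (one_mul 1)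
    obtain ⟨u, hu⟩ := M.ex_cls y hy
    obtain ⟨w, hw, h⟩ := exists_short u
    apply M.h.ne_one
    rw [← ey, hq hu, hc _ _ hw]
    rcases h with h | h | h | h
    · exact key w (Or.inl h)
    · exact key w (Or.inr (Or.inl h))
    · obtain ⟨g, rfl⟩ := Cfsg.Agent.S0401.result v w hv h
      exact (hs _ g).trans h0
    · exact key w (Or.inr (Or.inr h))
  obtain ⟨w, hw, h⟩ := exists_short v
  have hd := hw.norm_dvd
  rw [hq hx, hc _ _ hw]
  rcases h with h | h | h | h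
  · rw [h, sqNorm_zero'] at hd
    exact iff_of_true (key w (Or.inl h)) (by omega)
  · exact iff_of_true (key w (Or.inr (Or.inl h))) (by omega)
  · exact iff_of_false (key3 w h) (by omega)
  · exact iff_of_true (key w (Or.inr (Or.inr h))) (by omega)

theorem commute_iff (M : MonC z Q C φ cls) {v w : leechLattice} {x y : G} (hx : cls v x)
    (hy : cls w y) : x * y = y * x ↔ (16 : ℤ) ∣ dotInt (v : GolayPt → ℤ) w := by
  have h1 := M.sq_iff hx
  have h2 := M.sq_iff hy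
  have h3 := M.sq_iff (M.add hx hy)
  rw [AddSubgroup.coe_add, sqNorm_add] at h3
  have d1 := sixteen_dvd_sqNorm v.2
  have d2 := sixteen_dvd_sqNorm w.2
  have d3 := eight_dvd_dotInt v.2 w.2
  have z1 := M.h.ne_one
  have zz := M.h.sq
  by_cases hc : x * y = y * x
  · have e : x * y * (x * y) = x * x * (y * y) := by
      calc x * y * (x * y) = x * (y * x) * y := by group
        _ = _ := by rw [← hc]; group
    rw [e] at h3
    refine iff_of_true hc ?_
    rcases M.h.sq_mem (M.mem hx) with a | a <;> rcases M.h.sq_mem (M.mem hy) with b | b <;>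
      simp only [a, b, one_mul, mul_one, z1, zz, true_iff, false_iff] at h1 h2 h3 <;> omega
  · have e : x * y * (x * y) = x * x * (y * y) * z := by
      have e1 := (M.h.comm y (M.mem hy) x (M.mem hx)).resolve_left (Ne.symm hc)
      calc x * y * (x * y) = x * (y * x) * y := by group
        _ = x * x * y * (z * y) := by rw [e1]; group
        _ = _ := by rw [← M.h.central y (M.mem hy)]; group
    rw [e] at h3
    refine iff_of_false hc ?_
    rcases M.h.sq_mem (M.mem hx) with a | a <;> rcases M.h.sq_mem (M.mem hy) with b | b <;>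
      simp only [a, b, one_mul, mul_one, z1, zz, true_iff, false_iff] at h1 h2 h3 <;> omega

/-- An involution of `Q` other than `z` has a class of norm 32 or 64. -/
theorem type_of_invol (M : MonC z Q C φ cls) {x : G} (hx : x ∈ Q) (h1 : x ≠ 1)
    (hz : x ≠ z) (hxx : x * x = 1) : ∃ v : leechLattice, cls v x ∧
      (sqNorm (v : GolayPt → ℤ) = 32 ∨ sqNorm (v : GolayPt → ℤ) = 64) := by
  obtain ⟨u, hu⟩ := M.ex_cls x hx
  obtain ⟨w, hw, h⟩ := exists_short u
  have hw' := M.congr hu hw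
  refine ⟨w, hw', ?_⟩
  rcases h with rfl | h | h | h
  · rcases (M.cg_zero_iff hw').1 (Cg.refl _) with e | e
    exacts [absurd e h1, absurd e hz]
  · exact Or.inl h
  · have := (M.sq_iff hw').1 hxx
    omega
  · exact Or.inr h

theorem conj_of_norm32 (M : MonC z Q C φ cls) {v w : leechLattice} {x y : G} (hx : cls v x)
    (hy : cls w y) (hv : sqNorm (v : GolayPt → ℤ) = 32) (hw : sqNorm (w : GolayPt → ℤ) = 32) :
    ∃ c ∈ C, c * x * c⁻¹ = y := by
  obtain ⟨g, hg⟩ := Cfsg.Agent.S0400.result v w hv hw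
  obtain ⟨c, -, hc⟩ := M.exists_conj hx hy (Mon.not_cg_zero (Or.inl hw)) (γ := g) (hg ▸ Cg.refl _)
  exact ⟨c, c.2, hc⟩

theorem conj_of_norm64 (M : MonC z Q C φ cls) {v w : leechLattice} {x y : G} (hx : cls v x)
    (hy : cls w y) (hv : sqNorm (v : GolayPt → ℤ) = 64) (hw : sqNorm (w : GolayPt → ℤ) = 64) :
    ∃ c ∈ C, c * x * c⁻¹ = y := by
  obtain ⟨g, u, hu, e⟩ := Cfsg.Agent.S5593.result v w hv hw
  obtain ⟨c, -, hc⟩ := M.exists_conj hx hy (Mon.not_cg_zero (Or.inr hw)) (γ := g)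
    ((mem_twoLeech _).2 ⟨u, hu, e⟩)
  exact ⟨c, c.2, hc⟩

end MonC

end H95.Ag
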