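import Mathlib
import Cfsg.Agent.Lib.MAg.Defs
import Cfsg.Agent.Lib.MRank.Lat

/-!
Classes of the Leech lattice modulo two fixed by groups of sign changes (helper70).
-/

set_option autoImplicit false
set_option linter.unusedVariables false

namespace H95.Ag

open Cfsg Subgroup H16

namespace Fix

open H60.MR H7.ML
open H54 (force band bor bimp force_eq band_eq_true bor_eq_true bimp_eq_true)
open H15 (allLt2 cw ofMask isCode allLt2_iff)
open scoped Pointwise symmDiff

/-- more than eight words compatible with `a` and `b` force `b` into the span of `a` -/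
def PA (a : Finset GolayPt) : Prop := ∀ X : Set (Finset GolayPt), (∀ c ∈ X, c ∈ code ∧ c ∩ a ∈ code) →
  8 < X.ncard → ∀ b ∈ code, (∀ c ∈ X, c ∩ b ∈ code) → b.card ≤ a.card → Sp a b

/-- the test -/
noncomputable def chk (a : ℕ) (L : List ℕ) : Bool := allLt2 64 64 fun u => force (cw u) fun d =>
  band (bimp (isCode (Nat.land d a)) (L.elem d)) (bimp (Nat.ble (H15.wt d) (H15.wt a))
    (bor (sp a d) (Nat.ble (L.filter fun c => isCode (Nat.land c d)).length 8)))

theorem land_code {c d : ℕ} (hd : d < 2 ^ 24) (h : ofMask c ∩ ofMask d ∈ code) :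
    isCode (Nat.land c d) = true := by
  rw [← H15.ofMask_land] at h
  exact (H15.ofMask_mem_codeSets_iff (lt_of_le_of_lt (Nat.and_le_right (n := c)) hd)).1 h

theorem pa_of {a : ℕ} {L : List ℕ} (ha : a < 2 ^ 24) (h : chk a L = true) : PA (ofMask a) := by
  simp only [chk, allLt2_iff, force_eq, band_eq_true, bimp_eq_true, bor_eq_true, Nat.ble_eq,
    ← H15.card_ofMask] at h
  intro X hX h8 b hb hXb hba
  obtain ⟨u, hu, rfl⟩ := H15.exists_cw_of_mem_codeSets hb
  refine sp_spec (((h u hu).2 hba).resolve_right fun e => h8.not_ge ?_)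
  refine le_trans ?_ ((List.toFinset_card_le _).trans e)
  rw [← Set.ncard_coe_finset]
  refine le_trans (Set.ncard_le_ncard fun c hc => ?_) (Set.ncard_image_le (f := ofMask))
  obtain ⟨w, hw, rfl⟩ := H15.exists_cw_of_mem_codeSets (hX c hc).1
  refine ⟨cw w, ?_, rfl⟩
  rw [List.coe_toFinset, Set.mem_ofPred_eq, List.mem_filter]
  exact ⟨List.mem_of_elem_eq_true ((h w hw).1 (land_code ha (hX _ hc).2)),
    land_code (H15.cw_lt hu) (hXb _ hc)⟩

theorem chk1 : chk 8536111 [0, 8536111, 6889680, 15425791, 4038912, 12575023, 5538256, 14074367, 832080,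
    9368191, 6656640, 15192751, 3216208, 11752319, 5780352, 14316463, 6100032, 14636143, 3421328, 11957439,
    6337856, 14873967, 628112, 9164223, 5350928, 13887039, 3704512, 12240623, 7079696, 15615807, 337856,
    8873967, 7903248, 16439359, 1161408, 9697519, 4536592, 13072703, 2890176, 11426287, 7612992, 16149103,
    1903248, 10439359, 4819776, 13355887, 2141072, 10677183, 2460752, 10996863, 5024896, 13561007, 1584464,
    10120575, 7409024, 15945135, 2702848, 11238959, 4202192, 12738303, 1351424, 9887535, 8241104,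
    16777215] = true := by decide +kernel

theorem chk2 : chk 15130653 [0, 15130653, 1646562, 16777215] = true := by decide +kernel

theorem PA.smul {a : Finset GolayPt} {g : Equiv.Perm GolayPt} (hg : g ∈ M24) (h : PA (g • a)) : PA a := by
  intro X hX h8 b hb hXb hba
  have := h ((g • ·) '' X) (by
    rintro _ ⟨c, hc, rfl⟩
    exact ⟨smul_mem_code hg (hX c hc).1, H15.smul_inter .. ▸ smul_mem_code hg (hX c hc).2⟩)
    (by rwa [Set.ncard_image_of_injective _ (MulAction.injective g)]) _ (smul_mem_code hg hb) (by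
    rintro _ ⟨c, hc, rfl⟩
    exact H15.smul_inter .. ▸ smul_mem_code hg (hXb c hc)) (by rwa [H15.card_smul, H15.card_smul])
  simpa only [Sp, ← H15.smul_compl, smul_left_cancel_iff, Finset.smul_finset_eq_empty,
    Finset.smul_finset_eq_univ] using this

theorem pa {a : Finset GolayPt} (ha : a ∈ code) (h : a.card = 8 ∨ a.card = 12) : PA a := by
  rcases h with h | h
  · obtain ⟨g, hg, e⟩ := H15.M24_trans_octads ⟨ha, h⟩ H15.oct0_mem
    exact .smul hg (e ▸ pa_of (by norm_num [H15.oct0]) chk1)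
  · obtain ⟨g, hg, e⟩ := H15.M24_trans_dodecads ⟨ha, h⟩
      (H15.ofMask_mem_dodecads (m := 15130653) (by decide +kernel))
    exact .smul hg (e ▸ pa_of (by norm_num) chk2)

/-- the words compatible with more than eight words lie in the span of one word -/
theorem exists_sp {X : Set (Finset GolayPt)} (hX : ∀ c ∈ X, c ∈ code) (h8 : 8 < X.ncard) :
    ∃ a, ∀ b ∈ code, (∀ c ∈ X, c ∩ b ∈ code) → Sp a b := by
  obtain ⟨a, ⟨ha, h1, h2⟩, hm⟩ := Set.exists_max_image
    {a | a ∈ code ∧ (∀ c ∈ X, c ∩ a ∈ code) ∧ a.card ≤ 12} Finset.card (Set.toFinite _)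
    ⟨∅, empty_mem_code, fun c _ => by rw [Finset.inter_empty]; exact empty_mem_code, by simp⟩
  have key : ∀ b ∈ code, (∀ c ∈ X, c ∩ b ∈ code) → b.card ≤ 12 → Sp a b := fun b hb h3 h4 => by
    have h5 := hm b ⟨hb, h3, h4⟩
    by_cases h : a.card = 0
    · exact Or.inl (Finset.card_eq_zero.1 (by omega))
    · have := card_of_mem_code ha
      exact pa ha (by omega) X (fun c hc => ⟨hX c hc, h1 c hc⟩) h8 b hb h3 h5
  refine ⟨a, fun b hb h3 => ?_⟩
  by_cases h4 : b.card ≤ 12
  · exact key b hb h3 h4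
  have h5 := key _ (compl_mem_code hb) (fun c hc => by
    convert symmDiff_mem_code (hX c hc) (h3 c hc) using 1
    ext i
    simp only [Finset.mem_inter, Finset.mem_compl, Finset.mem_symmDiff]
    tauto) (by rw [Finset.card_compl, card_pt]; omega)
  rw [← compl_compl b]
  rcases h5 with h | h | h | h <;> simp [h, Sp]

variable {v w t : leechLattice} {c d : Finset GolayPt}

theorem even (hc : c ∈ code) (c0 : c ≠ ∅) (c1 : c ≠ Finset.univ) (ht : C4 t ∅)
    (h : Cg (eps c hc • v) (v + t)) : ∃ d ∈ code, C2 v d := by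
  obtain ⟨u, hu⟩ := exists_of_cg h
  obtain ⟨i, hi⟩ := Finset.nonempty_iff_ne_empty.2 c0
  obtain ⟨j, hj⟩ : ∃ j, j ∉ c := by
    by_contra! e
    exact c1 (Finset.eq_univ_of_forall e)
  have h1 := hu i
  have h2 := hu j
  have h3 := ht i
  have h4 := ht j
  have h5 := two_dvd_sub_of_mem u.2 i j
  have h6 := two_dvd_sub_of_mem v.2 i none
  rw [ind_of_notMem (Finset.notMem_empty _)] at h3 h4
  simp only [eps_smul_apply, hi, hj, if_true, if_false, AddSubgroup.coe_add, Pi.add_apply] at h1 h2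
  exact exists_c2 (by omega)

theorem inter (hc : c ∈ code) (ht : C4 t ∅) (h : Cg (eps c hc • v) (v + t)) (hd : C2 v d) :
    c ∩ d ∈ code := by
  have := (Cg.refl (-v)).add h
  rw [neg_add_cancel_left] at this
  exact (symmDiff_bot (c ∩ d) : (c ∩ d) ∆ ∅ = _) ▸ (hd.eps hc).cg ht this

theorem c4_e8 (j : GolayPt) : C4 (e8 j) ∅ := fun i => by
  rw [ind_of_notMem (Finset.notMem_empty _), e8_apply]
  split_ifs <;> omega

theorem cg_of_add (h : Cg (v + w) t) : Cg v (w + t) := by
  have := h.add (Cg.refl w)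
  rw [add_assoc, add_comm t] at this
  exact (cg_add_self w v).symm.trans this

/-- two vectors with the same word modulo eight -/
theorem same (h : C4 v c) (h' : C4 w c) (j : GolayPt) : Cg v w ∨ Cg v (w + e8 j) := by
  have := h.add h'
  rw [symmDiff_self] at this
  exact (cg_eight (fun i => by simpa [ind_apply] using this i) j).imp
    (fun e => add_zero w ▸ cg_of_add e) cg_of_add

theorem small (y : Finset GolayPt) : ∃ c ∈ code, (y ∆ c).card ≤ 4 := by
  obtain ⟨c, hc, hm⟩ := Set.exists_min_image code (fun c => (y ∆ c).card) (Set.toFinite _)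
    ⟨_, empty_mem_code⟩
  refine ⟨c, hc, not_lt.1 fun h => ?_⟩
  obtain ⟨s, hs, h5⟩ := Finset.exists_subset_card_eq (show 5 ≤ _ from h)
  obtain ⟨o, ho, hso⟩ := H15.exists_octad_superset h5.le
  have h1 := hm _ (symmDiff_mem_code hc ho.1)
  have h2 := card_symmDiff_add (y ∆ c) o
  have h3 := Finset.card_le_card (Finset.subset_inter hs hso)
  have h4 := ho.2
  simp only [← symmDiff_assoc] at h1
  omega

/-- the shape of the classes in `sx` -/
theorem shape (hv : sqNorm (v : GolayPt → ℤ) = 64) (nv : ¬ Cg v (e8 none))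
    (ev : ∀ c (hc : c ∈ code), Cg (eps c hc • v) v ∨ Cg (eps c hc • v) (v + e8 none)) :
    ∃ u y, Cg v u ∧ C4 u y ∧ y.card = 4 := by
  have ev' : ∀ c (hc : c ∈ code), ∃ t, C4 t ∅ ∧ Cg (eps c hc • v) (v + t) := fun c hc =>
    (ev c hc).elim (fun h => ⟨0, c4_zero, by rwa [add_zero]⟩) fun h => ⟨_, c4_e8 _, h⟩
  obtain ⟨t, ht, e⟩ := ev' _ H15.oct0_mem.1
  obtain ⟨d, -, hd⟩ := even _ (by decide +kernel) (by decide +kernel) ht e
  obtain ⟨u, hu, h0⟩ : ∃ u, Cg v u ∧ C2 u ∅ := by
    by_cases d0 : d = ∅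
    · exact ⟨v, .refl _, d0 ▸ hd⟩
    by_cases d1 : d = Finset.univ
    · simpa only [d1, Finset.compl_univ] using hd.compl
    obtain ⟨i, hi⟩ := Finset.nonempty_iff_ne_empty.2 d0
    obtain ⟨j, hj⟩ : ∃ j, j ∉ d := by
      by_contra! e
      exact d1 (Finset.eq_univ_of_forall e)
    obtain ⟨o, ho, h⟩ := H15.exists_octad_superset (s := {i, j}) (Finset.card_le_two.trans (by norm_num))
    obtain ⟨t, ht, e⟩ := ev' _ ho.1
    have := eq_empty_of_card_lt (inter _ ht e hd) (ho.2 ▸ Finset.card_lt_card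
      ⟨Finset.inter_subset_left, fun k => hj (Finset.mem_inter.1 (k (h (by simp)))).2⟩)
    exact absurd (this ▸ Finset.mem_inter.2 ⟨h (by simp), hi⟩) (Finset.notMem_empty i)
  obtain ⟨y, hy⟩ := h0.c4
  obtain ⟨c, hc, h4⟩ := small y
  obtain ⟨u', hu', hy'⟩ := hy.shift hc
  refine ⟨u', _, hu.trans hu', hy', ?_⟩
  have h1 := hy'.even
  by_contra h2
  rcases (by omega : (y ∆ c).card = 0 ∨ (y ∆ c).card = 2) with h | h
  · rw [Finset.card_eq_zero.1 h] at hy'
    rcases same hy' c4_zero none with e | e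
    · have := ((hu.trans hu').trans e).norm_eq hv.le (by rw [sqNorm_zero']; norm_num)
      rw [hv, sqNorm_zero'] at this
      omega
    · exact nv ((hu.trans hu').trans (zero_add (e8 none) ▸ e))
  · obtain ⟨i, j, hij, h⟩ := Finset.card_eq_two.1 h
    have h3 : C4 (lv44 i j) (y ∆ c) := fun k => by
      simp only [h, lv44_apply, ind_apply, Finset.mem_insert, Finset.mem_singleton]
      split_ifs <;> first | omega | tauto | simp_all
    rcases same hy' h3 j with e | e
    · have := ((hu.trans hu').trans e).norm_eq hv.le (by rw [sqNorm_lv44 hij]; norm_num)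
      rw [hv, sqNorm_lv44 hij] at this
      omega
    · have h5 : sqNorm ((lv44 i j + -e8 j : leechLattice) : GolayPt → ℤ) = 32 := by
        rw [← sub_eq_add_neg, AddSubgroup.coe_sub, sqNorm_sub, sqNorm_lv44 hij, sqNorm_e8, coe_e8,
          dotInt_single_right, lv44_apply, if_neg hij.symm, if_pos rfl]
        norm_num
      have := ((hu.trans hu').trans (e.trans ((Cg.refl _).add (cg_neg _)))).norm_eq hv.le (by omega)
      omega

end Fix

open H60.MR H7.ML _root_.H95.Ag.Fix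
open scoped Pointwise symmDiff

theorem fix_le {X : Finset GolayPt → Prop} (hX : H60.MR.Lin X) (h1 : X Finset.univ)
    (hc : ∀ c, X c → c ∈ code) (h16 : 16 ≤ {c | X c}.ncard) :
    {x : L2 | ∀ c (h : X c), eps c (hc c h) • x = x}.ncard ≤ 2 ^ 10 := by
  set F := {x : L2 | ∀ c (h : X c), eps c (hc c h) • x = x} with hF
  have mF : ∀ {v}, mk2 v ∈ F → ∀ c (h : X c), Cg (eps c (hc c h) • v) (v + 0) := fun hv c h => by
    rw [add_zero, ← mk2_eq, ← smul_mk2]; exact hv c h
  have aF : ∀ {x y}, x ∈ F → y ∈ F → x + y ∈ F := fun hx hy c h => by rw [smul_add, hx c h, hy c h]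
  have ng : ∀ x : L2, -x = x := fun x => neg_eq_of_add_eq_zero_left (L2_add_self x)
  obtain ⟨a, ha⟩ := exists_sp (X := {c | X c}) hc (by omega)
  obtain ⟨c, c1, c2⟩ : ∃ c, X c ∧ ¬ Sp ∅ c := by
    by_contra! h
    exact absurd (h16.trans ((Set.ncard_le_ncard h).trans (ncard_sp ∅))) (by norm_num)
  simp only [Sp, not_or] at c2
  have k1 := ncard_rel (G := Multiplicative L2) (H := F) (K := {x : L2 | x ∈ F ∧ ∃ v, mk2 v = x ∧ C2 v ∅})
    (S := {b | Sp a b}) (fun x d => ∃ v, mk2 v = x ∧ C2 v d) (m := 2) (fun x hx => by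
      obtain ⟨v, rfl⟩ := mk2_surj x
      obtain ⟨d, hd, e⟩ := even _ c2.1 c2.2.1 c4_zero (mF hx c c1)
      obtain ⟨w, hw, e'⟩ := e.compl
      have hx' : mk2 w ∈ F := mk2_eq.2 hw ▸ hx
      refine (Set.one_lt_ncard (Set.toFinite _)).2 ⟨d, ⟨ha d hd fun c h => inter _ c4_zero (mF hx c h) e,
        v, rfl, e⟩, dᶜ, ⟨ha _ e'.mem fun c h => inter _ c4_zero (mF hx' c h) e', w,
        (mk2_eq.2 hw).symm, e'⟩, fun h => ?_⟩
      have := Finset.ext_iff.1 h none
      rw [Finset.mem_compl] at this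
      tauto) (by
      rintro d _ hx _ hy ⟨v, rfl, e⟩ ⟨w, rfl, e'⟩
      change -mk2 v + mk2 w ∈ _
      rw [ng]
      have e2 := e.add e'
      rw [symmDiff_self] at e2
      exact ⟨aF hx hy, v + w, map_add _ _ _, e2⟩)
  have hW : Lin fun y => ∃ v, mk2 v ∈ F ∧ C4 v y :=
    ⟨⟨0, fun c h => by rw [map_zero, smul_zero], c4_zero⟩, fun _ _ ⟨v, hv, e⟩ ⟨w, hw, e'⟩ =>
      ⟨v + w, by rw [map_add]; exact aF hv hw, e.add e'⟩⟩
  have k2 := hW.perp hX fun y c ⟨v, hv, e⟩ h => e.eps (hc c h) (by simpa only [add_zero] using mF hv c h)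
  have k3 := ncard_rel (G := Multiplicative L2) (H := {x : L2 | x ∈ F ∧ ∃ v, mk2 v = x ∧ C2 v ∅})
    (K := ({0, mk2 (e8 none)} : Set L2)) (S := {y | ∃ v, mk2 v ∈ F ∧ C4 v y})
    (fun x y => ∃ v, mk2 v = x ∧ C4 v y) (m := 4096) (by
      rintro _ ⟨hx, v, rfl, e⟩
      obtain ⟨y, e⟩ := e.c4
      rw [← H15.ncard_codeSets]
      refine Set.ncard_le_ncard_of_injOn (y ∆ ·) (fun c h => ?_) fun _ _ _ _ => symmDiff_right_inj.1
      obtain ⟨w, hw, e'⟩ := e.shift h
      exact ⟨⟨w, mk2_eq.2 hw ▸ hx, e'⟩, w, (mk2_eq.2 hw).symm, e'⟩) (by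
      rintro d _ - _ - ⟨v, rfl, e⟩ ⟨w, rfl, e'⟩
      change -mk2 v + mk2 w ∈ _
      rcases same e' e none with h | h <;> rw [mk2_eq.2 h]
      · exact Or.inl (neg_add_cancel _)
      · exact Or.inr (by rw [map_add, neg_add_cancel_left]; rfl))
  have k4 := Nat.mul_le_mul_right {x : L2 | x ∈ F ∧ ∃ v, mk2 v = x ∧ C2 v ∅}.ncard (ncard_sp a)
  have k5 := Nat.mul_le_mul_left {y | ∃ v, mk2 v ∈ F ∧ C4 v y}.ncard h16
  have k6 := Nat.mul_le_mul_left {y | ∃ v, mk2 v ∈ F ∧ C4 v y}.ncard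
    ((Set.ncard_insert_le (0 : L2) {mk2 (e8 none)}).trans_eq (by rw [Set.ncard_singleton]))
  have k7 := k1.trans k4
  have k8 := k3.trans k6
  have k9 := k5.trans k2
  change F.ncard * 2 ≤ _ at k7
  change {x : L2 | x ∈ F ∧ ∃ v, mk2 v = x ∧ C2 v ∅}.ncard * 4096 ≤ _ at k8
  omega

theorem sx {v w : leechLattice} (hv : sqNorm (v : GolayPt → ℤ) = 64) (hw : sqNorm (w : GolayPt → ℤ) = 64)
    (nv : ¬ Cg v (e8 none)) (nw : ¬ Cg w (e8 none))
    (ev : ∀ c (hc : c ∈ code), Cg (eps c hc • v) v ∨ Cg (eps c hc • v) (v + e8 none))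
    (ew : ∀ c (hc : c ∈ code), Cg (eps c hc • w) w ∨ Cg (eps c hc • w) (w + e8 none)) :
    ∃ γ ∈ monoGroup, Cg (γ • v) w := by
  obtain ⟨v', y, h1, h2, h3⟩ := shape hv nv ev
  obtain ⟨w', y', h4, h5, h6⟩ := shape hw nw ew
  obtain ⟨σ, hσ, e⟩ := H15.M24_trans_sets (s := y) (t := y') (by omega) (by omega)
  rcases same (e ▸ h2.mono hσ empty_mem_code) h5 none with h | h
  · exact ⟨_, mono_mem hσ empty_mem_code, ((h1.smul _).trans h).trans h4.symm⟩
  obtain ⟨c, hc, h7⟩ : ∃ c ∈ code, ¬ 2 ∣ (c ∩ y').card := by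
    by_contra! k
    have := card_of_mem_code (mem_code_of_even k)
    omega
  have h8 := (ew c hc).resolve_left fun k => h7 (Finset.inter_comm y' c ▸
    h5.eps hc (((h4.smul _).symm.trans k).trans h4))
  refine ⟨_, mul_mem (eps_mem hc) (mono_mem hσ empty_mem_code), ?_⟩
  have h9 := (((h1.smul _).trans h).trans (h4.symm.add (Cg.refl _))).smul (eps c hc)
  rw [smul_add] at h9
  rw [mul_smul]
  refine h9.trans ((h8.add (mem_monoGroup_iff_cg.1 (eps_mem hc))).trans ?_)
  rw [add_assoc]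
  exact cg_add_self _ _

end H95.Ag
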