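import Mathlib
import Cfsg.Agent.Lib.MAg.Defs

/-! The hypotheses on the subgroups `N` and `L` of the amalgam. -/

set_option autoImplicit false

namespace H95.Ag

open Cfsg Subgroup

variable {G : Type*} [Group G]

structure Sit (z : G) (C N L : Subgroup G) (π : N →* Equiv.Perm (Fin 3) × M24)
    (ρ : L →* Matrix.SpecialLinearGroup (Fin 3) (ZMod 2)) : Prop where
  z1 : z ≠ 1
  zz : z * z = 1
  cz : ∀ c ∈ C, c * z = z * c
  fin : Finite C
  surj : Function.Surjective π
  ker : IsPGroup 2 π.ker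
  surjL : Function.Surjective ρ
  kerL : ∃ j, Nat.card ρ.ker = 2 ^ j * 2160
  hNC : C.relIndex N = 3
  hLN : N.relIndex L = 7
  hLC : C.relIndex L = 7
  hLNC : (N ⊓ C).relIndex L = 21

theorem finite_of_relIndex {C N : Subgroup G} [Finite C] (h : C.relIndex N ≠ 0) : Finite N := by
  have : Finite (C.subgroupOf N) := Finite.of_injective (fun x => (⟨x.1.1, x.2⟩ : C))
    fun a b e => Subtype.ext (Subtype.ext (congrArg (fun x : C => (x : G)) e))
  refine Nat.finite_of_card_ne_zero ?_
  rw [← card_mul_index (C.subgroupOf N)]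
  exact mul_ne_zero Nat.card_pos.ne' h

theorem Sit.finN {z : G} {C N L : Subgroup G} {π : N →* Equiv.Perm (Fin 3) × M24}
    {ρ : L →* Matrix.SpecialLinearGroup (Fin 3) (ZMod 2)} (S : Sit z C N L π ρ) : Finite N :=
  have := S.fin
  finite_of_relIndex (C := C) (by rw [S.hNC]; norm_num)

theorem Sit.finL {z : G} {C N L : Subgroup G} {π : N →* Equiv.Perm (Fin 3) × M24}
    {ρ : L →* Matrix.SpecialLinearGroup (Fin 3) (ZMod 2)} (S : Sit z C N L π ρ) : Finite L :=
  have := S.fin
  finite_of_relIndex (C := C) (by rw [S.hLC]; norm_num)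

end H95.Ag
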