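import Mathlib
import Cfsg.Agent.Lib.MAg.Sit

set_option autoImplicit false

namespace H95.Ag

open Cfsg Subgroup H16

variable {G : Type*} [Group G] {z : G} {Q C N L : Subgroup G} {π : N →* Equiv.Perm (Fin 3) × M24}
  {ρ : L →* Matrix.SpecialLinearGroup (Fin 3) (ZMod 2)} {φ : C →* Spor.Co1} {cls : leechLattice → G → Prop}

namespace Geo

/-- A subgroup of prime relative index is maximal. -/
theorem max_of_prime {L A H : Subgroup G} (hp : (A.relIndex L).Prime) (hA : ∀ x ∈ L, x ∈ A → x ∈ H) :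
    (∀ x ∈ L, x ∈ H → x ∈ A) ∨ L ≤ H := by
  have h1 : A ⊓ L ≤ H ⊓ L := fun x hx => ⟨hA x hx.2 hx.1, hx.2⟩
  have h2 := relIndex_mul_relIndex (A ⊓ L) (H ⊓ L) L h1 inf_le_right
  rw [inf_relIndex_right, inf_relIndex_right] at h2
  rw [← h2] at hp
  rcases Nat.prime_mul_iff.1 hp with ⟨-, h⟩ | ⟨-, h⟩
  · exact Or.inr (relIndex_eq_one.1 h)
  · exact Or.inl fun x hx hH => ((relIndex_eq_one.1 h) ⟨hH, hx⟩).1

/-- The number of conjugates bounds the index of the centraliser. -/
theorem relIndex_le {L A : Subgroup G} {z : G} (T : Finset G) (hA : ∀ l ∈ L, l * z = z * l → l ∈ A)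
    (hT : ∀ l ∈ L, l * z * l⁻¹ ∈ T) : A.relIndex L ≤ T.card := by
  let f : L ⧸ A.subgroupOf L → T := fun q => ⟨q.out * z * (q.out : G)⁻¹, hT _ q.out.2⟩
  have hf : Function.Injective f := fun a b e => by
    have e' : (a.out : G) * z * (a.out : G)⁻¹ = b.out * z * (b.out : G)⁻¹ := congrArg Subtype.val e
    rw [← a.out_eq, ← b.out_eq]
    refine QuotientGroup.eq.2 (hA _ (a.out⁻¹ * b.out).2 ?_)
    show (a.out : G)⁻¹ * b.out * z = z * ((a.out : G)⁻¹ * b.out)
    calc (a.out : G)⁻¹ * b.out * z = (a.out : G)⁻¹ * (b.out * z * (b.out : G)⁻¹) * b.out := by group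
      _ = z * ((a.out : G)⁻¹ * b.out) := by rw [← e']; group
  have := Nat.card_le_card_of_injective f hf
  rwa [Nat.card_eq_fintype_card (α := T), Fintype.card_coe] at this

/-- The stabiliser of a triple under conjugation. -/
def stab (a b c : G) : Subgroup G where
  carrier := {l | ∀ t, (t = a ∨ t = b ∨ t = c) ↔ (l * t * l⁻¹ = a ∨ l * t * l⁻¹ = b ∨ l * t * l⁻¹ = c)}
  one_mem' := fun t => by simp
  mul_mem' := fun {x y} hx hy t => by
    rw [hy t, hx (y * t * y⁻¹), show x * (y * t * y⁻¹) * x⁻¹ = x * y * t * (x * y)⁻¹ by group]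
  inv_mem' := fun {x} hx t => by
    rw [hx (x⁻¹ * t * x⁻¹⁻¹), show x * (x⁻¹ * t * x⁻¹⁻¹) * x⁻¹ = t by group]

theorem conj_inj {c s t : G} (e : c * s * c⁻¹ = c * t * c⁻¹) : s = t := by simpa using e

end Geo

open Geo in
theorem Sit.geo (S : Sit z C N L π ρ) {w : G} (wz : w ≠ z) (w1 : w ≠ 1) (ww : w * w = 1) (zw : z * w = w * z)
    (hW : ∀ n ∈ N, n * z * n⁻¹ = z ∨ n * z * n⁻¹ = w ∨ n * z * n⁻¹ = z * w)
    (hC : ∀ n ∈ N, n * z = z * n → n ∈ C) :
    ∃ n ∈ N, ∃ c ∈ C, ∃ c' ∈ C, ∃ n' ∈ N, n * z * n⁻¹ = w ∧ (c' * n')⁻¹ * (n * c * n) ∈ C ∧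
      ∀ y, y = c' * n' * z * (c' * n')⁻¹ → y ≠ z ∧ y ≠ w ∧ y ≠ z * w := by
  classical
  have cz : ∀ c ∈ C, c * z * c⁻¹ = z := fun c hc => by rw [S.cz c hc]; group
  have i1 : C.relIndex (N ⊓ L) = 3 := by
    have := relIndex_mul_relIndex (N ⊓ C ⊓ L) (N ⊓ L) L
      (fun x hx => ⟨hx.1.1, hx.2⟩) inf_le_right
    rw [inf_relIndex_right, inf_relIndex_right, S.hLN, S.hLNC,
      show N ⊓ C ⊓ L = C ⊓ (N ⊓ L) by ext x; simp only [mem_inf]; tauto, inf_relIndex_right] at this
    omega
  have i2 : N.relIndex (C ⊓ L) = 3 := by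
    have := relIndex_mul_relIndex (N ⊓ C ⊓ L) (C ⊓ L) L
      (fun x hx => ⟨hx.1.2, hx.2⟩) inf_le_right
    rw [inf_relIndex_right, inf_relIndex_right, S.hLC, S.hLNC, inf_assoc, inf_relIndex_right] at this
    omega
  obtain ⟨n, hn, en⟩ : ∃ n ∈ N ⊓ L, n * z * n⁻¹ = w := by
    by_contra h
    push Not at h
    have := relIndex_le (L := N ⊓ L) (A := C) (z := z) {z, z * w} (fun l hl => hC l hl.1) fun l hl => by
      rcases hW l hl.1 with e | e | e
      · simp [e]
      · exact absurd e (h l hl)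
      · simp [e]
    have := Finset.card_le_two (a := z) (b := z * w)
    omega
  obtain ⟨m, hm, em⟩ : ∃ n ∈ N ⊓ L, n * z * n⁻¹ = z * w := by
    by_contra h
    push Not at h
    have := relIndex_le (L := N ⊓ L) (A := C) (z := z) {z, w} (fun l hl => hC l hl.1) fun l hl => by
      rcases hW l hl.1 with e | e | e
      · simp [e]
      · simp [e]
      · exact absurd e (h l hl)
    have := Finset.card_le_two (a := z) (b := w)
    omega
  have fw : ∀ x ∈ N, ∀ t, (t = z ∨ t = w ∨ t = z * w) →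
      (x * t * x⁻¹ = z ∨ x * t * x⁻¹ = w ∨ x * t * x⁻¹ = z * w) := by
    rintro x hx t (rfl | rfl | rfl)
    · exact hW x hx
    · have := hW _ (mul_mem hx hn.1)
      rwa [show x * n * z * (x * n)⁻¹ = x * (n * z * n⁻¹) * x⁻¹ by group, en] at this
    · have := hW _ (mul_mem hx hm.1)
      rwa [show x * m * z * (x * m)⁻¹ = x * (m * z * m⁻¹) * x⁻¹ by group, em] at this
  have hNs : ∀ x ∈ N, x ∈ stab z w (z * w) := fun x hx t =>
    ⟨fw x hx t, fun h => by
      have := fw _ (inv_mem hx) _ h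
      rwa [show x⁻¹ * (x * t * x⁻¹) * x⁻¹⁻¹ = t by group] at this⟩
  have hCL : ∀ l ∈ L, l * z = z * l → l ∈ C := by
    rcases max_of_prime (L := L) (A := C) (H := centralizer {z}) (by rw [S.hLC]; norm_num)
      (fun x _ hx => mem_centralizer_singleton_iff.2 (S.cz x hx)) with h | h
    · exact fun l hl e => h l hl (mem_centralizer_singleton_iff.2 e)
    · exact absurd (by rw [← en, mem_centralizer_singleton_iff.1 (h hn.2)]; group) wz
  have hst : ∀ l ∈ L, l ∈ stab z w (z * w) → l ∈ N := by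
    rcases max_of_prime (L := L) (A := N) (H := stab z w (z * w)) (by rw [S.hLN]; norm_num)
      (fun x _ hx => hNs x hx) with h | h
    · exact h
    · have := relIndex_le (L := L) (A := C) (z := z) {z, w, z * w} hCL fun l hl => by
        simpa using (h hl z).1 (Or.inl rfl)
      have := Finset.card_le_three (a := z) (b := w) (c := z * w)
      have := S.hLC
      omega
  have key : ∀ c ∈ C ⊓ L, (c * w * c⁻¹ = w ∨ c * w * c⁻¹ = z * w) → c ∈ N := by
    intro c hc h
    have e0 := cz c hc.1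
    have e1 : c * (z * w) * c⁻¹ = z * (c * w * c⁻¹) := by
      calc c * (z * w) * c⁻¹ = (c * z * c⁻¹) * (c * w * c⁻¹) := by group
        _ = _ := by rw [e0]
    refine hst c hc.2 fun t => ?_
    rcases h with h | h
    · rw [h] at e1
      constructor
      · rintro (rfl | rfl | rfl)
        exacts [Or.inl e0, Or.inr (Or.inl h), Or.inr (Or.inr e1)]
      · rintro (e | e | e)
        exacts [Or.inl (conj_inj (e.trans e0.symm)), Or.inr (Or.inl (conj_inj (e.trans h.symm))),
          Or.inr (Or.inr (conj_inj (e.trans e1.symm)))]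
    · rw [h, ← mul_assoc z z, S.zz, one_mul] at e1
      constructor
      · rintro (rfl | rfl | rfl)
        exacts [Or.inl e0, Or.inr (Or.inr h), Or.inr (Or.inl e1)]
      · rintro (e | e | e)
        exacts [Or.inl (conj_inj (e.trans e0.symm)), Or.inr (Or.inr (conj_inj (e.trans e1.symm))),
          Or.inr (Or.inl (conj_inj (e.trans h.symm)))]
  obtain ⟨c, hc, hcN⟩ : ∃ c ∈ C ⊓ L, c ∉ N := by
    by_contra h
    push Not at h
    rw [relIndex_eq_one.2 h] at i2
    omega
  -- the seven cosets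
  let ι := (C ⊓ L : Subgroup G) ⧸ N.subgroupOf (C ⊓ L)
  have hι : Nat.card ι = 3 := i2
  have : Finite ι := Nat.finite_of_card_ne_zero (by omega)
  let nb : Bool → G := fun b => if b then m else n
  have nbL : ∀ b, nb b ∈ N ⊓ L := fun b => by cases b <;> assumption
  let g : Option (ι × Bool) → L := fun o => match o with
    | none => 1
    | some (i, b) => ⟨i.out * nb b, mul_mem i.out.2.2 (nbL b).2⟩
  have cj : ∀ (i : ι) b, (g (some (i, b)) : G) * z * (g (some (i, b)) : G)⁻¹ =
      i.out * (if b then z * w else w) * (i.out : G)⁻¹ := fun i b => by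
    show (i.out : G) * nb b * z * ((i.out : G) * nb b)⁻¹ = _
    cases b
    · show (i.out : G) * n * z * ((i.out : G) * n)⁻¹ = i.out * w * (i.out : G)⁻¹
      rw [← en]; group
    · show (i.out : G) * m * z * ((i.out : G) * m)⁻¹ = i.out * (z * w) * (i.out : G)⁻¹
      rw [← em]; group
  have nz : ∀ (i : ι) b, (g (some (i, b)) : G) * z * (g (some (i, b)) : G)⁻¹ ≠ z := fun i b e => by
    rw [cj] at e
    have := conj_inj (e.trans (cz _ i.out.2.1).symm)
    cases b
    · exact wz this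
    · exact w1 (by simpa using this)
  let f : Option (ι × Bool) → L ⧸ C.subgroupOf L := fun o => (g o : L ⧸ C.subgroupOf L)
  have fe : ∀ a b : L, (a : L ⧸ C.subgroupOf L) = b → (a : G) * z * (a : G)⁻¹ = b * z * (b : G)⁻¹ := by
    intro a b e
    have e' : a⁻¹ * b ∈ C.subgroupOf L := QuotientGroup.eq.1 e
    have e2 : (a : G)⁻¹ * b * z * ((a : G)⁻¹ * b)⁻¹ = z := cz _ e'
    calc (a : G) * z * (a : G)⁻¹ = a * ((a : G)⁻¹ * b * z * ((a : G)⁻¹ * b)⁻¹) * (a : G)⁻¹ := by rw [e2]
      _ = _ := by group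
  have hf : Function.Injective f := by
    rintro (_ | ⟨i, b⟩) (_ | ⟨j, b'⟩) e
    · rfl
    · exact absurd ((fe _ _ e).symm.trans (by simp [g])) (nz j b')
    · exact absurd ((fe _ _ e).trans (by simp [g])) (nz i b)
    · have e1 := fe _ _ e
      rw [cj, cj] at e1
      have hd : ((j.out : G)⁻¹ * i.out) ∈ C ⊓ L := mul_mem (inv_mem j.out.2) i.out.2
      have e2 : (j.out : G)⁻¹ * i.out * (if b then z * w else w) * ((j.out : G)⁻¹ * i.out)⁻¹ =
          if b' then z * w else w := by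
        calc _ = (j.out : G)⁻¹ * (i.out * (if b then z * w else w) * (i.out : G)⁻¹) * j.out := by group
          _ = _ := by rw [e1]; group
      have e3 := cz _ hd.1
      have hij : i = j := by
        rw [← i.out_eq, ← j.out_eq]
        suffices h : j.out⁻¹ * i.out ∈ N.subgroupOf (C ⊓ L) from (QuotientGroup.eq.2 h).symm
        refine key ((j.out : G)⁻¹ * i.out) hd ?_
        clear hd
        generalize (j.out : G)⁻¹ * i.out = d at e2 e3 ⊢
        have e4 : d * w * d⁻¹ = z * (d * (z * w) * d⁻¹) := by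
          calc d * w * d⁻¹ = d * (z * z) * w * d⁻¹ := by rw [S.zz, mul_one]
            _ = (d * z * d⁻¹) * (d * (z * w) * d⁻¹) := by group
            _ = _ := by rw [e3]
        cases b <;> cases b' <;> simp only [Bool.false_eq_true, ↓reduceIte] at e2
        · exact Or.inl e2
        · exact Or.inr e2
        · exact Or.inr (e4.trans (congrArg _ e2))
        · exact Or.inl (e4.trans ((congrArg _ e2).trans (by rw [← mul_assoc, S.zz, one_mul])))
      subst hij
      have e5 := conj_inj e1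
      cases b <;> cases b'
      · rfl
      · exact absurd (by simpa using e5) S.z1
      · exact absurd (by simpa using e5) S.z1
      · rfl
  have h7 : Nat.card (L ⧸ C.subgroupOf L) = 7 := S.hLC
  have : Finite (L ⧸ C.subgroupOf L) := Nat.finite_of_card_ne_zero (by omega)
  have hb : Function.Bijective f := hf.bijective_of_nat_card_le (by
    rw [h7, Finite.card_option, Nat.card_prod, hι]; simp)
  have hy : ∀ y, y = n * c * n * z * (n * c * n)⁻¹ → y ≠ z ∧ y ≠ w ∧ y ≠ z * w := by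
    intro y e
    have e1 : y = n * (c * w * c⁻¹) * n⁻¹ := by rw [e, ← en]; group
    by_contra h
    have h' : y = z ∨ y = w ∨ y = z * w := by tauto
    rw [e1, ← hNs n hn.1] at h'
    rcases h' with h' | h'
    · exact wz (conj_inj (h'.trans (cz c hc.1).symm))
    · exact hcN (key c hc h')
  obtain ⟨o, ho⟩ := hb.2 ((⟨n * c * n, mul_mem (mul_mem hn.2 hc.2) hn.2⟩ : L) : L ⧸ C.subgroupOf L)
  have e1 := fe _ _ ho
  rcases o with _ | ⟨i, b⟩
  · exact absurd (e1.symm.trans (by simp [g])) (hy _ rfl).1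
  · have ho' : (g (some (i, b)))⁻¹ * (⟨n * c * n, mul_mem (mul_mem hn.2 hc.2) hn.2⟩ : L) ∈ C.subgroupOf L :=
      QuotientGroup.eq.1 ho
    exact ⟨n, hn.1, c, hc.1, i.out, i.out.2.1, nb b, (nbL b).1, en, ho', fun y e => hy y (e.trans e1)⟩

open Geo in
theorem Sit.gen (S : Sit z C N L π ρ) (hgen : C ⊔ N ⊔ L = ⊤) {H : Subgroup G} (hC : C ≤ H) {x : G}
    (hx : x ∈ N) (hx' : x ∉ C) (hH : x ∈ H) : H = ⊤ := by
  have hN : N ≤ H := by
    rcases max_of_prime (L := N) (A := C) (H := H) (by rw [S.hNC]; norm_num) (fun x _ h => hC h) with h | h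
    · exact absurd (h x hx hH) hx'
    · exact h
  have hL : L ≤ H := by
    rcases max_of_prime (L := L) (A := C) (H := H) (by rw [S.hLC]; norm_num) (fun x _ h => hC h) with h | h
    · have h1 := S.hLNC
      rw [← inf_relIndex_right, show N ⊓ C ⊓ L = N ⊓ L from
        le_antisymm (fun x hx => ⟨hx.1.1, hx.2⟩) fun x hx => ⟨⟨hx.1, h x hx.2 (hN hx.1)⟩, hx.2⟩,
        inf_relIndex_right, S.hLN] at h1
      omega
    · exact h
  exact top_le_iff.1 (hgen ▸ sup_le (sup_le hC hN) hL)

end H95.Ag
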