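import Mathlib
import Cfsg.Agent.Lib.MAg.Defs
import Cfsg.Agent.Lib.MRank.Lat

/-! Elements of order 23 of the first Conway group; classes fixed by all sign changes. -/

set_option autoImplicit false

namespace H95.Ag.Le23

open Cfsg Subgroup H16 H15 H7.ML H60.MR

/-- the vector `(-3, 1^23)` -/
def u2 : leechLattice := ⟨odd3 none, (cong_odd3 none).mem empty_mem_code⟩

theorem u2_apply (i : GolayPt) : (u2 : GolayPt → ℤ) i = if i = none then -3 else 1 := rfl

theorem zsmul_cases (x : L2) (s : ℤ) : s • x = 0 ∨ s • x = x := by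
  obtain ⟨k, e | e⟩ := Int.even_or_odd' s
  · left; rw [e, mul_smul, two_zsmul, L2_add_self]
  · right; rw [e, add_smul, mul_smul, two_zsmul, L2_add_self, zero_add, one_smul]

theorem vec_h23 {y : leechLattice} (h : h23 • y = y) : ∃ s k : ℤ, y = s • u2 + k • e8 none := by
  have h1 : ∀ i < 22, ap alphaC i = i + 1 := by decide +kernel
  have h2 : ∀ i < 23, (y : GolayPt → ℤ) (pt i) = (y : GolayPt → ℤ) (pt 0) := by
    intro i
    induction i with
    | zero => exact fun _ => rfl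
    | succ i ih =>
      intro hi
      rw [← ih (by omega), ← h1 i (by omega)]
      exact fix_perm (hc := inM24_alphaC) h (by omega)
  have h3 : ∀ p : GolayPt, p ≠ none → (y : GolayPt → ℤ) p = (y : GolayPt → ℤ) (pt 0) :=
    forall_pt.2 fun i hi hne => h2 i (by
      by_contra hc
      exact hne (by rw [show i = 23 by omega, pt_23]))
  generalize (y : GolayPt → ℤ) (pt 0) = s at h3
  have h4 : ((y - s • u2 : leechLattice) : GolayPt → ℤ) =
      Pi.single none ((y : GolayPt → ℤ) none + 3 * s) := funext fun p => by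
    simp only [AddSubgroup.coe_sub, AddSubgroup.coe_zsmul, Pi.sub_apply, Pi.smul_apply, smul_eq_mul,
      u2_apply, Pi.single_apply]
    split_ifs with hp
    · rw [hp]; ring
    · rw [h3 p hp]; ring
  have h5 := eight_dvd_dotInt (y - s • u2).2 u2.2
  rw [h4, dotInt_single_left, u2_apply, if_pos rfl] at h5
  obtain ⟨k, hk⟩ : (8 : ℤ) ∣ (y : GolayPt → ℤ) none + 3 * s := by omega
  refine ⟨s, k, Subtype.ext (funext fun p => ?_)⟩
  simp only [AddSubgroup.coe_add, AddSubgroup.coe_zsmul, Pi.add_apply, Pi.smul_apply, smul_eq_mul,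
    u2_apply, e8_apply]
  split_ifs with hp
  · rw [hp]; omega
  · rw [h3 p hp]; ring

theorem cls_h23 {v : leechLattice} (h : h23 • mk2 v = mk2 v) :
    Cg v 0 ∨ Cg v (e8 none) ∨ Cg v u2 ∨ Cg v (u2 + e8 none) := by
  have h1 : h23 • ∑ k ∈ Finset.range 23, h23 ^ k • v = ∑ k ∈ Finset.range 23, h23 ^ k • v := by
    have e := Finset.sum_range_succ' (fun k => h23 ^ k • v) 23
    rw [Finset.sum_range_succ, ← orderOf_h23, pow_orderOf_eq_one, orderOf_h23, pow_zero,
      add_left_inj] at e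
    rw [Finset.smul_sum, e]
    simp only [pow_succ', mul_smul]
  obtain ⟨s, k, e⟩ := vec_h23 h1
  have h6 : ∀ k : ℕ, h23 ^ k • mk2 v = mk2 v := fun k =>
    pow_mem (show h23 ∈ MulAction.stabilizer Co0 (mk2 v) from h) k
  have h2 := congrArg mk2 e
  rw [map_sum, Finset.sum_congr rfl fun k _ => (smul_mk2 _ _).symm.trans (h6 k), Finset.sum_const,
    Finset.card_range, succ_nsmul, show 22 = 2 * 11 from rfl, mul_nsmul, two_nsmul, L2_add_self,
    nsmul_zero, zero_add, map_add, map_zsmul, map_zsmul] at h2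
  simp only [← mk2_eq, map_zero, map_add]
  rcases zsmul_cases (mk2 u2) s with a | a <;> rcases zsmul_cases (mk2 (e8 none)) k with b | b <;>
    rw [a, b] at h2 <;> simp [h2]

theorem ord23 : orderOf (mk1 h23) = 23 := orderOf_mk1 (by norm_num) (by norm_num) orderOf_h23

theorem conj23 {a : Spor.Co1} (h : orderOf a = 23) :
    ∃ g : Spor.Co1, g * mk1 h23 * g⁻¹ ∈ zpowers a :=
  have := finite_sCo1
  exists_conj_mem_zpowers (by norm_num) h (by rw [card_sCo1]; norm_num)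
    (by rw [← ord23, pow_orderOf_eq_one])

theorem conj_fix {γ : Co0} (h : orderOf (QuotientGroup.mk γ : Spor.Co1) = 23) :
    ∃ σ : Co0, ∀ v : leechLattice, Cg (γ • v) v → h23 • mk2 (σ • v) = mk2 (σ • v) := by
  obtain ⟨g, k, hk⟩ := conj23 h
  obtain ⟨σ, rfl⟩ := mk1_surj g
  refine ⟨σ⁻¹, fun v hv => ?_⟩
  have h1 : γ ^ k • mk2 v = mk2 v :=
    zpow_mem (show γ ∈ MulAction.stabilizer Co0 (mk2 v) from mk2_eq.2 hv) k
  have h2 : mk1 (γ ^ k) = mk1 (σ * h23 * σ⁻¹) := by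
    rw [map_zpow, map_mul, map_mul, map_inv]; exact hk
  have h3 : (σ * h23 * σ⁻¹) • mk2 v = mk2 v := by
    rcases mk1_eq_iff.1 h2.symm with e | e
    · rw [e, h1]
    · rw [e, mul_smul, h1, center_smul negCo0_mem_center]
  rw [← smul_mk2, eq_inv_smul_iff, ← mul_smul, ← mul_smul]
  exact h3

theorem norm_u2 : sqNorm (u2 : GolayPt → ℤ) = 32 := sqNorm_odd3 none

theorem dot_u2 : dotInt (u2 : GolayPt → ℤ) (e8 none : leechLattice) = -24 := by
  rw [coe_e8, dotInt_comm, dotInt_single_left, u2_apply, if_pos rfl]; norm_num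

theorem dot_u3 : dotInt ((u2 + e8 none : leechLattice) : GolayPt → ℤ) (e8 none : leechLattice) = 40 := by
  rw [AddSubgroup.coe_add, H16.dotInt_add_left, dot_u2, dotInt_self, sqNorm_e8]; norm_num

theorem norm_u3 : sqNorm ((u2 + e8 none : leechLattice) : GolayPt → ℤ) = 48 := by
  rw [AddSubgroup.coe_add, sqNorm_add, dot_u2, norm_u2, sqNorm_e8]; norm_num

theorem cls64 {v : leechLattice} (h : h23 • mk2 v = mk2 v) (hv : sqNorm (v : GolayPt → ℤ) = 64) :
    Cg v (e8 none) := by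
  rcases cls_h23 h with e | e | e | e
  · have := e.norm_eq hv.le (by rw [sqNorm_zero']; norm_num)
    rw [sqNorm_zero'] at this
    omega
  · exact e
  · have := e.norm_eq hv.le (by rw [norm_u2]; norm_num)
    rw [norm_u2] at this
    omega
  · have := e.norm_eq hv.le (by rw [norm_u3]; norm_num)
    rw [norm_u3] at this
    omega

theorem cg_of_smul {σ : Co0} {v w : leechLattice} (h : Cg (σ • v) (σ • w)) : Cg v w := by
  simpa using h.smul σ⁻¹

theorem fix_eps0 {v : leechLattice} (h : ∀ c (hc : c ∈ code), Cg (eps c hc • v) v) (h2 : C2 v ∅) :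
    Cg v 0 ∨ Cg v (e8 none) := by
  obtain ⟨y, hy⟩ := h2.c4
  have h1 : y ∈ code := mem_code_of_even fun c hc => Finset.inter_comm y c ▸ hy.eps hc (h c hc)
  obtain ⟨w, hw, h3⟩ := hy.shift h1
  rw [symmDiff_self] at h3
  exact (cg_eight (v := w) (fun i => by simpa [ind_apply] using h3 i) none).imp hw.trans hw.trans

theorem modEq_fixed {Γ X : Type*} [Group Γ] [MulAction Γ X] {p : ℕ} [Fact p.Prime]
    (P : Subgroup Γ) (hP : IsPGroup p P) (Ω : Set X) (hΩ : Ω.Finite)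
    (h : ∀ g ∈ P, ∀ x ∈ Ω, g • x ∈ Ω) :
    Ω.ncard ≡ {x | x ∈ Ω ∧ ∀ g ∈ P, g • x = x}.ncard [MOD p] := by
  let S : SubMulAction P X := ⟨Ω, fun g _ hx => h g g.2 _ hx⟩
  have : Finite S := hΩ
  have h1 := hP.card_modEq_card_fixedPoints S
  have e1 : Nat.card S = Ω.ncard := rfl
  have e2 : Nat.card (MulAction.fixedPoints P S) =
      {x | x ∈ Ω ∧ ∀ g ∈ P, g • x = x}.ncard := by
    rw [← Nat.card_coe_set_eq]
    refine Nat.card_congr ⟨fun a => ⟨a.1.1, a.1.2, fun g hg => congrArg Subtype.val (a.2 ⟨g, hg⟩)⟩,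
      fun a => ⟨⟨a.1, a.2.1⟩, fun g => Subtype.ext (a.2.2 g g.2)⟩, fun _ => rfl, fun _ => rfl⟩
  rwa [e1, e2] at h1

theorem eqns_Le23 : True := by
  have := @u2.eq_1
  have := @u2.eq_def
  trivial

end H95.Ag.Le23

namespace H95.Ag

open Cfsg Subgroup H16

theorem fix64 {γ : Co0} (h : orderOf (QuotientGroup.mk γ : Spor.Co1) = 23) {v w : leechLattice}
    (hv : sqNorm (v : GolayPt → ℤ) = 64) (hw : sqNorm (w : GolayPt → ℤ) = 64)
    (fv : Cg (γ • v) v) (fw : Cg (γ • w) w) : Cg v w := by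
  obtain ⟨σ, hσ⟩ := Le23.conj_fix h
  exact Le23.cg_of_smul ((Le23.cls64 (hσ v fv) ((sqNorm_co0 σ v).trans hv)).trans
    (Le23.cls64 (hσ w fw) ((sqNorm_co0 σ w).trans hw)).symm)

theorem fix_perp {γ : Co0} (h : orderOf (QuotientGroup.mk γ : Spor.Co1) = 23)
    (he : Cg (γ • e8 none) (e8 none)) {v : leechLattice} (fv : Cg (γ • v) v)
    (hd : (16 : ℤ) ∣ dotInt (v : GolayPt → ℤ) (e8 none : leechLattice)) : Cg v 0 ∨ Cg v (e8 none) := by
  obtain ⟨σ, hσ⟩ := Le23.conj_fix h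
  have h1 := Le23.cls64 (hσ _ he) ((sqNorm_co0 σ _).trans (sqNorm_e8 _))
  rw [← dotInt_co0 σ, dotInt_comm, H7.ML.dot_cg h1, dotInt_comm] at hd
  rcases Le23.cls_h23 (hσ v fv) with e | e | e | e
  · exact Or.inl (Le23.cg_of_smul (σ := σ) (by rwa [smul_zero]))
  · exact Or.inr (Le23.cg_of_smul (e.trans h1.symm))
  · rw [H7.ML.dot_cg e, Le23.dot_u2] at hd
    omega
  · rw [H7.ML.dot_cg e, Le23.dot_u3] at hd
    omega

theorem cent23 {a b : Spor.Co1} (ha : orderOf a = 23) {k : ℕ} (hb : b ^ 2 ^ k = 1) (hc : a * b = b * a) :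
    b = 1 := by
  obtain ⟨g, j, hj⟩ := Le23.conj23 ha
  obtain ⟨d, hd⟩ := mk1_surj (g⁻¹ * b * g)
  have h1 : Commute (g * mk1 h23 * g⁻¹) b := hj ▸ (show Commute a b from hc).zpow_left j
  have h2 : mk1 d * mk1 h23 = mk1 h23 * mk1 d := by
    rw [hd]
    calc g⁻¹ * b * g * mk1 h23 = g⁻¹ * (b * (g * mk1 h23 * g⁻¹)) * g := by group
      _ = _ := by rw [← h1.eq]; group
  obtain ⟨i, -, hi⟩ := cent_h23 (comm_of_mk1 (by rw [orderOf_h23]; decide) h2)
  have h3 : b ^ 23 = 1 := by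
    have e : b = g * mk1 h23 ^ i * g⁻¹ := by rw [← hi, hd]; group
    rw [e, conj_pow, ← pow_mul, mul_comm i, pow_mul, ← Le23.ord23, pow_orderOf_eq_one]
    simp
  exact orderOf_eq_one_iff.1 (Nat.eq_one_of_dvd_coprimes
    (Nat.Coprime.pow_left k (show Nat.Coprime 2 23 by norm_num)) (orderOf_dvd_of_pow_eq_one hb)
    (orderOf_dvd_of_pow_eq_one h3))

theorem fix_eps {v : leechLattice} (h : ∀ c (hc : c ∈ code), Cg (eps c hc • v) v) :
    Cg v 0 ∨ Cg v (e8 none) := by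
  have h0 : (2 : ℤ) ∣ (v : GolayPt → ℤ) none := by
    have hO := H15.oct0_mem
    obtain ⟨i, hi⟩ := H7.ML.exists_mem hO
    obtain ⟨j, hj⟩ := H7.ML.exists_notMem hO
    have h1 := two_dvd_sub_of_mem ((H7.ML.fix_iff hO.1).1 (h _ hO.1)) i j
    have h2 := two_dvd_sub_of_mem v.2 i none
    rw [H7.ML.res_apply, H7.ML.res_apply, if_pos hi, if_neg hj] at h1
    omega
  obtain ⟨D, -, h2⟩ := H60.MR.exists_c2 h0
  have h3 : ∀ c ∈ code, c ∩ D ∈ code := fun c hc => by
    have := (h2.eps hc).cg H60.MR.c4_zero (by simpa using (Cg.refl (-v)).add (h c hc))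
    rwa [← Finset.bot_eq_empty, symmDiff_bot] at this
  by_cases e0 : D = ∅
  · exact Le23.fix_eps0 h (e0 ▸ h2)
  by_cases e1 : Dᶜ = ∅
  · obtain ⟨w, hw, h4⟩ := h2.compl
    exact (Le23.fix_eps0 (fun c hc => ((hw.smul _).symm.trans (h c hc)).trans hw)
      (e1 ▸ h4)).imp hw.trans hw.trans
  exfalso
  obtain ⟨i, hi⟩ := Finset.nonempty_iff_ne_empty.2 e0
  obtain ⟨j, hj⟩ := Finset.nonempty_iff_ne_empty.2 e1
  obtain ⟨O, hO, hs⟩ := H15.exists_octad_superset (s := {i, j})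
    (Finset.card_le_two.trans (by norm_num))
  rcases H7.ML.code_sub hO (h3 O hO.1) Finset.inter_subset_left with e | e
  · exact Finset.notMem_empty i (e ▸ Finset.mem_inter.2 ⟨hs (by simp), hi⟩)
  · exact Finset.mem_compl.1 hj (Finset.inter_eq_left.1 e (hs (by simp)))

/-- a 2-subgroup of order at most `2 ^ 21` normalised by an element of order 23 -/
theorem card23 {A : Subgroup Spor.Co1} (hA : IsPGroup 2 A) {g : Spor.Co1} (hg : orderOf g = 23)
    (hn : ∀ x ∈ A, g * x * g⁻¹ ∈ A) : A = ⊥ ∨ Nat.card A = 2 ^ 11 := by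
  have := finite_sCo1
  have : Finite (ConjAct Spor.Co1) := this
  have : Fact (Nat.Prime 23) := ⟨by norm_num⟩
  have hP : IsPGroup 23 (zpowers (ConjAct.toConjAct g)) := IsPGroup.of_card (n := 1) (by
    rw [Nat.card_zpowers, MulEquiv.orderOf_eq, hg, pow_one])
  have h1 := Le23.modEq_fixed _ hP (A : Set Spor.Co1) (Set.toFinite _) fun k hk x hx => by
    obtain ⟨n, rfl⟩ := (mem_powers_iff_mem_zpowers.2 hk)
    clear hk
    induction n with
    | zero => simpa using hx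
    | succ n ih =>
      simp only [pow_succ', mul_smul] at ih ⊢
      exact hn _ ih
  have h2 : {x | x ∈ (A : Set Spor.Co1) ∧ ∀ k ∈ zpowers (ConjAct.toConjAct g), k • x = x} = {1} := by
    ext x
    refine ⟨fun hx => ?_, fun hx => ?_⟩
    · obtain ⟨k, hk⟩ := hA ⟨x, hx.1⟩
      exact cent23 hg (congrArg Subtype.val hk)
        (mul_inv_eq_iff_eq_mul.1 (hx.2 _ (mem_zpowers _)))
    · rw [Set.mem_singleton_iff.1 hx]
      exact ⟨A.one_mem, fun k _ => smul_one k⟩
  obtain ⟨a, ha⟩ := IsPGroup.iff_card.1 hA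
  have h6 : (A : Set Spor.Co1).ncard = 2 ^ a := ha
  rw [h2, Set.ncard_singleton, h6] at h1
  have h3 := card_subgroup_dvd_card A
  rw [ha, card_sCo1] at h3
  have h4 : a ≤ 21 := by
    by_contra hc
    exact absurd ((pow_dvd_pow 2 (show 22 ≤ a by omega)).trans h3) (by norm_num)
  have h5 : a = 0 ∨ a = 11 := by
    unfold Nat.ModEq at h1
    interval_cases a <;> simp at h1 ⊢
  rcases h5 with rfl | rfl
  · exact Or.inl (eq_bot_of_card_eq A ha)
  · exact Or.inr ha

end H95.Ag
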