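import Mathlib
import Cfsg.Agent.Lib.MAg.Le23
import Cfsg.Agent.Lib.MAg.Fix

/-!
A subgroup of `Co1` with a normal subgroup of order `2 ^ 11` and an element of order 23 is conjugate into the
image of the monomial group.
-/

set_option autoImplicit false

namespace H95.Ag

open Cfsg Subgroup H16

namespace LemT

/-- a `p`-subgroup can be conjugated into a subgroup containing a full Sylow subgroup -/
theorem conj_into {G : Type*} [Group G] [Finite G] {p n m : ℕ} [Fact p.Prime] (hG : Nat.card G = p ^ n * m)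
    (hm : ¬ p ∣ m) {H A : Subgroup G} (hd : p ^ n ∣ Nat.card H) (hA : IsPGroup p A) :
    ∃ δ : G, ∀ x ∈ A, δ * x * δ⁻¹ ∈ H := by
  obtain ⟨K, hK⟩ := Sylow.exists_subgroup_card_pow_prime p hd
  have hc : Nat.card (K.map H.subtype) = p ^ (Nat.card G).factorization p := by
    rw [card_map_of_injective H.subtype_injective, hK, hG,
      Nat.factorization_mul (pow_ne_zero _ (Fact.out : p.Prime).ne_zero) (by rintro rfl; exact hm (dvd_zero _)),
      Finsupp.add_apply, Nat.factorization_eq_zero_of_not_dvd hm, Nat.Prime.factorization_pow Fact.out]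
    simp
  obtain ⟨S, hS⟩ := hA.exists_le_sylow
  obtain ⟨δ, hδ⟩ := MulAction.exists_smul_eq G S (Sylow.ofCard _ hc)
  refine ⟨δ, fun x hx => ?_⟩
  have h1 : δ * x * δ⁻¹ ∈ ((δ • S : Sylow p G) : Subgroup G) := by
    rw [Sylow.coe_subgroup_smul]
    exact smul_mem_pointwise_smul x (MulAut.conj δ) _ (hS hx)
  rw [hδ, Sylow.coe_ofCard] at h1
  exact map_subtype_le K h1

theorem pg_of_sq {G : Type*} [Group G] {A : Subgroup G} (h : ∀ x ∈ A, x * x = 1) : IsPGroup 2 A :=
  fun x => ⟨1, Subtype.ext (by simpa [pow_two] using h x x.2)⟩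

def o8 : ℕ := 765429090724182153764204894296199350

theorem exists_o8 : ∃ x : M24, x ^ 8 = 1 ∧ x ^ 4 ≠ 1 := by
  have h : H15.inM24 o8 = true := by decide +kernel
  have k := H15.okP_of_inM24 h
  refine ⟨⟨_, H15.permOf_mem_M24 h⟩, Subtype.ext (H15.permOf_pow_eq_one k (by decide +kernel)), fun e => ?_⟩
  have e' : H15.permOf o8 ^ 4 = 1 := congrArg Subtype.val e
  rw [← (H15.powP_spec k 4).2] at e'
  exact H15.permOf_ne_one (H15.powP_spec k 4).1 (i := 1) (by norm_num) (by decide +kernel) e'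

end LemT

open LemT

theorem rank_M24 {A : Subgroup M24} (h : ∀ x ∈ A, x * x = 1) : Nat.card A ≤ 2 ^ 8 := by
  by_contra hlt
  obtain ⟨S, hS⟩ := (pg_of_sq h).exists_le_sylow
  obtain ⟨k, hk⟩ := (pg_of_sq h).exists_card_eq
  have hcS : Nat.card S = 2 ^ 10 := by
    rw [S.card_eq_multiplicity, H15.card_M24]
    congr 1
    rw [show 244823040 = 2 ^ 10 * 239085 by norm_num,
      Nat.factorization_mul (by norm_num) (by norm_num), Finsupp.add_apply,
      Nat.factorization_eq_zero_of_not_dvd (n := 239085) (by norm_num), Nat.prime_two.factorization_pow]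
    simp
  have hi := card_mul_index (A.subgroupOf S)
  rw [Nat.card_congr (subgroupOfEquivOfLe hS).toEquiv, hcS, hk] at hi
  rw [hk] at hlt
  have hk9 : 9 ≤ k := by
    by_contra h9
    exact hlt (Nat.pow_le_pow_right (by norm_num) (by omega))
  have hi2 : (A.subgroupOf S).index ∣ 2 := by
    obtain ⟨j, rfl⟩ := Nat.exists_eq_add_of_le hk9
    rw [pow_add, mul_assoc, show 2 ^ 10 = 2 ^ 9 * 2 by norm_num] at hi
    exact Dvd.intro_left _ (Nat.eq_of_mul_eq_mul_left (by norm_num) hi)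
  have hsq : ∀ y ∈ (S : Subgroup M24), y * y ∈ A := fun y hy => by
    rcases (Nat.dvd_prime Nat.prime_two).1 hi2 with e | e
    · rw [index_eq_one] at e
      have : (⟨y, hy⟩ : S) ∈ A.subgroupOf S := e ▸ mem_top _
      exact mul_mem this this
    · exact mul_self_mem_of_index_two e ⟨y, hy⟩
  obtain ⟨x, x8, x4⟩ := exists_o8
  have hx : IsPGroup 2 (zpowers x) := by
    rintro ⟨_, i, rfl⟩
    exact ⟨3, Subtype.ext (by
      show (x ^ i) ^ 2 ^ 3 = 1
      rw [← zpow_natCast, ← zpow_mul, mul_comm, zpow_mul, zpow_natCast, show 2 ^ 3 = 8 by norm_num, x8,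
        one_zpow])⟩
  obtain ⟨δ, hδ⟩ := conj_into (G := M24) (p := 2) (n := 10) (m := 239085) (by rw [H15.card_M24]; norm_num)
    (by norm_num) (H := S) (by rw [hcS]) hx
  have := h _ (hsq _ (hδ x (mem_zpowers x)))
  apply x4
  have e : δ * x ^ 4 * δ⁻¹ = 1 := by rw [← this]; simp only [pow_succ, pow_zero]; group
  simpa using e

namespace LemT

theorem two_pow_mod {c d : ℕ} (hc : c ≤ d) (hd : d ≤ 10) (h : 2 ^ d ≡ 2 ^ c [MOD 23]) : c = d := by
  have : c ≤ 10 := hc.trans hd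
  revert h
  unfold Nat.ModEq
  interval_cases d <;> interval_cases c <;> simp

/-- an element acting with order dividing 23 on a small subgroup of the lattice modulo two acts trivially -/
theorem fix_small {γ : Co0} (h : ∀ x : L2, γ ^ 23 • x = x) {U : AddSubgroup L2} (hU : ∀ x ∈ U, γ • x ∈ U)
    (hc : Nat.card U ≤ 2 ^ 10) : ∀ x ∈ U, γ • x = x := by
  classical
  have := Fintype.ofFinite U
  let f : Function.End U := fun x => ⟨γ • x, hU x x.2⟩
  have hf : ∀ n (x : U), ((f ^ n) x : L2) = γ ^ n • (x : L2) := fun n => by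
    induction n with
    | zero => intro x; rw [pow_zero, pow_zero, one_smul]; rfl
    | succ n ih =>
      intro x
      rw [pow_succ, pow_succ, mul_smul]
      exact ih (f x)
  have h1 := Equiv.Perm.card_fixedPoints_modEq (f := f) (p := 23) (n := 1) (hp := ⟨by norm_num⟩)
    (funext fun x => Subtype.ext ((hf _ x).trans (h x)))
  let W : AddSubgroup U :=
    { carrier := {x | γ • (x : L2) = x}
      zero_mem' := smul_zero γ
      add_mem' := fun {a b} ha hb => by
        show γ • ((a : L2) + b) = a + b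
        rw [smul_add, ha, hb]
      neg_mem' := fun {a} ha => by
        show γ • (-(a : L2)) = -a
        rw [smul_neg, ha] }
  have e : Fintype.card f.fixedPoints = Nat.card W := by
    rw [← Nat.card_eq_fintype_card]
    exact Nat.card_congr (Equiv.subtypeEquivRight fun x => Subtype.ext_iff)
  rw [e, ← Nat.card_eq_fintype_card] at h1
  obtain ⟨d, -, hd⟩ := (Nat.dvd_prime_pow Nat.prime_two).1 (card_L2 ▸ U.card_addSubgroup_dvd_card)
  obtain ⟨c, hcd, hc'⟩ := (Nat.dvd_prime_pow Nat.prime_two).1 (hd ▸ W.card_addSubgroup_dvd_card)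
  rw [hd] at hc
  rw [hd, hc'] at h1
  obtain rfl := two_pow_mod hcd ((Nat.pow_le_pow_iff_right (by norm_num)).1 hc) h1
  have : W = ⊤ := AddSubgroup.eq_top_of_card_eq _ (hc'.trans hd.symm)
  intro x hx
  exact (this ▸ AddSubgroup.mem_top (⟨x, hx⟩ : U) : (⟨x, hx⟩ : U) ∈ W)

theorem card_words {O : Subgroup Co0} (hc : Nat.card O = 2 ^ 12) (hsq : ∀ x ∈ O, x * x ∈ epsGroup)
    (hM : O ≤ monoGroup) : 16 ≤ {c | ∃ h : c ∈ code, eps c h ∈ O}.ncard := by
  obtain ⟨ρ, hρ⟩ := exists_monoPerm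
  have hk : ∀ x : monoGroup, ρ x = 1 ↔ (x : Co0) ∈ epsGroup := by
    rintro ⟨_, σ, hσ, c, hc, rfl⟩
    refine (Eq.congr_left (hρ σ hσ c hc)).trans ⟨fun e => ?_, fun ⟨d, hd, e⟩ =>
      Subtype.ext (mono_inj (hσ := hσ) (hc := hc) e).1⟩
    obtain rfl : σ = 1 := congrArg Subtype.val e
    exact ⟨c, hc, rfl⟩
  let f : O →* M24 := ρ.comp (inclusion hM)
  have h1 : Nat.card f.range ≤ 2 ^ 8 := rank_M24 (by
    rintro _ ⟨x, rfl⟩
    rw [← map_mul]
    exact (hk _).2 (hsq x x.2))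
  have h2 := card_mul_index f.ker
  rw [index_ker, hc] at h2
  have h3 : Nat.card f.ker = Nat.card (O ⊓ epsGroup : Subgroup Co0) := by
    rw [← card_map_of_injective (f := O.subtype) O.subtype_injective]
    congr 2
    ext x
    exact ⟨fun ⟨y, hy, e⟩ => e ▸ ⟨y.2, (hk _).1 hy⟩, fun ⟨a, b⟩ => ⟨⟨x, a⟩, (hk _).2 b, rfl⟩⟩
  have h4 := card_mono_filter (fun σ => σ = 1) (fun c => ∃ h : c ∈ code, eps c h ∈ O)
    (O ⊓ epsGroup : Subgroup Co0) (fun x hx => hM hx.1) (fun σ hσ c hc =>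
      ⟨fun ⟨a, d, hd, e⟩ => by
        obtain rfl := (mono_inj e).1
        exact ⟨rfl, hc, a⟩,
      by rintro ⟨rfl, _, a⟩; exact ⟨a, c, hc, rfl⟩⟩)
  rw [show Nat.card {σ : Equiv.Perm GolayPt // σ ∈ M24 ∧ σ = 1} = 1 from
    Nat.card_eq_one_iff_exists.2 ⟨⟨1, one_mem _, rfl⟩, fun y => Subtype.ext y.2.2⟩, one_mul] at h4
  have h5 : {c | c ∈ code ∧ ∃ h : c ∈ code, eps c h ∈ O} = {c | ∃ h : c ∈ code, eps c h ∈ O} :=
    Set.ext fun c => ⟨fun h => h.2, fun h => ⟨h.1, h⟩⟩
  rw [h5] at h4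
  rw [← h4]
  change 16 ≤ Nat.card (O ⊓ epsGroup : Subgroup Co0)
  rw [← h3]
  by_contra hlt
  have : Nat.card f.ker * Nat.card f.range ≤ 15 * 2 ^ 8 := Nat.mul_le_mul (by omega) h1
  omega

theorem core {P O : Subgroup Co0} (hn : ∀ p ∈ P, ∀ x ∈ O, p * x * p⁻¹ ∈ O) (hneg : negCo0 ∈ O)
    (hc : Nat.card O = 2 ^ 12) (hsq : ∀ x ∈ O, x * x ∈ epsGroup) (hM : O ≤ monoGroup) {γ : Co0} (hγ : γ ∈ P)
    (h23 : orderOf (QuotientGroup.mk γ : Spor.Co1) = 23) : P ≤ monoGroup := by
  let U : AddSubgroup L2 :=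
    { carrier := {x | ∀ o ∈ O, o • x = x}
      zero_mem' := fun o _ => smul_zero o
      add_mem' := fun {a b} ha hb o ho => by rw [smul_add, ha o ho, hb o ho]
      neg_mem' := fun {a} ha o ho => by rw [smul_neg, ha o ho] }
  have hP : ∀ p ∈ P, ∀ x ∈ U, p • x ∈ U := fun p hp x hx o ho => by
    have := hx _ (hn _ (inv_mem hp) o ho)
    rw [inv_inv, mul_smul, mul_smul, inv_smul_eq_iff] at this
    exact this
  have hX : H60.MR.Lin fun c => ∃ h : c ∈ code, eps c h ∈ O :=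
    ⟨⟨empty_mem_code, eps_empty ▸ one_mem O⟩, fun a b ⟨ha, ea⟩ ⟨hb, eb⟩ =>
      ⟨symmDiff_mem_code ha hb, eps_mul_eps ha hb ▸ mul_mem ea eb⟩⟩
  have h1 := fix_le hX ⟨univ_mem_code, hneg⟩ (fun c h => h.1) (card_words hc hsq hM)
  have h2 : Nat.card U ≤ 2 ^ 10 := by
    refine le_trans (Set.ncard_le_ncard (s := (U : Set L2)) ?_ (Set.toFinite _)) h1
    exact fun x hx c h => hx _ h.2
  have h3 : ∀ x : L2, γ ^ 23 • x = x := center_smul (by
    rw [← QuotientGroup.eq_one_iff, QuotientGroup.mk_pow]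
    exact h23 ▸ pow_orderOf_eq_one (QuotientGroup.mk γ : Spor.Co1))
  have h4 := fix_small h3 (hP γ hγ) h2
  have hw : mk2 (e8 none) ∈ U := fun o ho => by
    rw [smul_mk2, mk2_eq]
    exact mem_monoGroup_iff_cg.1 (hM ho)
  intro p hp
  rw [mem_monoGroup_iff_cg]
  refine fix64 h23 ((sqNorm_co0 p _).trans (sqNorm_e8 _)) (sqNorm_e8 _) (mk2_eq.1 ?_) (mk2_eq.1 (h4 _ hw))
  exact h4 _ (hP p hp _ hw)

/-- the normal subgroup is elementary -/
theorem sq_one {O : Subgroup Spor.Co1} (hc : Nat.card O = 2 ^ 11) {g : Spor.Co1} (h23 : orderOf g = 23)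
    (hn : ∀ x ∈ O, g * x * g⁻¹ ∈ O) (hn' : ∀ x ∈ O, g⁻¹ * x * g⁻¹⁻¹ ∈ O) : ∀ x ∈ O, x * x = 1 := by
  have : Finite O := Nat.finite_of_card_ne_zero (by rw [hc]; norm_num)
  have hp : IsPGroup 2 O := IsPGroup.of_card hc
  let A : Subgroup Spor.Co1 :=
    { carrier := {x | x ∈ O ∧ (∀ y ∈ O, y * x = x * y) ∧ x * x = 1}
      one_mem' := ⟨one_mem O, fun y _ => by rw [mul_one, one_mul], mul_one 1⟩
      mul_mem' := fun {a b} ⟨a1, a2, a3⟩ ⟨b1, b2, b3⟩ => ⟨mul_mem a1 b1, fun y hy => by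
        rw [← mul_assoc, a2 y hy, mul_assoc, b2 y hy, mul_assoc], by
        rw [mul_assoc, ← mul_assoc b, a2 b b1, mul_assoc, b3, mul_one, a3]⟩
      inv_mem' := fun {a} ⟨a1, a2, a3⟩ => by
        rw [inv_eq_of_mul_eq_one_right a3]
        exact ⟨a1, a2, a3⟩ }
  have hA : A ≤ O := fun x hx => hx.1
  rcases card23 (A := A) (pg_of_sq fun x hx => hx.2.2) h23 (fun x ⟨a1, a2, a3⟩ => ⟨hn x a1, fun y hy => by
      have := a2 _ (hn' y hy)
      rw [inv_inv] at this
      calc y * (g * x * g⁻¹) = g * (g⁻¹ * y * g * x) * g⁻¹ := by group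
        _ = g * x * g⁻¹ * y := by rw [this]; group, by
      calc g * x * g⁻¹ * (g * x * g⁻¹) = g * (x * x) * g⁻¹ := by group
        _ = 1 := by rw [a3]; group⟩) with e | e
  · exfalso
    have : Nontrivial O := Finite.one_lt_card_iff_nontrivial.1 (by rw [hc]; norm_num)
    have hz := hp.center_nontrivial
    have hz2 : 2 ∣ Nat.card (center O) := by
      obtain ⟨k, hk⟩ := (hp.to_subgroup (center O)).exists_card_eq
      have := Finite.one_lt_card (α := center O)
      rw [hk] at this ⊢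
      exact dvd_pow_self 2 (by rintro rfl; simp at this)
    obtain ⟨x, hx⟩ := exists_prime_orderOf_dvd_card' (G := center O) 2 hz2
    have hxA : ((x : O) : Spor.Co1) ∈ A := ⟨(x : O).2, fun y hy =>
      congrArg Subtype.val (mem_center_iff.1 x.2 ⟨y, hy⟩), by
        have := pow_orderOf_eq_one x
        rw [hx, pow_two] at this
        exact congrArg (fun t : center O => ((t : O) : Spor.Co1)) this⟩
    rw [e, mem_bot] at hxA
    have : x = 1 := Subtype.ext (Subtype.ext hxA)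
    rw [this, orderOf_one] at hx
    omega
  · have : A = O := eq_of_le_of_card_ge hA (by rw [e, hc])
    intro x hx
    exact (this ▸ hx : x ∈ A).2.2

end LemT

set_option linter.unusedVariables false in
theorem lemT {P O : Subgroup Spor.Co1} (hO : O ≤ P) (hn : ∀ p ∈ P, ∀ x ∈ O, p * x * p⁻¹ ∈ O)
    (hc : Nat.card O = 2 ^ 11) (h2 : 2 ^ 21 ∣ Nat.card P) {g : Spor.Co1} (hg : g ∈ P) (h23 : orderOf g = 23) :
    ∃ δ : Co0, ∀ γ : Co0, (QuotientGroup.mk γ : Spor.Co1) ∈ P → δ * γ * δ⁻¹ ∈ monoGroup := by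
  have hsq := sq_one hc h23 (hn g hg) (hn _ (inv_mem hg))
  let π : Co0 →* Spor.Co1 := QuotientGroup.mk' (center Co0)
  have hs : Function.Surjective π := QuotientGroup.mk'_surjective _
  have hcO : Nat.card (O.comap π) = 2 ^ 12 := by
    have h1 := card_mul_index (O.comap π)
    have h3 := card_mul_index O
    rw [index_comap_of_surjective _ hs, card_Co0] at h1
    rw [hc, show Nat.card Spor.Co1 = _ from card_Co1] at h3
    have h4 : O.index = 2030164456320000 := by omega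
    rw [h4] at h1
    omega
  obtain ⟨δ, hδ⟩ := conj_into (G := Co0) (p := 2) (n := 22) (m := 1982582476875) (by rw [card_Co0]; norm_num)
    (by norm_num) (H := monoGroup) (by rw [card_monoGroup]; norm_num) (IsPGroup.of_card hcO)
  obtain ⟨γ0, rfl⟩ := hs g
  let κ := (MulAut.conj δ).toMonoidHom
  have := core (P := (P.comap π).map κ) (O := (O.comap π).map κ) (γ := κ γ0)
    (by
      rintro _ ⟨p, hp, rfl⟩ _ ⟨x, hx, rfl⟩
      refine ⟨p * x * p⁻¹, ?_, by simp only [map_mul, map_inv]⟩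
      have := hn _ hp _ hx
      rwa [← map_mul, ← map_inv, ← map_mul] at this)
    ⟨negCo0, by
      have : π negCo0 = 1 := (QuotientGroup.eq_one_iff _).2 negCo0_mem_center
      show π negCo0 ∈ O
      rw [this]
      exact one_mem O, by
      show δ * negCo0 * δ⁻¹ = negCo0
      rw [Subgroup.mem_center_iff.1 negCo0_mem_center δ, mul_inv_cancel_right]⟩
    ((card_map_of_injective (MulAut.conj δ).injective).trans hcO)
    (by
      rintro _ ⟨x, hx, rfl⟩
      refine center_le_epsGroup ?_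
      rw [← map_mul]
      refine (inferInstance : (center Co0).Normal).conj_mem _ ((QuotientGroup.eq_one_iff _).1 ?_) δ
      exact hsq _ hx)
    (by rintro _ ⟨x, hx, rfl⟩; exact hδ x hx) ⟨γ0, hg, rfl⟩
    (by
      rw [← h23]
      exact (MulAut.conj (π δ)).orderOf_eq (π γ0))
  exact ⟨δ, fun γ hγ => this ⟨γ, hγ, rfl⟩⟩

end H95.Ag
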