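import Mathlib
import Cfsg.Agent.Lib.MAg.Sit
import Cfsg.Agent.Lib.GL.Basic

/-! First facts on the subgroups `N` and `L` of the amalgam (helper11). -/

set_option autoImplicit false
set_option linter.unusedVariables false

namespace H95.Ag

open Cfsg Subgroup H16

namespace LF

theorem le_of_cop {Γ : Type*} [Group Γ] [Finite Γ] (A : Subgroup Γ) {H : Subgroup Γ} [A.Normal]
    (h : (Nat.card A).Coprime H.index) : A ≤ H := by
  have a : Nat.card ↥(H ⊓ A) * H.relIndex A = Nat.card A := H1.card_inf_mul_relIndex H A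
  have b := H1.card_sup_mul_card_inf_of_normal H A
  have c := H1.card_mul_relIndex_of_le (le_sup_left : H ≤ H ⊔ A)
  rw [← c, ← a, mul_assoc, mul_comm (Nat.card ↥(H ⊓ A)), Nat.mul_right_inj Nat.card_pos.ne',
    Nat.mul_left_inj Nat.card_pos.ne'] at b
  exact relIndex_eq_one.1 (Nat.eq_one_of_dvd_coprimes h (Dvd.intro_left _ a) (b ▸ relIndex_dvd_index_of_le le_sup_left))

theorem top_of_index {H : Subgroup M24} (h0 : H.index ≠ 0) (h : H.index ≤ 3) : H = ⊤ := by
  have := H15.isSimple_M24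
  have : Finite (M24 ⧸ H) := Nat.finite_of_card_ne_zero h0
  have d : H.normalCore.index ≤ H.index.factorial := by
    rw [normalCore_eq_ker, index_ker, index_eq_card, ← Nat.card_perm]
    exact card_le_card_group _
  rcases H.normalCore_normal.eq_bot_or_eq_top with e | e
  · rw [e, index_bot, H15.card_M24] at d
    exact absurd (d.trans (Nat.factorial_le h)) (by decide)
  · exact top_le_iff.1 (e ▸ H.normalCore_le)

theorem card_SL : Nat.card (Matrix.SpecialLinearGroup (Fin 3) (ZMod 2)) = 168 := by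
  have := H10.card_SL_fin (F := ZMod 2) 3 (by norm_num)
  rw [Nat.card_zmod] at this
  simpa [Finset.prod_range_succ, Fin.prod_univ_succ] using this

theorem six : ∀ a b c d e f g h i : ZMod 2, ∀ M, M = !![a, b, c; d, e, f; g, h, i] →
    M * M * M * (M * M * M) = 1 → M * M = 1 ∨ M * M * M = 1 := by
  simp only [forall_eq]
  decide +kernel

theorem no_comm {a b : Matrix.SpecialLinearGroup (Fin 3) (ZMod 2)} {k : ℕ} (h1 : a ^ 2 ^ k = 1) (h2 : a ≠ 1)
    (h3 : b ^ 3 = 1) (h4 : b ≠ 1) : ¬ Commute a b := fun c => by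
  induction k generalizing a with
  | zero => exact h2 (by simpa using h1)
  | succ k ih =>
    refine ih (a := a) (by_contra fun n => ?_) h2 c
    have c := c.pow_left (2 ^ k)
    rw [pow_succ, pow_mul] at h1
    generalize a ^ 2 ^ k = a at h1 n c
    have e2 : (a * b) ^ 2 = b ^ 2 := by rw [c.mul_pow, h1, one_mul]
    have e3 : (a * b) ^ 3 = a := by rw [c.mul_pow, h3, mul_one, pow_succ, h1, one_mul]
    rw [pow_three'] at e3
    rw [pow_two] at e2 h1
    rcases six _ _ _ _ _ _ _ _ _ _ (Matrix.eta_fin_three (a * b).1) (congrArg Subtype.val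
      (show a * b * (a * b) * (a * b) * (a * b * (a * b) * (a * b)) = 1 by rw [e3, h1])) with e | e
    · rw [pow_succ', ← e2, show a * b * (a * b) = 1 from Subtype.ext e, mul_one] at h3
      exact h4 h3
    · exact n (e3.symm.trans (Subtype.ext e))

end LF

open LF

variable {G : Type*} [Group G] {z : G} {Q C N L : Subgroup G} {π : N →* Equiv.Perm (Fin 3) × M24}
  {ρ : L →* Matrix.SpecialLinearGroup (Fin 3) (ZMod 2)} {φ : C →* Spor.Co1} {cls : leechLattice → G → Prop}

/-- the homomorphisms of `Sit` from the hypotheses of the statement -/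
theorem exists_pi [Finite N] (hN : Nonempty (↥N ⧸ pCore 2 ↥N ≃* Equiv.Perm (Fin 3) × ↥M24)) :
    ∃ π : N →* Equiv.Perm (Fin 3) × M24, Function.Surjective π ∧ IsPGroup 2 π.ker := by
  obtain ⟨e⟩ := hN
  refine ⟨e.toMonoidHom.comp (QuotientGroup.mk' _), e.surjective.comp (QuotientGroup.mk'_surjective _), ?_⟩
  rw [MonoidHom.ker_comp_of_injective _ _ e.injective, QuotientGroup.ker_mk']
  exact H1.isPGroup_pCore

theorem exists_rho [Finite L] {A B : Subgroup (↥L ⧸ pCore 2 ↥L)} (hA : A.Normal) (hB : B.Normal)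
    (h1 : A ⊓ B = ⊥) (h2 : A ⊔ B = ⊤) (e : Nonempty (↥A ≃* Matrix.SpecialLinearGroup (Fin 3) (ZMod 2)))
    (hc : Nat.card ↥B = 2160) : ∃ ρ : L →* Matrix.SpecialLinearGroup (Fin 3) (ZMod 2),
      Function.Surjective ρ ∧ ∃ j, Nat.card ρ.ker = 2 ^ j * 2160 := by
  obtain ⟨e⟩ := e
  let f := (MulEquiv.ofBijective ((QuotientGroup.mk' B).comp A.subtype) ⟨by
    rw [← MonoidHom.ker_eq_bot_iff, ← MonoidHom.comap_ker, QuotientGroup.ker_mk']
    exact subgroupOf_eq_bot.2 (disjoint_iff.2 ((inf_comm _ _).trans h1)), fun y => by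
    obtain ⟨y, rfl⟩ := QuotientGroup.mk'_surjective B y
    obtain ⟨a, ha, b, hb, rfl⟩ := mem_sup_of_normal_right.1 (h2 ▸ mem_top y)
    exact ⟨⟨a, ha⟩, by simp [(QuotientGroup.eq_one_iff b).2 hb]⟩⟩).symm.trans e
  obtain ⟨j, hj⟩ := (H1.isPGroup_pCore (p := 2) (G := L)).exists_card_eq
  refine ⟨f.toMonoidHom.comp ((QuotientGroup.mk' B).comp (QuotientGroup.mk' _)), f.surjective.comp
    ((QuotientGroup.mk'_surjective _).comp (QuotientGroup.mk'_surjective _)), j, ?_⟩
  rw [MonoidHom.ker_comp_of_injective _ _ f.injective, ← MonoidHom.comap_ker, QuotientGroup.ker_mk',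
    H1.card_comap_mk', hc, hj, mul_comm]

theorem Sit.mem_C (S : Sit z C N L π ρ) : ∃ t : Equiv.Perm (Fin 3), t ≠ 1 ∧ t * t = 1 ∧
    ∀ n : N, (n : G) ∈ C ↔ (π n).1 = 1 ∨ (π n).1 = t := by
  have := S.finN
  have i3 : (C.subgroupOf N).index = 3 := S.hNC
  obtain ⟨k, hk⟩ := S.ker.exists_card_eq
  have a : π.ker ≤ C.subgroupOf N := le_of_cop _ (by rw [hk, i3]; exact Nat.Coprime.pow_left _ (by norm_num))
  have b := (index_map_eq _ S.surj a).trans i3
  have c : (((C.subgroupOf N).map π).comap (MonoidHom.inr _ _)) = ⊤ := by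
    refine top_of_index index_ne_zero_of_finite ?_
    rw [index_comap]
    exact (relIndex_le_of_le_right le_top (by rw [relIndex_top_right, b]; norm_num)).trans_eq
      ((relIndex_top_right _).trans b)
  have d : (MonoidHom.fst _ _).ker ≤ (C.subgroupOf N).map π := fun x hx => by
    have : MonoidHom.inr _ _ x.2 ∈ (C.subgroupOf N).map π := (c ▸ mem_top x.2 :)
    rwa [show MonoidHom.inr _ _ x.2 = x from Prod.ext hx.symm rfl] at this
  have e := card_mul_index (((C.subgroupOf N).map π).map (MonoidHom.fst _ _))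
  rw [index_map_eq _ Prod.fst_surjective d, b, Nat.card_perm, Nat.card_fin] at e
  have e2 : Nat.card (((C.subgroupOf N).map π).map (MonoidHom.fst _ _)) = 2 := by
    simp only [Nat.factorial] at e; omega
  obtain ⟨t, t1, t2⟩ := (Nat.card_eq_two_iff' 1).1 e2
  refine ⟨t, fun e => t1 (Subtype.ext e), by
    have := pow_card_eq_one' (x := t)
    rw [e2, pow_two] at this
    exact congrArg Subtype.val this, fun n => ?_⟩
  have i : (n : G) ∈ C ↔ (π n).1 ∈ ((C.subgroupOf N).map π).map (MonoidHom.fst _ _) :=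
    (SetLike.ext_iff.1 (comap_map_eq_self a) n).symm.trans (SetLike.ext_iff.1 (comap_map_eq_self d) (π n)).symm
  rw [i]
  refine ⟨fun h => (em _).imp_right fun e => congrArg Subtype.val (t2 ⟨_, h⟩ fun f => e (congrArg Subtype.val f)), ?_⟩
  rintro (e | e) <;> rw [e]
  exacts [one_mem _, t.2]

theorem Sit.lstar (S : Sit z C N L π ρ) : ∃ θ : N, θ ^ 3 = 1 ∧ (π θ).1 ≠ 1 ∧ (π θ).2 = 1 ∧
    ∃ y : N, π y = 1 ∧ ∀ d : G, d = y * θ * (y : G)⁻¹ * (θ : G)⁻¹ →
      d ≠ 1 ∧ d ≠ z ∧ d ≠ θ * z * (θ : G)⁻¹ ∧ d ≠ (θ : G)⁻¹ * z * θ := by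
  have := S.finN
  have := S.finL
  obtain ⟨t, t1, t2, hC⟩ := S.mem_C
  obtain ⟨j, hj⟩ := S.kerL
  have k7 : ∀ H : Subgroup L, H.index = 7 → ρ.ker ≤ H := fun H e => le_of_cop _ (by
    rw [hj, e]; exact (Nat.Coprime.pow_left _ (by norm_num)).mul_left (by norm_num))
  have cm : ∀ H : Subgroup L, ρ.ker ≤ H → Nat.card (H.map ρ) * H.index = 168 := fun H e => by
    rw [← index_map_eq _ S.surjL e, card_mul_index, card_SL]
  have rX := k7 _ S.hLC
  have rY := k7 _ S.hLN
  have iY : (N.subgroupOf L).index = 7 := S.hLN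
  let ι : N.subgroupOf L →* N := (L.subtype.comp (N.subgroupOf L).subtype).codRestrict N fun y => y.2
  have cL := card_mul_index ρ.ker
  rw [index_ker, MonoidHom.range_eq_top.2 S.surjL, card_top, card_SL, hj, ← card_mul_index (N.subgroupOf L), iY] at cL
  obtain ⟨θ, a1, a2, a3⟩ : ∃ θ : N.subgroupOf L, θ ^ 3 = 1 ∧ (π (ι θ)).1 ≠ 1 ∧ (π (ι θ)).2 = 1 := by
    obtain ⟨k, hk⟩ := (show IsPGroup 2 (π.comp ι).ker from S.ker.comap_of_injective ι fun a b e =>
      Subtype.ext (Subtype.ext (congrArg (fun x : N => (x : G)) e))).exists_card_eq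
    have e1 := card_mul_index (π.comp ι).ker
    have e2 := card_mul_index (π.comp ι).range
    rw [index_ker, hk] at e1
    rw [Nat.card_prod, Nat.card_perm, Nat.card_fin, H15.card_M24] at e2
    obtain ⟨m, hm⟩ : 81 ∣ Nat.card (π.comp ι).range :=
      (show Nat.Coprime 81 (2 ^ k) from Nat.Coprime.pow_right k (by norm_num)).dvd_of_dvd_mul_left (by rw [e1]; omega)
    have o : orderOf (finRotate 3) = 3 := orderOf_eq_prime (by decide) (by decide)
    have : (zpowers (finRotate 3)).Normal := normal_of_index_eq_two (by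
      have := card_mul_index (zpowers (finRotate 3))
      rw [Nat.card_zpowers, o, Nat.card_perm, Nat.card_fin] at this
      simp only [Nat.factorial] at this; omega)
    obtain ⟨θ, e⟩ := le_of_cop ((zpowers (finRotate 3)).prod ⊥) (H := (π.comp ι).range) (by
      rw [Nat.card_congr (prodEquiv _ _).toEquiv, Nat.card_prod, Nat.card_zpowers, o, card_bot]
      refine (Nat.Prime.coprime_iff_not_dvd Nat.prime_three).2 fun ⟨c, e⟩ => ?_
      rw [hm, e, mul_mul_mul_comm] at e2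
      simp only [Nat.factorial] at e2; omega) (x := (finRotate 3, 1)) ⟨mem_zpowers _, rfl⟩
    replace e : π (ι θ) = (finRotate 3, 1) := e
    have e3 : θ ^ 3 ∈ (π.comp ι).ker := by
      rw [MonoidHom.mem_ker, map_pow]; exact (congrArg (· ^ 3) e).trans (Prod.ext (by decide) (one_pow 3))
    refine ⟨θ ^ 2 ^ k, by rw [pow_right_comm, ← hk]; exact congrArg Subtype.val (pow_card_eq_one' (x := (⟨_, e3⟩ :
      (π.comp ι).ker))), fun f => ?_, by simp [e]⟩
    rw [map_pow, map_pow, e, Prod.pow_fst, ← orderOf_dvd_iff_pow_eq_one, o] at f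
    exact absurd (Nat.prime_three.dvd_of_dvd_pow f) (by decide)
  have b3 : ρ θ ^ 3 = 1 := by rw [← map_pow, ← coe_pow, a1]; exact map_one ρ
  have b1 : ρ θ ≠ 1 := fun e => a2 (((hC (ι θ)).1 (rX e)).elim id fun f => by
    have : (π (ι θ)).1 ^ 3 = 1 := by rw [← Prod.pow_fst, ← map_pow, ← map_pow, a1]; simp
    rw [f, pow_three', t2, one_mul] at this
    exact (t1 this).elim)
  obtain ⟨x, x1, x2⟩ : ∃ x : N.subgroupOf L, (π (ι x)).1 = 1 ∧ ρ x ≠ 1 := by
    by_contra! h
    have e : ((MonoidHom.fst _ _).comp (π.comp ι)).ker ≤ (ρ.comp (N.subgroupOf L).subtype).ker := h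
    have e1 := index_antitone e
    have e2 := cm _ rY
    have e3 := card_le_card_group ((MonoidHom.fst _ _).comp (π.comp ι)).range
    rw [index_ker, index_ker, ← MonoidHom.map_range, range_subtype] at e1
    rw [Nat.card_perm, Nat.card_fin] at e3
    simp only [Nat.factorial] at e3
    rw [iY] at e2
    omega
  have x3 : ρ x ^ 2 ^ 3 = 1 := by
    have e := cm ((N ⊓ C).subgroupOf L) fun g hg => ⟨rY hg, rX hg⟩
    rw [show ((N ⊓ C).subgroupOf L).index = 21 from S.hLNC] at e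
    rw [show 2 ^ 3 = Nat.card (((N ⊓ C).subgroupOf L).map ρ) by omega]
    exact congrArg Subtype.val (pow_card_eq_one' (x := (⟨_, x, ⟨x.2, (hC (ι x)).2 (Or.inl x1)⟩, rfl⟩ :
      ((N ⊓ C).subgroupOf L).map ρ)))
  obtain ⟨y, hy⟩ : ∃ y, y = x * θ * x⁻¹ * θ⁻¹ := ⟨_, rfl⟩
  have y1 : π (ι y) = 1 := by rw [hy]; ext <;> simp [x1, a3]
  have nc : ∀ a b : N.subgroupOf L, ¬ Commute (ρ a) (ρ b) → ρ (a * b * a⁻¹ * b⁻¹ :) ≠ 1 := fun a b n e => n (by
    simpa [mul_inv_eq_iff_eq_mul, mul_inv_eq_one, commute_iff_eq] using e)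
  obtain ⟨k, y2⟩ := S.ker ⟨_, y1⟩
  have y3 : ρ y ^ 2 ^ k = 1 := by
    rw [← map_pow, show (y : L) ^ 2 ^ k = 1 from Subtype.ext (congrArg (fun x : π.ker => (x : G)) y2), map_one]
  have d1 := nc _ _ (no_comm y3 (hy ▸ nc _ _ (no_comm x3 x2 b3 b1)) b3 b1)
  have key : ∀ d c : L, ρ d ≠ 1 → (d : G) ≠ c * z * (c : G)⁻¹ := fun d c n e => by
    have e' : ((c⁻¹ * d * c : L) : G) = z := by simp [e, mul_assoc]
    generalize hw : c⁻¹ * d * c = w at e'
    have e2 := cm _ rX
    rw [show (C.subgroupOf L).index = 7 from S.hLC] at e2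
    obtain ⟨_, ⟨u, hu, rfl⟩, o⟩ := H1.exists_mem_orderOf_eq_prime (H := (C.subgroupOf L).map ρ) Nat.prime_three
      (by omega)
    refine no_comm (a := ρ w) (k := 1) ?_ (fun f => n ?_) (o ▸ pow_orderOf_eq_one _)
      (fun f => by simp [f] at o) (Commute.map (Subtype.ext ?_) ρ)
    · rw [← map_pow, show w ^ 2 ^ 1 = 1 from Subtype.ext (by simp [pow_two, e', S.zz]), map_one]
    · rw [← hw, map_mul, map_mul, map_inv, mul_assoc, inv_mul_eq_one, eq_comm, mul_eq_right] at f
      exact f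
    · simpa [e'] using (S.cz u hu).symm
  refine ⟨ι θ, by rw [← map_pow, a1, map_one], a2, a3, ι y, y1, fun d e => ?_⟩
  obtain rfl : d = ((y * θ * y⁻¹ * θ⁻¹ : N.subgroupOf L) : L) := e
  exact ⟨fun f => d1 (by rw [show ((y * θ * y⁻¹ * θ⁻¹ : N.subgroupOf L) : L) = 1 from Subtype.ext f, map_one]),
    by simpa using key _ 1 d1, key _ θ d1, fun f => key _ θ⁻¹ d1 (f.trans (congrArg _ (inv_inv _).symm))⟩

end H95.Ag
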