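import Mathlib
import Cfsg.Agent.Lib.MAg.Le23
import Cfsg.Agent.Lib.MAg.LF

set_option autoImplicit false

namespace H95.Ag

open Cfsg Subgroup H16

variable {G : Type*} [Group G] {z : G} {Q C N L : Subgroup G} {π : N →* Equiv.Perm (Fin 3) × M24}
  {ρ : L →* Matrix.SpecialLinearGroup (Fin 3) (ZMod 2)} {φ : C →* Spor.Co1} {cls : leechLattice → G → Prop}

/-- the elements used in the analysis of `N` -/
structure Mid (z : G) (Q : Subgroup G) {N : Subgroup G} (π : N →* Equiv.Perm (Fin 3) × M24) (θ g τ : N) :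
    Prop where
  t3 : θ ^ 3 = 1
  t1 : (π θ).1 ≠ 1
  t2 : (π θ).2 = 1
  g23 : orderOf g = 23
  g1 : (π g).1 = 1
  tQ : (τ : G) ∈ Q
  tO : π τ ≠ 1
  tg : τ * g = g * τ
  QN : ∀ n : N, (n : G) ∈ Q → π n = 1 ∨ π n = π τ
  lw : (θ : G) * z * (θ : G)⁻¹ ∈ Q → (θ : G) * z * (θ : G)⁻¹ ≠ z →
    (θ : G)⁻¹ * z * θ = z * (θ * z * (θ : G)⁻¹)
  zO : ∀ hz : z ∈ N, π ⟨z, hz⟩ = 1
  mv : ∃ y : N, π y = 1 ∧ (y : G) ∈ Q ∧ (θ : G) * y * (θ : G)⁻¹ ∉ Q

namespace NN1

theorem one_of {X : Type*} [Group X] {x : X} {k : ℕ} (h3 : x ^ 3 = 1) (h2 : x ^ 2 ^ k = 1) : x = 1 := by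
  have h := pow_gcd_eq_one.2 ⟨h3, h2⟩
  rwa [(Nat.Coprime.pow_right k (by norm_num : Nat.Coprime 3 2)).gcd_eq_one, pow_one] at h

theorem fixpt {X Y : Type*} [Group X] [Group Y] [Finite X] (f : X →* Y) (hk : IsPGroup 2 f.ker) {g : X}
    (hg : g ^ 23 = 1) {x : X} (hc : f g * f x = f x * f g) : ∃ τ, f τ = f x ∧ τ * g = g * τ := by
  classical
  have := Fintype.ofFinite X
  have : Fact (Nat.Prime 23) := ⟨by norm_num⟩
  let σ : Equiv.Perm {n // f n = f x} := Equiv.Perm.subtypePerm (MulAut.conj g).toEquiv fun n => by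
    change f (g * n * g⁻¹) = f x ↔ f n = f x
    rw [map_mul, map_mul, map_inv, mul_inv_eq_iff_eq_mul, ← hc, mul_left_cancel_iff]
  have hσ : ∀ (k : ℕ) n, ((σ ^ k) n : X) = g ^ k * n * (g ^ k)⁻¹ := by
    intro k n
    induction k with
    | zero => simp
    | succ k ih =>
      rw [pow_succ', Equiv.Perm.mul_apply]
      change g * ((σ ^ k) n : X) * g⁻¹ = _
      rw [ih, pow_succ']; group
  obtain ⟨a, ha⟩ := IsPGroup.iff_card.1 hk
  have hcard : Nat.card {n // f n = f x} = 2 ^ a := by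
    rw [← ha]
    refine Nat.card_congr ⟨fun n => ⟨x⁻¹ * n, ?_⟩, fun k => ⟨x * k, ?_⟩, fun n => ?_, fun k => ?_⟩
    · rw [MonoidHom.mem_ker, map_mul, map_inv, n.2, inv_mul_cancel]
    · rw [map_mul, k.2, mul_one]
    · simp
    · simp
  obtain ⟨τ, hτ⟩ := Equiv.Perm.exists_fixed_point_of_prime (p := 23) (n := 1) (σ := σ) (by
    rw [← Nat.card_eq_fintype_card, hcard]
    intro h
    exact absurd ((Nat.prime_dvd_prime_iff_eq (by norm_num) Nat.prime_two).1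
      ((by norm_num : Nat.Prime 23).dvd_of_dvd_pow h)) (by norm_num)) (by
    ext n
    rw [pow_one, hσ, hg]; simp)
  refine ⟨τ, τ.2, ?_⟩
  have e := hσ 1 τ
  rw [pow_one, hτ, pow_one] at e
  exact (eq_mul_inv_iff_mul_eq.1 e)

/-- the elements acting trivially on `A` modulo `B` -/
def triv {X : Type*} [Group X] (A B : Subgroup X) [hB : B.Normal] : Subgroup X where
  carrier := {n | ∀ a ∈ A, n * a * n⁻¹ * a⁻¹ ∈ B}
  one_mem' a _ := by simp
  mul_mem' {n m} hn hm a ha := by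
    have := mul_mem (hB.conj_mem _ (hm a ha) n) (hn a ha)
    convert this using 1; group
  inv_mem' {n} hn a ha := by
    have := hB.conj_mem _ (inv_mem (hn a ha)) n⁻¹
    convert this using 1; group

theorem triv_normal {X : Type*} [Group X] (A B : Subgroup X) [hA : A.Normal] [hB : B.Normal] :
    (triv A B).Normal := ⟨fun n hn k a ha => by
  have := hB.conj_mem _ (hn _ (hA.conj_mem _ ha k⁻¹)) k
  convert this using 1; group⟩

theorem klein {X : Type*} [Group X] {a b c : X} (ha : a * a = 1) (hb : b * b = 1) (hab : a * b = b * a)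
    (hc : c = a * b ∨ (b = a ∧ c = a)) {x y : X} (hx : x = 1 ∨ x = a ∨ x = b ∨ x = c)
    (hy : y = 1 ∨ y = a ∨ y = b ∨ y = c) : x * y = 1 ∨ x * y = a ∨ x * y = b ∨ x * y = c := by
  have e1 : a * (a * b) = b := by rw [← mul_assoc, ha, one_mul]
  have e2 : b * (a * b) = a := by rw [hab, ← mul_assoc, hb, one_mul]
  have e3 : a * b * a = b := by rw [mul_assoc, ← hab, e1]
  have e4 : a * b * b = a := by rw [mul_assoc, hb, mul_one]
  have e5 : a * b * (a * b) = 1 := by rw [← mul_assoc, e3, hb]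
  rcases hc with rfl | ⟨rfl, rfl⟩
  · rcases hx with rfl | rfl | rfl | rfl <;> rcases hy with rfl | rfl | rfl | rfl <;>
      simp [ha, hb, e1, e2, e3, e4, e5, ← hab]
  · rcases hx with rfl | rfl | rfl | rfl <;> rcases hy with rfl | rfl | rfl | rfl <;> simp [ha]

set_option synthInstance.maxSize 2048 in
theorem s3a : ∀ s t : Equiv.Perm (Fin 3), s ^ 3 = 1 → s ≠ 1 → t ≠ 1 → t * t = 1 →
    s * t * s * t⁻¹ = 1 ∧ s⁻¹ * (t * (s * t⁻¹ * s⁻¹)) = 1 ∧
      ∀ u : Equiv.Perm (Fin 3), (u = 1 ∨ u = t) ∨ (s⁻¹ * u = 1 ∨ s⁻¹ * u = t) ∨ (s * u = 1 ∨ s * u = t) := by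
  decide +kernel

/-- a normal subgroup containing an element over `(t, 1)` contains `θ` -/
theorem nc {X Y : Type*} [Group X] [Group Y] {f : X →* Equiv.Perm (Fin 3) × Y} (hk : IsPGroup 2 f.ker)
    {t : Equiv.Perm (Fin 3)} (t1 : t ≠ 1) (tt : t * t = 1) {θ τ : X} (h3 : θ ^ 3 = 1) (h1 : (f θ).1 ≠ 1)
    (h2 : (f θ).2 = 1) (hτ : f τ = (t, 1)) (H : Subgroup X) [hH : H.Normal] (hm : τ ∈ H) : θ ∈ H := by
  have hs : (f θ).1 ^ 3 = 1 := by rw [← Prod.pow_fst, ← map_pow, h3, map_one, Prod.fst_one]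
  have hc : τ * (θ * τ⁻¹ * θ⁻¹) ∈ H := mul_mem hm (hH.conj_mem _ (inv_mem hm) θ)
  have ho : θ⁻¹ * (τ * (θ * τ⁻¹ * θ⁻¹)) ∈ f.ker := by
    rw [MonoidHom.mem_ker]
    simp only [map_mul, map_inv, hτ]
    refine Prod.ext ?_ ?_
    · simpa using (s3a _ t hs h1 t1 tt).2.1
    · simp [h2]
  obtain ⟨k, e⟩ := hk ⟨_, ho⟩
  have e' : (θ⁻¹ * (τ * (θ * τ⁻¹ * θ⁻¹))) ^ 2 ^ k = 1 := congrArg Subtype.val e
  rw [← QuotientGroup.eq_one_iff θ, ← inv_eq_one]
  refine one_of (k := k) ?_ ?_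
  · rw [inv_pow, ← QuotientGroup.mk_pow, h3, QuotientGroup.mk_one, inv_one]
  · have e2 := congrArg (QuotientGroup.mk' H) e'
    rw [map_pow, map_mul, map_inv, map_one, QuotientGroup.mk'_apply, QuotientGroup.mk'_apply,
      (QuotientGroup.eq_one_iff _).2 hc, mul_one] at e2
    exact e2

theorem cube {X : Type*} [Group X] (W : Subgroup X) [W.Normal] {θ y : X} (h3 : θ ^ 3 = 1) {k : ℕ}
    (h2 : (θ * y * θ⁻¹ * y⁻¹) ^ 2 ^ k = 1)
    (h : θ * (θ * y * θ⁻¹ * y⁻¹) * θ⁻¹ * (θ * y * θ⁻¹ * y⁻¹)⁻¹ ∈ W) : θ * y * θ⁻¹ * y⁻¹ ∈ W := by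
  rw [← QuotientGroup.eq_one_iff] at h ⊢
  have a3 := congrArg (QuotientGroup.mk' W) h3
  have a2 := congrArg (QuotientGroup.mk' W) h2
  simp only [map_pow, map_one, QuotientGroup.mk'_apply, QuotientGroup.mk_mul, QuotientGroup.mk_inv] at a3 a2 h ⊢
  generalize (θ : X ⧸ W) = a, (y : X ⧸ W) = b at a3 a2 h ⊢
  refine one_of ?_ a2
  generalize hf : a * b * a⁻¹ * b⁻¹ = f at h
  have e1 : a * b * a⁻¹ = f * b := by rw [← hf]; group
  have e2 : a * f * a⁻¹ = f := mul_inv_eq_one.1 h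
  have e3 : a * (f * b) * a⁻¹ = f * (f * b) := by
    rw [show a * (f * b) * a⁻¹ = (a * f * a⁻¹) * (a * b * a⁻¹) by group, e1, e2]
  have e4 : a * (f * (f * b)) * a⁻¹ = f * (f * (f * b)) := by
    rw [show a * (f * (f * b)) * a⁻¹ = (a * f * a⁻¹) * (a * (f * b) * a⁻¹) by group, e3, e2]
  have e5 : a ^ 3 * b * (a ^ 3)⁻¹ = f ^ 3 * b := by
    rw [show a ^ 3 * b * (a ^ 3)⁻¹ = a * (a * (a * b * a⁻¹) * a⁻¹) * a⁻¹ by
      simp only [pow_succ, pow_zero]; group, e1, e3, e4]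
    simp only [pow_succ, pow_zero]; group
  rw [a3] at e5
  simpa using e5.symm

theorem two_Q (M : MonC z Q C φ cls) {x : G} (hx : x ∈ Q) : x ^ 2 ^ 25 = 1 := by
  have := pow_card_eq_one' (x := (⟨x, hx⟩ : Q))
  rw [M.card] at this
  exact congrArg Subtype.val this

theorem snd_eq (M : MonC z Q C φ cls) (S : Sit z C N L π ρ) (n : N) (hn : (n : G) ∈ Q) : (π n).2 = 1 := by
  obtain ⟨t, -, -, hC⟩ := S.mem_C
  let A : Subgroup M24 := (Q.subgroupOf N).map ((MonoidHom.snd _ _).comp π)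
  have hA : A.Normal := ⟨by
    rintro _ ⟨x, hx, rfl⟩ m
    obtain ⟨k, hk⟩ := S.surj (1, m)
    refine ⟨k * x * k⁻¹, M.norm k ((hC k).2 (Or.inl (by rw [hk]))) x hx, ?_⟩
    simp [hk]⟩
  have h2 : IsPGroup 2 A := by
    rintro ⟨_, x, hx, rfl⟩
    refine ⟨25, Subtype.ext ?_⟩
    have e : x ^ 2 ^ 25 = 1 := Subtype.ext (two_Q M hx)
    change (((MonoidHom.snd _ _).comp π) x) ^ 2 ^ 25 = 1
    rw [← map_pow, e, map_one]
  have hle : A ≤ pCore 2 M24 := le_sSup ⟨hA, h2⟩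
  rw [pCore_M24] at hle
  exact hle ⟨n, hn, rfl⟩

theorem exists_g (S : Sit z C N L π ρ) : ∃ g : N, orderOf g = 23 ∧ (π g).1 = 1 := by
  have : Fact (Nat.Prime 23) := ⟨by norm_num⟩
  have : Finite M24 := Nat.finite_of_card_ne_zero (by rw [H15.card_M24]; norm_num)
  obtain ⟨m, hm⟩ := exists_prime_orderOf_dvd_card' (G := M24) 23 (by rw [H15.card_M24]; norm_num)
  obtain ⟨k, hk⟩ := S.surj (1, m)
  have h1 : k ^ 23 ∈ π.ker := by
    rw [MonoidHom.mem_ker, map_pow, hk, Prod.pow_mk, one_pow, ← hm, pow_orderOf_eq_one]; rfl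
  obtain ⟨a, e⟩ := S.ker ⟨_, h1⟩
  have e' : (k ^ 23) ^ 2 ^ a = 1 := congrArg Subtype.val e
  refine ⟨k ^ 2 ^ a, orderOf_eq_prime (by rw [← pow_mul, mul_comm, pow_mul, e']) fun h => ?_, ?_⟩
  · have h2 := congrArg (fun x => (π x).2) h
    simp only [map_pow, hk, Prod.pow_mk, map_one, Prod.snd_one] at h2
    have h3 := orderOf_dvd_of_pow_eq_one h2
    rw [hm] at h3
    exact absurd ((Nat.prime_dvd_prime_iff_eq (by norm_num) Nat.prime_two).1
      ((by norm_num : Nat.Prime 23).dvd_of_dvd_pow h3)) (by norm_num)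
  · rw [map_pow, hk, Prod.pow_mk, one_pow]

end NN1

open NN1 in
theorem exists_mid (M : MonC z Q C φ cls) (S : Sit z C N L π ρ) : ∃ θ g τ, Mid z Q π θ g τ := by
  have : Fact (Nat.Prime 23) := ⟨by norm_num⟩
  have := S.finN
  obtain ⟨t, t1, tt, hC⟩ := S.mem_C
  obtain ⟨θ, h3, h1, h2, y, hy, hd⟩ := S.lstar
  obtain ⟨g, g23, g1⟩ := exists_g S
  have hs : (π θ).1 ^ 3 = 1 := by rw [← Prod.pow_fst, ← map_pow, h3, map_one, Prod.fst_one]
  obtain ⟨s1, -, s3⟩ := s3a _ t hs h1 t1 tt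
  have OC : ∀ n : N, π n = 1 → (n : G) ∈ C := fun n h => (hC n).2 (Or.inl (by rw [h]; rfl))
  obtain ⟨τ0, hτ0⟩ := S.surj (t, 1)
  have g23' : g ^ 23 = 1 := by rw [← g23, pow_orderOf_eq_one]
  obtain ⟨τ, hτ, tg⟩ := fixpt π S.ker g23' (x := τ0) (by
    rw [hτ0]; refine Prod.ext ?_ ?_ <;> simp [g1])
  rw [hτ0] at hτ
  have tC : (τ : G) ∈ C := (hC τ).2 (Or.inr (by rw [hτ]))
  have gC : (g : G) ∈ C := (hC g).2 (Or.inl g1)
  have tQ : (τ : G) ∈ Q := by
    have h4 : τ ^ 2 ∈ π.ker := by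
      rw [MonoidHom.mem_ker, map_pow, hτ, Prod.pow_mk, one_pow, pow_two, tt]; rfl
    obtain ⟨a, e⟩ := S.ker ⟨_, h4⟩
    have e' : ((τ : G) ^ 2) ^ 2 ^ a = 1 := congrArg (fun x : π.ker => ((x : N) : G)) e
    refine (M.ker ⟨τ, tC⟩).1 (cent23 (a := φ ⟨g, gC⟩) (k := a + 1) ?_ ?_ ?_)
    · refine orderOf_eq_prime ?_ fun h => ?_
      · rw [← map_pow, show (⟨g, gC⟩ : C) ^ 23 = 1 from Subtype.ext (congrArg (fun x : N => (x : G)) g23'), map_one]
      · have e2 : g ^ 2 ^ 25 = 1 := Subtype.ext (two_Q M ((M.ker _).1 h))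
        have h5 := orderOf_dvd_of_pow_eq_one e2
        rw [g23] at h5
        exact absurd h5 (by norm_num)
    · rw [← map_pow, show (⟨τ, tC⟩ : C) ^ 2 ^ (a + 1) = 1 from Subtype.ext (by
        rw [pow_succ' 2 a, pow_mul]; exact e'), map_one]
    · rw [← map_mul, ← map_mul]
      exact congrArg φ (Subtype.ext (congrArg Subtype.val tg).symm)
  have QN : ∀ n : N, (n : G) ∈ Q → π n = 1 ∨ π n = π τ := fun n hn => by
    rw [hτ]
    exact ((hC n).1 (M.le hn)).imp (fun e => Prod.ext e (snd_eq M S n hn))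
      fun e => Prod.ext e (snd_eq M S n hn)
  have h3' : (θ : G) ^ 3 = 1 := congrArg Subtype.val h3
  have i2 : (θ : G)⁻¹ = θ * θ := by
    rw [inv_eq_iff_mul_eq_one, ← h3']; simp only [pow_succ, pow_zero]; group
  have lw : (θ : G) * z * (θ : G)⁻¹ ∈ Q → (θ : G) * z * (θ : G)⁻¹ ≠ z →
      (θ : G)⁻¹ * z * θ = z * (θ * z * (θ : G)⁻¹) := by
    intro hq hne
    have k1 : ((θ * τ * θ * τ⁻¹ : N) : G) ∈ C := (hC _).2 (Or.inl (by simpa [hτ] using s1))
    have k2 := S.cz _ k1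
    have k3 := S.cz _ tC
    simp only [coe_mul, coe_inv] at k2
    have k4 : (τ : G) * (θ * z * (θ : G)⁻¹) * (τ : G)⁻¹ = (θ : G)⁻¹ * z * θ := by
      calc (τ : G) * (θ * z * (θ : G)⁻¹) * (τ : G)⁻¹
          = (θ : G)⁻¹ * (θ * τ * θ * (τ : G)⁻¹ * (τ * z)) * ((θ : G)⁻¹ * (τ : G)⁻¹) := by group
        _ = (θ : G)⁻¹ * (θ * τ * θ * (τ : G)⁻¹ * z) * (τ * (θ : G)⁻¹ * (τ : G)⁻¹) := by rw [k3]; group
        _ = _ := by rw [k2]; group
    rcases M.h.comm _ tQ _ hq with e | e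
    · exfalso
      rw [e, mul_inv_cancel_right] at k4
      apply hne
      have k5 : (θ : G) * θ * z = z * (θ * θ) := by
        calc (θ : G) * θ * z = θ * (θ * z * (θ : G)⁻¹) * θ := by group
          _ = _ := by rw [k4]; group
      rw [← i2] at k5
      calc (θ : G) * z * (θ : G)⁻¹ = θ * ((θ : G)⁻¹ * z) := by rw [k5, mul_assoc]
        _ = z := by group
    · rw [← k4, e, mul_assoc _ _ z, k3, ← mul_assoc, mul_inv_cancel_right, M.h.central _ hq]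
  have zO : ∀ hz : z ∈ N, π ⟨z, hz⟩ = 1 := by
    intro hz
    refine (QN ⟨z, hz⟩ M.h.mem).resolve_right fun e => ?_
    have := triv_normal π.ker (⊥ : Subgroup N)
    have k := nc S.ker t1 tt h3 h1 h2 (e.trans hτ) (triv π.ker ⊥) (fun a ha => by
      rw [mem_bot]
      refine Subtype.ext ?_
      change z * a * z⁻¹ * (a : G)⁻¹ = 1
      rw [← S.cz _ (OC a ha)]; group) y hy
    rw [mem_bot] at k
    have k' : (θ : G) * y * (θ : G)⁻¹ * (y : G)⁻¹ = 1 := congrArg Subtype.val k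
    refine (hd _ rfl).1 ?_
    rw [← inv_eq_one, ← k']; group
  refine ⟨θ, g, τ, h3, h1, h2, g23, g1, tQ, fun e => t1 (by simpa [hτ] using congrArg Prod.fst e), tg, QN,
    lw, zO, ?_⟩
  by_contra hmv
  push Not at hmv
  have dec : ∀ n : N, (n : G) ∈ C ∨ (∃ c ∈ C, (n : G) = θ * c) ∨ ∃ c ∈ C, (n : G) = (θ : G)⁻¹ * c := by
    intro n
    rcases s3 (π n).1 with e | e | e
    · exact Or.inl ((hC n).2 e)
    · exact Or.inr (Or.inl ⟨(θ⁻¹ * n : N), (hC _).2 (by simpa using e), by simp⟩)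
    · exact Or.inr (Or.inr ⟨(θ * n : N), (hC _).2 (by simpa using e), by simp⟩)
  let F : Subgroup N := π.ker ⊓ Q.subgroupOf N
  have Fθ : ∀ f ∈ F, θ * f * θ⁻¹ ∈ F := fun f hf =>
    ⟨π.normal_ker.conj_mem _ hf.1 θ, hmv f hf.1 hf.2⟩
  have FC : ∀ n : N, (n : G) ∈ C → ∀ f ∈ F, n * f * n⁻¹ ∈ F := fun n hn f hf =>
    ⟨π.normal_ker.conj_mem _ hf.1 n, M.norm _ hn _ hf.2⟩
  have i2' : θ⁻¹ = θ * θ := Subtype.ext i2
  have hF : F.Normal := ⟨fun f hf n => by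
    rcases dec n with e | ⟨c, hc, e⟩ | ⟨c, hc, e⟩
    · exact FC n e f hf
    · have := Fθ _ (FC (θ⁻¹ * n) (by simpa [e] using hc) f hf)
      convert this using 1; group
    · have := Fθ _ (Fθ _ (FC (θ * n) (by simpa [e] using hc) f hf))
      rw [show θ * (θ * (θ * n * f * (θ * n)⁻¹) * θ⁻¹) * θ⁻¹ =
        (θ * θ) * θ * n * f * n⁻¹ * ((θ * θ) * θ)⁻¹ by group, ← i2'] at this
      simpa using this⟩
  let W : Subgroup N := normalClosure {n : N | (n : G) = z}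
  have hW : ∀ x ∈ W, (x : G) = 1 ∨ (x : G) = z ∨ (x : G) = θ * z * (θ : G)⁻¹ ∨ (x : G) = (θ : G)⁻¹ * z * θ := by
    by_cases hz : z ∈ N
    · have zF : (⟨z, hz⟩ : N) ∈ F := ⟨zO hz, M.h.mem⟩
      have q2 : (θ : G) * z * (θ : G)⁻¹ ∈ Q := (Fθ _ zF).2
      have b2 : (θ : G) * z * (θ : G)⁻¹ * (θ * z * (θ : G)⁻¹) = 1 := by
        rw [show (θ : G) * z * (θ : G)⁻¹ * (θ * z * (θ : G)⁻¹) = θ * (z * z) * (θ : G)⁻¹ by group, S.zz]; group
      have hc : (θ : G)⁻¹ * z * θ = z * (θ * z * (θ : G)⁻¹) ∨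
          ((θ : G) * z * (θ : G)⁻¹ = z ∧ (θ : G)⁻¹ * z * θ = z) := by
        by_cases e : (θ : G) * z * (θ : G)⁻¹ = z
        · refine Or.inr ⟨e, ?_⟩
          conv_lhs => rw [← e]
          group
        · exact Or.inl (lw q2 e)
      have kl := fun {x y : G} => klein (x := x) (y := y) S.zz b2 (M.h.central _ q2).symm hc
      intro x hx
      induction hx using closure_induction with
      | mem x hx =>
        obtain ⟨a, ha, hx⟩ := Group.mem_conjugatesOfSet_iff.1 hx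
        obtain ⟨n, rfl⟩ := isConj_iff.1 hx
        have ha : (a : G) = z := ha
        simp only [coe_mul, coe_inv, ha]
        rcases dec n with e | ⟨c, hc, e⟩ | ⟨c, hc, e⟩
        · exact Or.inr (Or.inl (by rw [S.cz _ e]; group))
        · refine Or.inr (Or.inr (Or.inl ?_))
          rw [e, mul_assoc _ c z, S.cz _ hc]; group
        · refine Or.inr (Or.inr (Or.inr ?_))
          rw [e, mul_assoc _ c z, S.cz _ hc]; group
      | one => exact Or.inl rfl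
      | mul x y _ _ hx hy => exact kl hx hy
      | inv x _ hx =>
        have e : (x : G) * x = 1 := by
          rcases hx with e | e | e | e <;> rw [e]
          · exact one_mul 1
          · exact S.zz
          · exact b2
          · rw [show (θ : G)⁻¹ * z * θ * ((θ : G)⁻¹ * z * θ) = (θ : G)⁻¹ * (z * z) * θ by group, S.zz]; group
        rwa [coe_inv, inv_eq_of_mul_eq_one_right e]
    · intro x hx
      have : W ≤ ⊥ := normalClosure_le_normal fun n hn => absurd (hn ▸ n.2) hz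
      exact Or.inl (congrArg Subtype.val (this hx))
  have := triv_normal π.ker F
  have := triv_normal F W
  have k1 := nc S.ker t1 tt h3 h1 h2 hτ (triv π.ker F) (fun a ha => ⟨by
    exact π.ker.mul_mem (π.normal_ker.conj_mem _ ha τ) (inv_mem ha), by
    have := mul_mem tQ (M.norm _ (OC a ha) _ (inv_mem tQ))
    change (τ : G) * a * (τ : G)⁻¹ * (a : G)⁻¹ ∈ Q
    convert this using 1; group⟩) y hy
  have k2 := nc S.ker t1 tt h3 h1 h2 hτ (triv F W) (fun a ha => by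
    have aQ : (a : G) ∈ Q := ha.2
    rcases M.h.comm _ tQ _ aQ with e | e
    · have e' : τ * a = a * τ := Subtype.ext e
      rw [e']; simp
    · refine subset_normalClosure ?_
      change (τ : G) * a * (τ : G)⁻¹ * (a : G)⁻¹ = z
      rw [e, mul_assoc _ _ z, S.cz _ tC, ← mul_assoc, mul_inv_cancel_right, M.h.central _ aQ]; group) _ k1
  obtain ⟨a, e⟩ := S.ker ⟨_, k1.1⟩
  have k3 := hW _ (inv_mem (cube W h3 (k := a) (congrArg Subtype.val e) k2))
  have k4 := hd (((θ * y * θ⁻¹ * y⁻¹)⁻¹ : N) : G) (by simp [mul_assoc])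
  tauto

end H95.Ag
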