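import Mathlib
import Cfsg.Agent.Lib.MAg.NN1
import Cfsg.Agent.Lib.MAg.LemT

set_option autoImplicit false

namespace H95.Ag

open Cfsg Subgroup H16

namespace NN2

theorem card_of_two {G : Type*} [Group G] {D M : Subgroup G} {s : G} (hs : s ∈ D) (sM : s ∉ M)
    (hm : ∀ a ∈ D, a ∉ M → a * s ∈ M) : Nat.card D = Nat.card (M.subgroupOf D) * 2 := by
  have i2 : (M.subgroupOf D).index = 2 := by
    refine index_eq_two_iff.2 ⟨⟨s, hs⟩, fun b => ?_⟩
    by_cases hb : (b : G) ∈ M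
    · exact Or.inr ⟨hb, fun h => sM ((M.mul_mem_cancel_left hb).1 h)⟩
    · exact Or.inl ⟨hm _ b.2 hb, hb⟩
  rw [← (M.subgroupOf D).card_mul_index, i2]

theorem card_comap (A : Subgroup Spor.Co1) :
    Nat.card (A.comap (QuotientGroup.mk' (center Co0))) = 2 * Nat.card A := by
  have h1 := card_mul_index (A.comap (QuotientGroup.mk' (center Co0)))
  have h2 := card_mul_index A
  have h3 : Nat.card Co0 = Nat.card Spor.Co1 * 2 := by
    rw [card_eq_card_quotient_mul_card_subgroup (center Co0), card_center]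
  have h4 : A.index ≠ 0 := fun h => by rw [h, card_sCo1] at h2; omega
  rw [index_comap_of_surjective _ (QuotientGroup.mk'_surjective _), h3, ← h2] at h1
  exact Nat.eq_of_mul_eq_mul_right (Nat.pos_of_ne_zero h4) (h1.trans (by ring))

theorem iff_of_card {A : Subgroup Spor.Co1} {M : Subgroup Co0} {δ : Co0} (hc : Nat.card M = 2 * Nat.card A)
    (h0 : Nat.card M ≠ 0) (h : ∀ γ : Co0, (QuotientGroup.mk γ : Spor.Co1) ∈ A → δ * γ * δ⁻¹ ∈ M) (γ : Co0) :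
    δ * γ * δ⁻¹ ∈ M ↔ (QuotientGroup.mk γ : Spor.Co1) ∈ A := by
  refine ⟨fun hγ => ?_, h γ⟩
  have := Nat.finite_of_card_ne_zero h0
  have e : (A.comap (QuotientGroup.mk' (center Co0))).map (MulAut.conj δ).toMonoidHom = M :=
    eq_of_le_of_card_ge (by rintro _ ⟨x, hx, rfl⟩; exact h x hx)
      (by rw [card_map_of_injective (MulAut.conj δ).injective, card_comap, hc])
  obtain ⟨x, hx, e⟩ := e.ge hγ
  exact ((MulAut.conj δ).injective e : x = γ) ▸ hx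

theorem le_eps {A : Subgroup Co0} (hA : A ≤ monoGroup) (h2 : IsPGroup 2 A)
    (hn : ∀ σ ∈ monoGroup, ∀ γ ∈ A, σ * γ * σ⁻¹ ∈ A) : A ≤ epsGroup := by
  obtain ⟨ρ, hρ⟩ := exists_monoPerm
  have hn : (A.subgroupOf monoGroup).Normal := ⟨fun γ hγ σ => hn σ σ.2 γ hγ⟩
  have h1 : A.subgroupOf monoGroup ≤ ρ.ker :=
    (H1.le_pCore (hN := hn) (h2.comap_of_injective _ (subtype_injective _))).trans
      (pCore_le_ker (fun σ => ⟨_, hρ σ σ.2 ∅ empty_mem_code⟩) pCore_M24)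
  intro γ hγ
  obtain ⟨σ, hσ, c, hc, rfl⟩ := hA hγ
  have h2 := h1 (x := ⟨_, mono_mem hσ hc⟩) hγ
  rw [MonoidHom.mem_ker, hρ] at h2
  obtain rfl : σ = 1 := congrArg Subtype.val h2
  exact ⟨c, hc, rfl⟩

end NN2

variable {G : Type*} [Group G] {z : G} {Q C N L : Subgroup G} {π : N →* Equiv.Perm (Fin 3) × M24}
  {ρ : L →* Matrix.SpecialLinearGroup (Fin 3) (ZMod 2)} {φ : C →* Spor.Co1} {cls : leechLattice → G → Prop}

/-- after a twist the images of `N ⊓ C` and `O_2(N)` are the monomial group and the sign changes -/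
theorem img_mono (M : MonC z Q C φ cls) (S : Sit z C N L π ρ) {θ g τ : N} (D : Mid z Q π θ g τ) :
    ∃ δ : Co0, (∀ γ : Co0, δ * γ * δ⁻¹ ∈ monoGroup ↔
        ∃ c : C, (c : G) ∈ N ∧ (QuotientGroup.mk γ : Spor.Co1) = φ c) ∧
      ∀ γ : Co0, δ * γ * δ⁻¹ ∈ epsGroup ↔
        ∃ c : C, ∃ hc : (c : G) ∈ N, π ⟨c, hc⟩ = 1 ∧ (QuotientGroup.mk γ : Spor.Co1) = φ c := by
  have := S.finN
  obtain ⟨t, -, -, hC⟩ := S.mem_C
  let P : Subgroup N := C.subgroupOf N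
  let ψ : P →* Spor.Co1 := φ.comp ((N.subtype.comp P.subtype).codRestrict C fun x => x.2)
  have kψ : ∀ x : P, ψ x = 1 ↔ ((x : N) : G) ∈ Q := fun x => M.ker _
  have OP : π.ker ≤ P := fun n hn => (hC n).2 (Or.inl (by rw [hn]; rfl))
  let O : Subgroup P := π.ker.subgroupOf P
  have h1 := card_mul_index π.ker
  rw [index_ker, MonoidHom.range_eq_top.2 S.surj, card_top, Nat.card_prod, Nat.card_perm, Nat.card_fin,
    H15.card_M24, ← Nat.card_congr (subgroupOfEquivOfLe OP).toEquiv] at h1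
  have h2 : Nat.card P * 3 = Nat.card N := by rw [← S.hNC]; exact card_mul_index P
  have h3 := card_mul_index ψ.ker
  rw [index_ker] at h3
  have h4 := card_mul_index (ψ.domRestrict O).ker
  rw [index_ker, MonoidHom.domRestrict_range, MonoidHom.ker_domRestrict] at h4
  have h5 : Nat.card ψ.ker = Nat.card (O.subgroupOf ψ.ker) * 2 :=
    NN2.card_of_two (s := ⟨τ, M.le D.tQ⟩) ((kψ _).2 D.tQ) D.tO fun a ha n => by
      have e := (D.QN a ((kψ a).1 ha)).resolve_left n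
      have e2 := (D.QN (τ * τ) (mul_mem D.tQ D.tQ)).resolve_right fun h => D.tO (by simpa using h)
      change π (a * τ) = 1
      rw [map_mul, e, ← map_mul, e2]
  have h6 : Nat.card (O.subgroupOf ψ.ker) = Nat.card (ψ.ker.subgroupOf O) := by
    rw [← card_map_of_injective ψ.ker.subtype_injective, ← card_map_of_injective O.subtype_injective,
      subgroupOf_map_subtype, subgroupOf_map_subtype, inf_comm]
  have pO : IsPGroup 2 (O.map ψ) := (S.ker.comap_subtype (K := P)).map ψ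
  have nO : ∀ p ∈ ψ.range, ∀ x ∈ O.map ψ, p * x * p⁻¹ ∈ O.map ψ := by
    rintro _ ⟨p, rfl⟩ _ ⟨x, hx, rfl⟩
    exact ⟨p * x * p⁻¹, π.normal_ker.conj_mem _ hx p, by simp only [map_mul, map_inv]⟩
  have gP : g ∈ P := (hC g).2 (Or.inl D.g1)
  have o23 : orderOf (ψ ⟨g, gP⟩) = 23 := by
    have : orderOf (⟨g, gP⟩ : P) = 23 := (orderOf_coe (⟨g, gP⟩ : P)).symm.trans D.g23
    refine ((Nat.dvd_prime (by norm_num)).1 (this ▸ orderOf_map_dvd ψ ⟨g, gP⟩)).resolve_left fun h => ?_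
    have k := Q.orderOf_dvd_natCard ((kψ _).1 (orderOf_eq_one_iff.1 h))
    rw [M.card, orderOf_coe, D.g23] at k
    exact absurd k (by norm_num)
  have cO : Nat.card (O.map ψ) = 2 ^ 11 := by
    refine (card23 pO o23 (nO _ ⟨_, rfl⟩)).resolve_left fun h => ?_
    obtain ⟨y, hy, -, n⟩ := D.mv
    have k : θ * y * θ⁻¹ ∈ π.ker := π.normal_ker.conj_mem _ hy θ
    exact n ((kψ ⟨_, OP k⟩).1 (mem_bot.1 (h ▸ mem_map_of_mem ψ (show (⟨_, OP k⟩ : P) ∈ O from k))))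
  have cP : Nat.card ψ.range = 2 ^ 11 * 244823040 := by
    have k : 0 < Nat.card (ψ.ker.subgroupOf O) := Nat.card_pos
    rw [h5, h6] at h3
    rw [cO] at h4
    change Nat.card O * _ = _ at h1
    rw [← h4, ← h2, ← h3] at h1
    refine Nat.eq_of_mul_eq_mul_left k ?_
    generalize Nat.card ψ.range = r at h1 ⊢
    rw [show Nat.factorial 3 = 6 from rfl] at h1
    linarith
  obtain ⟨δ, hδ⟩ := lemT (map_le_range ψ O) nO cO (by rw [cP]; norm_num) ⟨_, rfl⟩ o23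
  have i1 := NN2.iff_of_card (by rw [card_monoGroup, cP]; norm_num) (by rw [card_monoGroup]; norm_num) hδ
  have le : ((O.map ψ).comap (QuotientGroup.mk' (center Co0))).map (MulAut.conj δ).toMonoidHom ≤ epsGroup := by
    refine NN2.le_eps (by rintro _ ⟨x, hx, rfl⟩; exact hδ x (map_le_range ψ O hx))
      ((IsPGroup.of_card (n := 12) (by rw [NN2.card_comap, cO]; norm_num)).map _) ?_
    rintro σ hσ _ ⟨x, hx, rfl⟩
    exact ⟨δ⁻¹ * σ * δ * x * (δ⁻¹ * σ * δ)⁻¹,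
      nO _ ((i1 (δ⁻¹ * σ * δ)).1 (by simpa [mul_assoc] using hσ)) _ hx, by simp [mul_assoc]⟩
  have i2 := NN2.iff_of_card (A := O.map ψ) (δ := δ) (by rw [card_epsGroup, cO]; norm_num)
    (by rw [card_epsGroup]; norm_num) fun γ h => le ⟨γ, h, rfl⟩
  refine ⟨δ, fun γ => (i1 γ).trans ⟨fun ⟨x, e⟩ => ⟨⟨_, x.2⟩, x.1.2, e.symm⟩,
    fun ⟨c, hc, e⟩ => ⟨⟨⟨c, hc⟩, c.2⟩, e.symm⟩⟩, fun γ => (i2 γ).trans
    ⟨fun ⟨x, hx, e⟩ => ⟨⟨_, x.2⟩, x.1.2, hx, e.symm⟩, fun ⟨c, hc, h, e⟩ => ⟨⟨⟨c, hc⟩, c.2⟩, h, e.symm⟩⟩⟩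

end H95.Ag
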