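import Mathlib
import Cfsg.Agent.Lib.MAg.NN1

set_option autoImplicit false

namespace H95.Ag

open Cfsg Subgroup H16

variable {G : Type*} [Group G] {z : G} {Q C N L : Subgroup G} {π : N →* Equiv.Perm (Fin 3) × M24}
  {ρ : L →* Matrix.SpecialLinearGroup (Fin 3) (ZMod 2)} {φ : C →* Spor.Co1} {cls : leechLattice → G → Prop}

namespace NN3

/-- a proper subgroup of an extraspecial group containing the centre has a non-central centraliser. -/
theorem exists_cent [Finite Q] (h : ES Q z) {R : Subgroup G} (hz : z ∈ R) {w : G} (hw : w ∈ Q) (hR : w ∉ R) :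
    ∃ q ∈ Q, q ≠ 1 ∧ q ≠ z ∧ ∀ r ∈ R, r ∈ Q → q * r = r * q := by
  classical
  obtain ⟨M, h1, h2, h3⟩ := exists_index_two (R.subgroupOf Q) (fun x => by
    rcases h.sq_mem x.2 with e | e
    · exact mem_subgroupOf.2 (by rw [Subgroup.coe_mul, e]; exact one_mem _)
    · exact mem_subgroupOf.2 (by rw [Subgroup.coe_mul, e]; exact hz)) (w := ⟨w, hw⟩) hR
  have hi : M.index = 2 := index_eq_two_iff.2 ⟨⟨w, hw⟩, fun b => by
    rcases h3 b with e | e
    · exact Or.inr ⟨e, fun e' => h2 ((mul_mem_cancel_left e).1 e')⟩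
    · exact Or.inl ⟨e, fun e' => h2 ((mul_mem_cancel_left e').1 e)⟩⟩
  set z' : Q := ⟨z, h.mem⟩ with hz'
  have zc : ∀ x : Q, x * z' = z' * x := fun x => Subtype.ext (h.central x x.2)
  have zz : z' * z' = 1 := Subtype.ext h.sq
  let f : Q →* Q := MonoidHom.mk' (fun x => if x ∈ M then x else x * z') fun a b => by
    have := mul_mem_iff_of_index_two hi (a := a) (b := b)
    by_cases ha : a ∈ M <;> by_cases hb : b ∈ M <;> simp only [ha, hb, iff_true, iff_false, true_iff,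
      not_true, not_false_iff, iff_self, eq_iff_iff] at this <;> simp only [ha, hb, this, if_true, if_false]
    · rw [mul_assoc]
    · rw [mul_assoc, mul_assoc, zc b]
    · calc a * b = a * b * (z' * z') := by rw [zz, mul_one]
        _ = a * (b * z') * z' := by simp only [mul_assoc]
        _ = a * (z' * b) * z' := by rw [zc b]
        _ = _ := by simp only [mul_assoc]
  have hf : ∀ x, f x = if x ∈ M then x else x * z' := fun _ => rfl
  obtain ⟨q, hq⟩ := h.top.exists_conj_eq f fun x => by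
    rw [hf]; split_ifs
    exacts [Or.inl rfl, Or.inr rfl]
  have hne : q * ⟨w, hw⟩ * q⁻¹ ≠ ⟨w, hw⟩ := by
    rw [← hq, hf, if_neg h2]
    intro e
    exact h.ne_one (congrArg Subtype.val (mul_eq_left.1 e))
  refine ⟨q, q.2, fun e => hne ?_, fun e => hne ?_, fun r hr hrQ => ?_⟩
  · rw [show q = 1 from Subtype.ext e]; simp
  · rw [show q = z' from Subtype.ext e, ← zc]; simp
  · have := hq ⟨r, hrQ⟩
    rw [hf, if_pos (h1 (mem_subgroupOf.2 hr))] at this
    exact congrArg Subtype.val (eq_mul_inv_iff_mul_eq.1 this).symm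

/-- the subgroup generated by `A` and the central involution `z`. -/
def adj (A : Subgroup G) (z : G) (zz : z * z = 1) (hc : ∀ a ∈ A, a * z = z * a) : Subgroup G where
  carrier := {x | x ∈ A ∨ x * z ∈ A}
  one_mem' := Or.inl (one_mem _)
  mul_mem' := by
    have k : ∀ {x}, x * z ∈ A → x * z = z * x := fun {x} h => by
      have := hc _ h
      rw [mul_assoc, zz, mul_one] at this
      calc x * z = z * z * x * z := by rw [zz, one_mul]
        _ = z * (z * (x * z)) := by simp only [mul_assoc]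
        _ = z * x := by rw [← this]
    rintro a b (ha | ha) (hb | hb)
    · exact Or.inl (mul_mem ha hb)
    · exact Or.inr (by rw [mul_assoc]; exact mul_mem ha hb)
    · exact Or.inr (by rw [mul_assoc, hc b hb, ← mul_assoc]; exact mul_mem ha hb)
    · refine Or.inl ?_
      have := mul_mem ha hb
      rwa [k hb, mul_assoc, ← mul_assoc z, zz, one_mul] at this
  inv_mem' := by
    rintro a (ha | ha)
    · exact Or.inl (inv_mem ha)
    · refine Or.inr ?_
      have h1 := inv_mem ha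
      have h2 := hc _ h1
      rw [mul_inv_rev, inv_eq_of_mul_eq_one_right zz] at h1 h2
      rw [← mul_assoc, zz, one_mul] at h2
      have : a⁻¹ * z = z * a⁻¹ := by
        calc a⁻¹ * z = z * z * a⁻¹ * z := by rw [zz, one_mul]
          _ = z * (z * a⁻¹ * z) := by simp only [mul_assoc]
          _ = _ := by rw [h2]
      rwa [this]

theorem mem_adj {A : Subgroup G} {zz : z * z = 1} {hc : ∀ a ∈ A, a * z = z * a} {x : G} :
    x ∈ adj A z zz hc ↔ x ∈ A ∨ x * z ∈ A := Iff.rfl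

theorem isP_eps : IsPGroup 2 epsGroup := IsPGroup.of_card (n := 12) (by rw [card_epsGroup]; norm_num)

/-- a subgroup of `Q` normalised by lifts of the sign changes contains the elements of the class `e8`. -/
theorem ef (M : MonC z Q C φ cls) {A : Subgroup G} (hA : A ≤ Q) (hz : z ∈ A)
    (hn : ∀ γ ∈ epsGroup, ∃ c : C, (QuotientGroup.mk γ : Spor.Co1) = φ c ∧ ∀ a ∈ A, (c : G) * a * (c : G)⁻¹ ∈ A)
    {a : G} (ha : a ∈ A) (a1 : a ≠ 1) (az : a ≠ z) {w : G} (hw : cls (e8 none) w) : w ∈ A := by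
  let U : AddSubgroup L2 :=
    { carrier := {x | ∃ v a, a ∈ A ∧ cls v a ∧ mk2 v = x}
      zero_mem' := ⟨0, 1, one_mem _, M.cls_zero, map_zero _⟩
      add_mem' := by
        rintro _ _ ⟨v, a, ha, h1, rfl⟩ ⟨v', a', ha', h2, rfl⟩
        exact ⟨_, _, mul_mem ha ha', M.add h1 h2, map_add _ _ _⟩
      neg_mem' := by
        intro x hx
        rwa [neg_eq_of_add_eq_zero_right (L2_add_self x)] }
  let U' : SubMulAction epsGroup L2 :=
    { carrier := U
      smul_mem' := by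
        rintro γ _ ⟨v, a, ha, h1, rfl⟩
        obtain ⟨c, h2, h3⟩ := hn γ γ.2
        exact ⟨_, _, h3 a ha, M.smul c γ h2 h1, (smul_mk2 _ _).symm⟩ }
  obtain ⟨v, hv⟩ := M.ex_cls a (hA ha)
  have hv0 : mk2 v ≠ 0 := fun e => by
    rcases (M.cg_zero_iff hv).1 (mk2_eq.1 (e.trans (map_zero mk2).symm)).symm with e | e
    exacts [a1 e, az e]
  have h2 : 2 ∣ Nat.card U' := by
    have e : addOrderOf (⟨mk2 v, v, a, ha, hv, rfl⟩ : U) = 2 :=
      addOrderOf_eq_prime (Subtype.ext (by rw [two_nsmul]; exact L2_add_self _))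
        fun e => hv0 (congrArg Subtype.val e)
    exact e ▸ addOrderOf_dvd_natCard (G := U) _
  obtain ⟨b, hb, hne⟩ := isP_eps.exists_fixed_point_of_prime_dvd_card_of_fixed_point U' h2
    (a := ⟨0, U.zero_mem⟩) fun γ => Subtype.ext (smul_zero _)
  obtain ⟨_, u, x, hx, hu, rfl⟩ := b
  rcases fix_eps (v := u) fun c hc => mk2_eq.1 (congrArg Subtype.val (hb ⟨eps c hc, c, hc, rfl⟩)) with e | e
  · exact absurd (Subtype.ext ((mk2_eq.2 e).trans (map_zero mk2)).symm) hne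
  · rcases (M.eq_iff hu hw).1 e with e | e <;> rw [e]
    exacts [hx, mul_mem hx hz]

theorem s3 : ∀ s t σ : Equiv.Perm (Fin 3), s ≠ 1 → s ^ 3 = 1 → t ≠ 1 → t * t = 1 →
    (σ = 1 ∨ σ = t) ∨ (s⁻¹ * σ = 1 ∨ s⁻¹ * σ = t) ∨ (s * σ = 1 ∨ s * σ = t) := by
  decide

theorem card_le_mul {A B : Type*} [Group A] [Group B] [Finite A] (f : A →* B) {m n : ℕ}
    (h1 : Nat.card f.ker ≤ m) (h2 : Nat.card f.range ≤ n) : Nat.card A ≤ m * n := by
  rw [← card_mul_index f.ker, index_ker]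
  exact Nat.mul_le_mul h1 h2

end NN3

open NN3 in
theorem nn3 (M : MonC z Q C φ cls) (S : Sit z C N L π ρ) {θ g τ : N} (D : Mid z Q π θ g τ)
    (h1 : ∀ γ : Co0, γ ∈ monoGroup ↔ ∃ c : C, (c : G) ∈ N ∧ (QuotientGroup.mk γ : Spor.Co1) = φ c)
    (h2 : ∀ γ : Co0, γ ∈ epsGroup ↔
      ∃ c : C, ∃ hc : (c : G) ∈ N, π ⟨c, hc⟩ = 1 ∧ (QuotientGroup.mk γ : Spor.Co1) = φ c) :
    Q ≤ N ∧ ∃ w, cls (e8 none) w ∧ (∃ n ∈ N, n * z * n⁻¹ = w) ∧
      (∀ n ∈ N, n * z * n⁻¹ = z ∨ n * z * n⁻¹ = w ∨ n * z * n⁻¹ = z * w) ∧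
      ∀ n ∈ N, n * z = z * n → n ∈ C := by
  have := M.fin
  obtain ⟨t, t1, tt, hC⟩ := S.mem_C
  have KC : ∀ n : N, (π n).1 = 1 → (n : G) ∈ C := fun n h => (hC n).2 (Or.inl h)
  have OC : ∀ n : N, π n = 1 → (n : G) ∈ C := fun n h => KC n (by rw [h]; rfl)
  have gC := KC g D.g1
  -- the image of `g` has order 23
  have g23 : orderOf (φ ⟨g, gC⟩) = 23 := by
    have e : (g : G) ^ 23 = 1 := by
      rw [← Subgroup.coe_pow, ← D.g23, pow_orderOf_eq_one]; rfl
    haveI : Fact (Nat.Prime 23) := ⟨by norm_num⟩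
    refine orderOf_eq_prime (by rw [← map_pow, show (⟨g, gC⟩ : C) ^ 23 = 1 from Subtype.ext e, map_one]) fun h => ?_
    have h4 : g ^ 4 = 1 := Subtype.ext (M.h.pow_four ((M.ker _).1 h))
    have := orderOf_dvd_of_pow_eq_one h4
    rw [D.g23] at this
    omega
  obtain ⟨γ, hγ⟩ := QuotientGroup.mk_surjective (φ ⟨g, gC⟩)
  have γe : Cg (γ • e8 none) (e8 none) := mem_monoGroup_iff_cg.1 ((h1 γ).2 ⟨_, g.2, hγ⟩)
  have CQ : ∀ x : N, π x = 1 → (g : G) * x = x * g → (x : G) ∈ Q := fun x hx hc => by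
    obtain ⟨k, hk⟩ := S.ker ⟨x, hx⟩
    have hk' : (x : G) ^ 2 ^ k = 1 := congrArg (fun y : π.ker => ((y : N) : G)) hk
    refine (M.ker ⟨x, OC x hx⟩).1 (cent23 g23 (k := k) ?_ ?_)
    · rw [← map_pow, show (⟨x, OC x hx⟩ : C) ^ 2 ^ k = 1 from Subtype.ext hk', map_one]
    · rw [← map_mul, ← map_mul]
      exact congrArg φ (Subtype.ext hc)
  have Kz : ∀ n : N, (π n).1 = 1 → (n : G) * (θ * z * (θ : G)⁻¹) = θ * z * (θ : G)⁻¹ * n := fun n hn => by
    have := M.cz _ (KC (θ⁻¹ * n * θ) (by simp [hn]))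
    simp only [Subgroup.coe_mul, Subgroup.coe_inv] at this
    calc (n : G) * (θ * z * (θ : G)⁻¹) = θ * ((θ : G)⁻¹ * n * θ * z) * (θ : G)⁻¹ := by group
      _ = _ := by rw [this]; group
  have z2Q : z ∈ N → (θ : G) * z * (θ : G)⁻¹ ∈ Q := fun hz =>
    CQ (θ * ⟨z, hz⟩ * θ⁻¹) (by simp [D.zO hz]) (Kz g D.g1)
  obtain ⟨w0, hw0⟩ := M.ex_elt (e8 none)
  obtain ⟨y, y1, yQ, yθ⟩ := D.mv
  let O : Subgroup G := π.ker.map N.subtype
  have mO : ∀ {x : G}, x ∈ O ↔ ∃ hx : x ∈ N, π ⟨x, hx⟩ = 1 := fun {x} =>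
    ⟨fun ⟨n, hn, e⟩ => e ▸ ⟨n.2, hn⟩, fun ⟨hx, e⟩ => ⟨⟨x, hx⟩, e, rfl⟩⟩
  have On : ∀ n : N, ∀ x ∈ O, (n : G) * x * (n : G)⁻¹ ∈ O := fun n x hx => by
    obtain ⟨hx, e⟩ := mO.1 hx
    exact ⟨n * ⟨x, hx⟩ * n⁻¹, by simp [MonoidHom.mem_ker, e], rfl⟩
  have EF : ∀ {A : Subgroup G}, A ≤ Q → z ∈ A → (∀ n : N, (n : G) ∈ C → ∀ a ∈ A, (n : G) * a * (n : G)⁻¹ ∈ A) →
      ∀ a ∈ A, a ≠ 1 → a ≠ z → w0 ∈ A := fun {A} hA hz hn a ha a1 az =>
    ef M hA hz (fun γ hγ => by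
      obtain ⟨c, hc, -, e⟩ := (h2 γ).1 hγ
      exact ⟨c, e, hn ⟨c, hc⟩ c.2⟩) ha a1 az hw0
  have adjn : ∀ {A : Subgroup G} {hc : ∀ a ∈ A, a * z = z * a} {n : G}, n ∈ C → (∀ a ∈ A, n * a * n⁻¹ ∈ A) →
      ∀ a ∈ adj A z M.h.sq hc, n * a * n⁻¹ ∈ adj A z M.h.sq hc := fun {A hc n} hn h a ha => by
    rcases ha with ha | ha
    · exact Or.inl (h a ha)
    · refine Or.inr ?_
      have e : n * a * n⁻¹ * z = n * (a * z) * n⁻¹ := by
        rw [mul_assoc (n * a), M.cz _ (inv_mem hn)]; group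
      rw [e]; exact h _ ha
  have adjQ : ∀ {A : Subgroup G} {hc : ∀ a ∈ A, a * z = z * a}, A ≤ Q → adj A z M.h.sq hc ≤ Q :=
    fun {A hc} hA a ha => ha.elim (fun h => hA h) fun h => (mul_mem_cancel_right M.h.mem).1 (hA h)
  have adjz : ∀ {A : Subgroup G} {hc : ∀ a ∈ A, a * z = z * a}, z ∈ adj A z M.h.sq hc :=
    fun {A hc} => Or.inr (by rw [M.h.sq]; exact one_mem _)
  let R1 := adj (O ⊓ Q) z M.h.sq fun a ha => M.h.central a ha.2
  have w1 : w0 ∈ R1 := EF (adjQ inf_le_right) adjz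
    (fun n hn => adjn hn fun a ha => ⟨On n a ha.1, M.norm _ hn _ ha.2⟩) y (Or.inl ⟨mO.2 ⟨y.2, y1⟩, yQ⟩)
    (fun e => yθ (by rw [e]; simp)) fun e => yθ (by rw [e]; exact z2Q (e ▸ y.2))
  let R := adj (N ⊓ Q) z M.h.sq fun a ha => M.h.central a ha.2
  have Rn : ∀ n : N, (n : G) ∈ C → ∀ a ∈ R, (n : G) * a * (n : G)⁻¹ ∈ R := fun n hn =>
    adjn hn fun a ha => ⟨N.mul_mem (N.mul_mem n.2 ha.1) (N.inv_mem n.2), M.norm _ hn _ ha.2⟩
  have RQ : ∀ x ∈ Q, x ∈ R := fun x hx => by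
    by_contra hR
    obtain ⟨q, qQ, q1, qz, hq⟩ := exists_cent M.h (R := R) adjz hx hR
    have hw : w0 ∈ Q ⊓ centralizer (R : Set G) := EF inf_le_left
      ⟨M.h.mem, fun r hr => M.h.central r (adjQ inf_le_right hr)⟩
      (fun n hn a ha => ⟨M.norm _ hn _ ha.1, fun r hr => by
        have := ha.2 _ (Rn n⁻¹ (inv_mem hn) r hr)
        simp only [Subgroup.coe_inv, inv_inv] at this
        calc r * (n * a * (n : G)⁻¹) = n * ((n : G)⁻¹ * r * n * a) * (n : G)⁻¹ := by group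
          _ = _ := by rw [this]; group⟩)
      q ⟨qQ, fun r hr => (hq r hr (adjQ inf_le_right hr)).symm⟩ q1 qz
    obtain ⟨v, hv⟩ := M.ex_cls _ D.tQ
    have tg : (τ : G) * g = g * τ := congrArg Subtype.val D.tg
    have τ1 : (τ : G) ∈ R1 := by
      rcases fix_perp (by rw [hγ, g23]) γe
        (M.cg_of_ap hv (c := ⟨g, gC⟩) (Or.inl (by rw [mul_inv_eq_iff_eq_mul]; exact tg.symm)) hγ)
        ((M.commute_iff hv hw0).1 (hw.2 _ (Or.inl ⟨τ.2, D.tQ⟩))) with e | e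
      · rcases (M.cg_zero_iff hv).1 e.symm with e | e <;> rw [e]
        exacts [one_mem _, adjz]
      · rcases (M.eq_iff hw0 hv).1 e.symm with e | e <;> rw [e]
        exacts [w1, mul_mem w1 adjz]
    rcases τ1 with h | h
    · exact D.tO (mO.1 h.1).2
    · obtain ⟨h3, h4⟩ := mO.1 h.1
      have hz : z ∈ N := (mul_mem_cancel_left τ.2).1 h3
      have : π τ * π ⟨z, hz⟩ = 1 := by rw [← map_mul]; exact h4
      rw [D.zO hz, mul_one] at this
      exact D.tO this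
  have zN : z ∈ N := by
    obtain ⟨a, ha, b, hb, e⟩ := M.h.exists_commutator
    have k : ∀ x ∈ Q, ∃ x' ∈ N, x' = x ∨ x' = x * z := fun x hx =>
      (RQ x hx).elim (fun h => ⟨_, h.1, Or.inl rfl⟩) fun h => ⟨_, h.1, Or.inr rfl⟩
    obtain ⟨a', a1, a2⟩ := k a ha
    obtain ⟨b', b1, b2⟩ := k b hb
    have e' : a' * b' * a'⁻¹ * b'⁻¹ = z := by
      have ca := M.h.central a ha
      have cb := M.h.central b hb
      have k1 : z * b * z⁻¹ = b := by rw [← cb]; group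
      have k2 : z * a⁻¹ * z⁻¹ = a⁻¹ := by rw [← M.h.central _ (inv_mem ha)]; group
      rcases a2 with rfl | rfl <;> rcases b2 with rfl | rfl
      · exact e
      · calc _ = a' * b * (z * a'⁻¹ * z⁻¹) * b⁻¹ := by group
          _ = z := by rw [k2, e]
      · calc _ = a * (z * b' * z⁻¹) * a⁻¹ * b'⁻¹ := by group
          _ = z := by rw [k1, e]
      · calc _ = a * (z * b * z⁻¹) * (z * a⁻¹ * z⁻¹) * b⁻¹ := by group
          _ = z := by rw [k1, k2, e]
    rw [← e']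
    exact mul_mem (mul_mem (mul_mem a1 b1) (inv_mem a1)) (inv_mem b1)
  have QN : Q ≤ N := fun x hx => (RQ x hx).elim (fun h => h.1) fun h => (mul_mem_cancel_right zN).1 h.1
  have fixE : ∀ {x : G} {v}, cls v x → (∀ c (hc : c ∈ code), ∃ n : C,
      (QuotientGroup.mk (eps c hc) : Spor.Co1) = φ n ∧
        ((n : G) * x * (n : G)⁻¹ = x ∨ (n : G) * x * (n : G)⁻¹ = x * z)) →
      (x = 1 ∨ x = z) ∨ cls (e8 none) x := fun {x v} hv h =>
    (fix_eps fun c hc => (h c hc).elim fun n hn => M.cg_of_ap hv hn.2 hn.1).imp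
      (fun e => (M.cg_zero_iff hv).1 e.symm) fun e => M.congr hv e
  have z2z : (θ : G) * z * (θ : G)⁻¹ ≠ z := fun hz => by
    let ψ : Q →* Equiv.Perm (Fin 3) × M24 := π.comp (inclusion QN)
    have c1 : 2 ^ 25 ≤ Nat.card ψ.ker * 2 := by
      rw [← M.card]
      refine card_le_mul ψ (n := 2) le_rfl ?_
      refine (Set.ncard_le_ncard (s := (ψ.range : Set _)) (t := {1, π τ}) ?_ (Set.toFinite _)).trans
        ((Set.ncard_insert_le _ _).trans (by rw [Set.ncard_singleton]))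
      rintro _ ⟨x, rfl⟩
      exact D.QN ⟨x, QN x.2⟩ x.2
    have hO : ∀ a : ψ.ker, π (θ * ⟨(a : Q), QN (a : Q).2⟩ * θ⁻¹) = 1 := fun a => by
      have : π ⟨(a : Q), QN (a : Q).2⟩ = 1 := a.2
      simp [this]
    let χ : ψ.ker →* Spor.Co1 := MonoidHom.mk'
      (fun a => φ ⟨(θ : G) * (a : Q) * (θ : G)⁻¹, OC _ (hO a)⟩) fun a b => by
        rw [← map_mul]
        refine congrArg φ (Subtype.ext ?_)
        simp only [Subgroup.coe_mul]
        group
    have hχ : ∀ a, χ a = φ ⟨(θ : G) * (a : Q) * (θ : G)⁻¹, OC _ (hO a)⟩ := fun _ => rfl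
    have r1 : χ.range ≤ epsGroup.map (QuotientGroup.mk' (center Co0)) := by
      rintro _ ⟨a, rfl⟩
      obtain ⟨δ, hδ⟩ := QuotientGroup.mk_surjective (χ a)
      exact ⟨δ, (h2 δ).2 ⟨_, (θ * ⟨(a : Q), QN (a : Q).2⟩ * θ⁻¹ : N).2, hO a, hδ⟩, hδ⟩
    have fE : Finite (epsGroup.map (QuotientGroup.mk' (center Co0))) :=
      Nat.finite_of_card_ne_zero (by rw [card_map_epsGroup]; norm_num)
    have r2 : Nat.card χ.range = 2 ^ 11 := by
      refine (card23 ((isP_eps.map _).to_le r1) g23 ?_).resolve_left fun e => ?_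
      · rintro _ ⟨a, rfl⟩
        have k1 := KC (θ⁻¹ * g * θ) (by simp [D.g1])
        refine ⟨⟨⟨_, M.norm _ k1 _ (a : Q).2⟩, ?_⟩, ?_⟩
        · have : π ⟨(a : Q), QN (a : Q).2⟩ = 1 := a.2
          change π ((θ⁻¹ * g * θ) * ⟨(a : Q), QN (a : Q).2⟩ * (θ⁻¹ * g * θ)⁻¹) = 1
          rw [map_mul, map_mul, this, map_inv]; group
        · refine Eq.trans ?_ ((map_mul φ _ _).trans (congrArg₂ _ (map_mul φ _ _) (map_inv φ _)))
          refine congrArg φ (Subtype.ext ?_)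
          simp only [Subgroup.coe_mul, Subgroup.coe_inv]
          group
      · have : χ ⟨⟨y, yQ⟩, y1⟩ ∈ χ.range := ⟨_, rfl⟩
        rw [e, mem_bot, hχ, M.ker] at this
        exact yθ this
    have r3 : χ.range = epsGroup.map (QuotientGroup.mk' (center Co0)) :=
      eq_of_le_of_card_ge r1 (by rw [r2, card_map_epsGroup])
    have c2 : Nat.card χ.ker ≤ 4 := by
      have k : ∀ a : χ.ker, (θ : G) * ((a : ψ.ker) : Q) * (θ : G)⁻¹ ∈ ({1, z, w0, w0 * z} : Set G) := fun a => by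
        obtain ⟨v, hv⟩ := M.ex_cls _ ((M.ker _).1 ((hχ a).symm.trans a.2))
        rcases fixE hv fun c hc => by
          obtain ⟨b, hb⟩ : (QuotientGroup.mk (eps c hc) : Spor.Co1) ∈ χ.range :=
            r3 ▸ ⟨eps c hc, ⟨c, hc, rfl⟩, rfl⟩
          refine ⟨_, hb.symm, (M.h.conj ((a : ψ.ker) : Q).2 (b : Q).2).imp (fun e => ?_) fun e => ?_⟩
          · calc _ = θ * (((b : Q) : G) * ((a : ψ.ker) : Q) * ((b : Q) : G)⁻¹) * (θ : G)⁻¹ := by group
              _ = _ := by rw [e]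
          · calc _ = θ * (((b : Q) : G) * ((a : ψ.ker) : Q) * ((b : Q) : G)⁻¹) * (θ : G)⁻¹ := by group
              _ = θ * ((a : ψ.ker) : Q) * (θ : G)⁻¹ * (θ * z * (θ : G)⁻¹) := by rw [e]; group
              _ = _ := by rw [hz]
          with (e | e) | e
        · exact Or.inl e
        · exact Or.inr (Or.inl e)
        · exact Or.inr (Or.inr ((M.eq_iff hw0 e).1 (Cg.refl _)))
      refine (Nat.card_le_card_of_injective (fun a => (⟨_, k a⟩ : ({1, z, w0, w0 * z} : Set G)))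
        fun a b e => ?_).trans ?_
      · have := congrArg Subtype.val e
        simp only [mul_left_inj, mul_right_inj] at this
        exact Subtype.ext (Subtype.ext (Subtype.ext this))
      · have a1 := Set.ncard_insert_le (1 : G) {z, w0, w0 * z}
        have a2 := Set.ncard_insert_le z {w0, w0 * z}
        have a3 := Set.ncard_insert_le w0 {w0 * z}
        rw [Set.ncard_singleton] at a3
        exact a1.trans (by omega)
    have := card_le_mul χ c2 r2.le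
    omega
  have z21 : (θ : G) * z * (θ : G)⁻¹ ≠ 1 := fun e => M.h.ne_one (conj_eq_one_iff.1 e)
  have cov : ∀ n : N, (n : G) ∈ C ∨ (θ : G)⁻¹ * n ∈ C ∨ (θ : G) * n ∈ C := fun n => by
    have := s3 (π θ).1 t (π n).1 D.t1 (by rw [← Prod.pow_fst, ← map_pow, D.t3, map_one]; rfl) t1 tt
    exact this.imp (hC n).2 (Or.imp (fun h => (hC (θ⁻¹ * n)).2 (by simpa using h))
      fun h => (hC (θ * n)).2 (by simpa using h))
  have lw := D.lw (z2Q zN) z2z
  have key : ∀ n : N, ((n : G) ∈ C ∧ n * z * (n : G)⁻¹ = z) ∨ n * z * (n : G)⁻¹ = θ * z * (θ : G)⁻¹ ∨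
      n * z * (n : G)⁻¹ = z * (θ * z * (θ : G)⁻¹) := fun n => by
    rcases cov n with h | h | h
    · exact Or.inl ⟨h, by rw [M.cz _ h]; group⟩
    · refine Or.inr (Or.inl ?_)
      calc (n : G) * z * (n : G)⁻¹ = θ * ((θ : G)⁻¹ * n * z) * (n : G)⁻¹ := by group
        _ = _ := by rw [M.cz _ h]; group
    · refine Or.inr (Or.inr ?_)
      calc (n : G) * z * (n : G)⁻¹ = (θ : G)⁻¹ * ((θ : G) * n * z) * (n : G)⁻¹ := by group
        _ = _ := by rw [M.cz _ h, ← lw]; group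
  refine ⟨QN, θ * z * (θ : G)⁻¹, ?_, ⟨θ, θ.2, rfl⟩, fun n hn => (key ⟨n, hn⟩).imp_left And.right,
    fun n hn e => ?_⟩
  · obtain ⟨v, hv⟩ := M.ex_cls _ (z2Q zN)
    refine (fixE hv fun c hc => ?_).resolve_left (not_or.2 ⟨z21, z2z⟩)
    obtain ⟨n, hn, e1, e2⟩ := (h2 _).1 ⟨c, hc, rfl⟩
    exact ⟨n, e2, Or.inl (by rw [mul_inv_eq_iff_eq_mul]; exact Kz ⟨n, hn⟩ (by rw [e1]; rfl))⟩
  · have e' : n * z * n⁻¹ = z := by rw [e]; group
    rcases key ⟨n, hn⟩ with h | h | h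
    · exact h.1
    · exact absurd (h.symm.trans e') z2z
    · exact absurd (mul_eq_left.1 (h.symm.trans e')) z21

end H95.Ag
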