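import Mathlib
import Cfsg.Agent.Lib.MAg.Defs

/-! The pair `Q`, `Q'` for a cross `s`; the axioms of the family of extraspecial groups. -/

set_option autoImplicit false

namespace H95.Ag

open Cfsg Subgroup H16

variable {G : Type*} [Group G]

structure PairC (Q Q' C : Subgroup G) (z s : G) : Prop where
  h : ES Q z
  h' : ES Q' s
  sQ : s ∈ Q
  zQ : z ∈ Q'
  ne : s ≠ z
  card : Nat.card Q' = 2 ^ 25
  norm : ∀ c ∈ C, c * s = s * c → ∀ x ∈ Q', c * x * c⁻¹ ∈ Q'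
  sub : ∀ x ∈ Q', x * z = z * x → x ∈ C

structure Am (z : G) (Q C : Subgroup G) (QW : G → Subgroup G) (φ : C →* Spor.Co1)
    (cls : leechLattice → G → Prop) : Prop where
  M : MonC z Q C φ cls
  qz : QW z = Q
  cj : ∀ c ∈ C, ∀ w x, x ∈ QW w → c * x * c⁻¹ ∈ QW (c * w * c⁻¹)
  es : ∀ {v w}, cls v w → sqNorm (v : GolayPt → ℤ) = 64 → PairC Q (QW w) C z w
  ln : ∀ {v w}, cls v w → sqNorm (v : GolayPt → ℤ) = 64 → ∀ x ∈ QW w, ∀ s, s = z ∨ s = z * w →
    ∀ a ∈ QW s, x * a * x⁻¹ ∈ QW (x * s * x⁻¹)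
  tr : ∀ {v s s'}, cls (e8 none) s → cls v s' → sqNorm (v : GolayPt → ℤ) = 64 → ¬ Cg v (e8 none) →
    s' ∈ QW s → ∀ u ∈ QW s, u * s' = s' * u → ∀ a ∈ QW s', u * a * u⁻¹ ∈ QW s'

variable {z s : G} {Q Q' C : Subgroup G} {φ : C →* Spor.Co1} {cls : leechLattice → G → Prop}
  {v : leechLattice}

theorem PairC.zs (p : PairC Q Q' C z s) : z * s = s * z := (p.h.central s p.sQ).symm

theorem PairC.E_elementary (p : PairC Q Q' C z s) {x : G} (hx : x ∈ Q ⊓ Q') : x * x = 1 := by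
  rcases p.h.sq_mem hx.1 with e | e
  · exact e
  · exact (p.h'.sq_mem hx.2).resolve_right fun f => p.ne (f.symm.trans e)

/-- The preimage in `Co0` of the image of `Q' ∩ C`. -/
def imgC (φ : C →* Spor.Co1) (Q' : Subgroup G) : Subgroup Co0 :=
  ((Q'.subgroupOf C).map φ).comap (QuotientGroup.mk' (center Co0))

theorem mem_imgC {γ : Co0} :
    γ ∈ imgC φ Q' ↔ ∃ b : C, (b : G) ∈ Q' ∧ (QuotientGroup.mk γ : Spor.Co1) = φ b :=
  ⟨fun ⟨b, hb, e⟩ => ⟨b, hb, e.symm⟩, fun ⟨b, hb, e⟩ => ⟨b, hb, e.symm⟩⟩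

namespace MonC

theorem imgC_cg (M : MonC z Q C φ cls) (p : PairC Q Q' C z s) (hs : cls v s) {γ : Co0}
    (h : γ ∈ imgC φ Q') : Cg (γ • v) v := by
  obtain ⟨b, hb, e⟩ := mem_imgC.1 h
  exact M.cg_of_ap hs (Or.inl (by rw [p.h'.central b hb, mul_inv_cancel_right])) e

theorem imgC_isPGroup (p : PairC Q Q' C z s) : IsPGroup 2 (imgC φ Q') := by
  refine isPGroup_of_pow 3 fun γ h => ?_
  obtain ⟨b, hb, e⟩ := mem_imgC.1 h
  have h4 : (QuotientGroup.mk (γ ^ 4) : Spor.Co1) = QuotientGroup.mk 1 := by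
    rw [QuotientGroup.mk_pow, e, ← map_pow, show b ^ 4 = 1 from Subtype.ext (p.h'.pow_four hb),
      map_one]; rfl
  rw [show 2 ^ 3 = 4 + 4 from rfl, pow_add]
  rcases mk_eq_mk.1 h4.symm with f | f <;> rw [f]
  · exact one_mul 1
  · rw [one_mul, negCo0_mul_self]

theorem imgC_conj (M : MonC z Q C φ cls) (p : PairC Q Q' C z s) (hs : cls v s) {σ γ : Co0}
    (hσ : Cg (σ • v) v) (h : γ ∈ imgC φ Q') : σ * γ * σ⁻¹ ∈ imgC φ Q' := by
  obtain ⟨b, hb, e⟩ := mem_imgC.1 h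
  obtain ⟨c, hc, ec⟩ := M.exists_conj hs hs (by
    rw [M.cg_zero_iff hs, not_or]; exact ⟨p.h'.ne_one, p.ne⟩) hσ
  refine mem_imgC.2 ⟨c * b * c⁻¹, p.norm c c.2 (mul_inv_eq_iff_eq_mul.1 ec) b hb, ?_⟩
  simp [hc, e]

theorem imgC_le (M : MonC z Q C φ cls) (p : PairC Q Q' C z s) (hs : cls (e8 none) s) :
    imgC φ Q' ≤ epsGroup := by
  obtain ⟨ρ, hρ⟩ := exists_monoPerm
  have hn : ((imgC φ Q').subgroupOf monoGroup).Normal := ⟨fun γ hγ σ =>
    M.imgC_conj p hs (mem_monoGroup_iff_cg.1 σ.2) hγ⟩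
  have h1 : (imgC φ Q').subgroupOf monoGroup ≤ ρ.ker :=
    (H1.le_pCore (hN := hn) ((imgC_isPGroup p).comap_of_injective _ (subtype_injective _))).trans
      (pCore_le_ker (fun σ => ⟨_, hρ σ σ.2 ∅ empty_mem_code⟩) pCore_M24)
  intro γ hγ
  obtain ⟨σ, hσ, c, hc, rfl⟩ := mem_monoGroup_iff_cg.2 (M.imgC_cg p hs hγ)
  have h2 := h1 (x := ⟨_, mono_mem hσ hc⟩) hγ
  rw [MonoidHom.mem_ker, hρ] at h2
  obtain rfl : σ = 1 := congrArg Subtype.val h2
  exact ⟨c, hc, rfl⟩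

theorem le_imgC (M : MonC z Q C φ cls) (p : PairC Q Q' C z s) (hs : cls (e8 none) s) :
    epsGroup ≤ imgC φ Q' := by
  have := M.fin
  set B := Q'.subgroupOf C with hB
  have hle : B.map φ ≤ epsGroup.map (QuotientGroup.mk' (center Co0)) := by
    intro y hy
    obtain ⟨γ, rfl⟩ := QuotientGroup.mk'_surjective _ y
    exact mem_map_of_mem _ (M.imgC_le p hs hy)
  have h1 := card_mul_index (φ.domRestrict B).ker
  rw [index_ker, MonoidHom.domRestrict_range, MonoidHom.ker_domRestrict] at h1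
  have h2 : Nat.card B = 2 ^ 24 := by
    have := p.h'.card_centralizer p.zQ p.h.ne_one p.ne.symm
    have e : Nat.card B = Nat.card (Q' ⊓ centralizer ({z} : Set G) : Subgroup G) :=
      Nat.card_congr (Equiv.ofBijective (fun x => ⟨x.1.1, x.2, mem_cent_iff.2 (M.cz _ x.1.2)⟩)
        ⟨fun a b e => Subtype.ext (Subtype.ext (congrArg Subtype.val e :)),
          fun x => ⟨⟨⟨x, p.sub x x.2.1 (mem_cent_iff.1 x.2.2)⟩, x.2.1⟩, rfl⟩⟩)
    rw [p.card] at this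
    omega
  have h3 : Nat.card (φ.ker.subgroupOf B) = Nat.card (Q ⊓ Q' : Subgroup G) := by
    refine Nat.card_congr (Equiv.ofBijective
      (fun x => ⟨x.1.1.1, (M.ker _).1 x.2, x.1.2⟩) ⟨fun a b e => ?_, fun x => ?_⟩)
    · have e' := congrArg Subtype.val e
      exact Subtype.ext (Subtype.ext (Subtype.ext e'))
    · exact ⟨⟨⟨⟨x, M.le x.2.1⟩, x.2.2⟩, (M.ker _).2 x.2.1⟩, rfl⟩
  have h4 : Nat.card (Q ⊓ Q' : Subgroup G) ≤ 2 ^ 13 :=
    M.h.card_le_of_elementary (n := 12) M.card inf_le_left fun x hx => p.E_elementary hx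
  have : Finite (epsGroup.map (QuotientGroup.mk' (center Co0))) :=
    Nat.finite_of_card_ne_zero (by rw [card_map_epsGroup]; norm_num)
  have h5 := card_le_of_le hle
  rw [card_map_epsGroup] at h5
  rw [h2, h3] at h1
  have h6 : Nat.card (Q ⊓ Q' : Subgroup G) = 2 ^ 13 := by nlinarith
  have h7 : B.map φ = epsGroup.map (QuotientGroup.mk' (center Co0)) := by
    refine eq_of_le_of_card_ge hle ?_
    rw [card_map_epsGroup]
    rw [h6] at h1
    omega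
  intro γ hγ
  change QuotientGroup.mk' (center Co0) γ ∈ B.map φ
  rw [h7]
  exact mem_map_of_mem _ hγ

end MonC

theorem eqns_Pair : True := by
  have := @imgC.eq_1.{0}
  trivial

end H95.Ag
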