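import Mathlib
import Cfsg.Agent.Lib.MAg.Pair
import Cfsg.Agent.Lib.MAg.Fix
import Cfsg.Agent.Lib.MAg.Geo
import Cfsg.Agent.Lib.MAg.NN2
import Cfsg.Agent.Lib.MAg.NN3

/-! The family of extraspecial groups of the amalgam. -/

set_option autoImplicit false

namespace H95.Ag

open Cfsg Subgroup H16

variable {G : Type*} [Group G]

/-- the extraspecial group attached to a conjugate of `z` by an element of `C N` -/
def QA (Q C N : Subgroup G) (z s : G) : Subgroup G where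
  carrier := {x | ∀ c ∈ C, ∀ n ∈ N, c * n * z * (c * n)⁻¹ = s → (c * n)⁻¹ * x * (c * n) ∈ Q}
  one_mem' c _ n _ _ := by simp
  mul_mem' {a b} ha hb c hc n hn hg := by
    have := Q.mul_mem (ha c hc n hn hg) (hb c hc n hn hg)
    generalize c * n = g at this ⊢
    rwa [show g⁻¹ * a * g * (g⁻¹ * b * g) = g⁻¹ * (a * b) * g by group] at this
  inv_mem' {a} ha c hc n hn hg := by
    have := Q.inv_mem (ha c hc n hn hg)
    generalize c * n = g at this ⊢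
    rwa [show (g⁻¹ * a * g)⁻¹ = g⁻¹ * a⁻¹ * g by group] at this

structure Loc (z w : G) (Q C N : Subgroup G) (φ : C →* Spor.Co1) (cls : leechLattice → G → Prop) : Prop where
  M : MonC z Q C φ cls
  QN : Q ≤ N
  cw : cls (e8 none) w
  ex : ∃ n ∈ N, n * z * n⁻¹ = w
  orb : ∀ n ∈ N, n * z * n⁻¹ = z ∨ n * z * n⁻¹ = w ∨ n * z * n⁻¹ = z * w
  cen : ∀ n ∈ N, n * z = z * n → n ∈ C
  img : ∀ γ ∈ monoGroup, ∃ c : C, (c : G) ∈ N ∧ (QuotientGroup.mk γ : Spor.Co1) = φ c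

namespace Loc

variable {z w : G} {Q C N : Subgroup G} {φ : C →* Spor.Co1} {cls : leechLattice → G → Prop}
  (A : Loc z w Q C N φ cls)
include A

theorem ne64 {v : leechLattice} {s : G} (hs : cls v s) (hv : sqNorm (v : GolayPt → ℤ) = 64) : s ≠ 1 ∧ s ≠ z := by
  have := Mon.not_cg_zero (Or.inr hv)
  rwa [A.M.cg_zero_iff hs, not_or] at this

theorem wQ : w ∈ Q := A.M.mem A.cw

theorem zw : z * w = w * z := (A.M.h.central w A.wQ).symm

theorem ww : w * w = 1 := (A.M.sq_iff A.cw).2 (by rw [sqNorm_e8]; norm_num)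

theorem cls_orb {n : G} (hn : n ∈ N) (h : n * z * n⁻¹ ≠ z) : cls (e8 none) (n * z * n⁻¹) := by
  rcases (A.orb n hn).resolve_left h with e | e <;> rw [e]
  exacts [A.cw, A.zw ▸ A.M.mul_z A.cw]

theorem orbQ {n : G} (hn : n ∈ N) : n * z * n⁻¹ ∈ Q := by
  by_cases h : n * z * n⁻¹ = z
  · rw [h]; exact A.M.h.mem
  · exact A.M.mem (A.cls_orb hn h)

theorem memN {c s s' : G} (hc : c ∈ C) (hs : cls (e8 none) s) (hs' : cls (e8 none) s') (e : c * s * c⁻¹ = s') :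
    c ∈ N := by
  obtain ⟨γ, hγ⟩ := QuotientGroup.mk_surjective (φ ⟨c, hc⟩)
  have h1 : Cg (γ • e8 none) (e8 none) := by
    have := A.M.smul ⟨c, hc⟩ γ hγ hs
    dsimp only at this
    rw [e] at this
    exact (A.M.eq_iff this hs').2 (Or.inl rfl)
  obtain ⟨d, d1, d2⟩ := A.img γ (mem_monoGroup_iff_cg.2 h1)
  have h2 := (A.M.ker (d⁻¹ * ⟨c, hc⟩)).1 (by rw [map_mul, map_inv, ← d2, ← hγ, inv_mul_cancel])
  exact (mul_mem_cancel_left (inv_mem d1)).1 (A.QN h2)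

theorem a1 {c n c' n' : G} (hc : c ∈ C) (hn : n ∈ N) (hc' : c' ∈ C) (hn' : n' ∈ N)
    (e : c * n * z * (c * n)⁻¹ = c' * n' * z * (c' * n')⁻¹) : (c * n)⁻¹ * (c' * n') ∈ C := by
  have hd := mul_mem (inv_mem hc) hc'
  have e1 : c⁻¹ * c' * (n' * z * n'⁻¹) * (c⁻¹ * c')⁻¹ = n * z * n⁻¹ := by
    calc _ = c⁻¹ * (c' * n' * z * (c' * n')⁻¹) * c := by group
      _ = _ := by rw [← e]; group
  rw [show (c * n)⁻¹ * (c' * n') = n⁻¹ * (c⁻¹ * c') * n' by group]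
  generalize c⁻¹ * c' = d at hd e1
  by_cases h : n' * z * n'⁻¹ = z
  · rw [h, A.M.cz d hd, mul_inv_cancel_right] at e1
    exact mul_mem (mul_mem (inv_mem (A.cen n hn (mul_inv_eq_iff_eq_mul.1 e1.symm))) hd)
      (A.cen n' hn' (mul_inv_eq_iff_eq_mul.1 h))
  · have h' : n * z * n⁻¹ ≠ z := fun k => h (by
      calc _ = d⁻¹ * (d * (n' * z * n'⁻¹) * d⁻¹) * d := by group
        _ = z := by rw [e1, k, mul_assoc, ← A.M.cz d hd, inv_mul_cancel_left])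
    refine A.cen _ (mul_mem (mul_mem (inv_mem hn) (A.memN hd (A.cls_orb hn' h) (A.cls_orb hn h') e1)) hn') ?_
    calc _ = n⁻¹ * (d * (n' * z * n'⁻¹) * d⁻¹) * d * n' := by group
      _ = _ := by rw [e1]; group

theorem mem_QA {c n s x : G} (hc : c ∈ C) (hn : n ∈ N) (e : c * n * z * (c * n)⁻¹ = s) :
    x ∈ QA Q C N z s ↔ (c * n)⁻¹ * x * (c * n) ∈ Q := by
  refine ⟨fun h => h c hc n hn e, fun h c' hc' n' hn' e' => ?_⟩
  have := A.M.norm' (A.a1 hc hn hc' hn' (e.trans e'.symm)) h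
  generalize c * n = g, c' * n' = g' at this ⊢
  rwa [show (g⁻¹ * g')⁻¹ * (g⁻¹ * x * g) * (g⁻¹ * g') = g'⁻¹ * x * g' by group] at this

theorem qz : QA Q C N z z = Q := by
  ext x
  rw [A.mem_QA (one_mem _) (one_mem _) (by simp)]
  simp

omit A in
theorem cj {d s x : G} (hd : d ∈ C) (h : x ∈ QA Q C N z s) : d * x * d⁻¹ ∈ QA Q C N z (d * s * d⁻¹) := by
  intro c hc n hn e
  have := h (d⁻¹ * c) (mul_mem (inv_mem hd) hc) n hn (by
    calc _ = d⁻¹ * (c * n * z * (c * n)⁻¹) * d := by group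
      _ = s := by rw [e]; group)
  rwa [show (d⁻¹ * c * n)⁻¹ * x * (d⁻¹ * c * n) = (c * n)⁻¹ * (d * x * d⁻¹) * (c * n) by group] at this

theorem ex64 {v : leechLattice} {s : G} (hs : cls v s) (hv : sqNorm (v : GolayPt → ℤ) = 64) :
    ∃ c ∈ C, ∃ n ∈ N, c * w * c⁻¹ = s ∧ n * z * n⁻¹ = w ∧ c * n * z * (c * n)⁻¹ = s := by
  obtain ⟨c, hc, e⟩ := A.M.conj_of_norm64 A.cw hs (sqNorm_e8 _) hv
  obtain ⟨n, hn, f⟩ := A.ex
  exact ⟨c, hc, n, hn, e, f, by rw [← e, ← f]; group⟩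

theorem inN {c n s x : G} (hc : c ∈ C) (hn : n ∈ N) (e : c * n * z * (c * n)⁻¹ = s) (hx : x ∈ QA Q C N z s) :
    c⁻¹ * x * c ∈ N := by
  have := mul_mem (mul_mem hn (A.QN (hx c hc n hn e))) (inv_mem hn)
  rwa [show n * ((c * n)⁻¹ * x * (c * n)) * n⁻¹ = c⁻¹ * x * c by group] at this

theorem es {v : leechLattice} {s : G} (hs : cls v s) (hv : sqNorm (v : GolayPt → ℤ) = 64) :
    PairC Q (QA Q C N z s) C z s := by
  obtain ⟨c, hc, n, hn, -, -, e⟩ := A.ex64 hs hv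
  have e1 : QA Q C N z s = Q.map (MulAut.conj (c * n)).toMonoidHom := by
    ext x
    rw [mem_map_conj, A.mem_QA hc hn e]
  refine ⟨A.M.h, by rw [e1, ← e]; exact A.M.h.map_conj _, A.M.mem hs, ?_, (A.ne64 hs hv).2, ?_,
    fun d hd k x hx => ?_, fun x hx k => ?_⟩
  · rw [A.mem_QA hc hn e, show (c * n)⁻¹ * z * (c * n) = n⁻¹ * (c⁻¹ * (z * c)) * n⁻¹⁻¹ by group, ← A.M.cz c hc,
      inv_mul_cancel_left]
    exact A.orbQ (inv_mem hn)
  · rw [e1, card_map_of_injective (MulAut.conj _).injective, A.M.card]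
  · have := cj hd hx
    rwa [k, mul_inv_cancel_right] at this
  · have := A.cen _ (A.inN hc hn e hx) (((show Commute c⁻¹ z from A.M.cz _ (inv_mem hc)).mul_left k).mul_left
      (A.M.cz c hc)).eq
    have := mul_mem (mul_mem hc this) (inv_mem hc)
    rwa [show c * (c⁻¹ * x * c) * c⁻¹ = x by group] at this

theorem ln {v : leechLattice} {s : G} (hs : cls v s) (hv : sqNorm (v : GolayPt → ℤ) = 64) {x : G}
    (hx : x ∈ QA Q C N z s) {t : G} (ht : t = z ∨ t = z * s) {a : G} (ha : a ∈ QA Q C N z t) :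
    x * a * x⁻¹ ∈ QA Q C N z (x * t * x⁻¹) := by
  obtain ⟨c, hc, n, hn, e0, e1, e⟩ := A.ex64 hs hv
  have hy := A.inN hc hn e hx
  obtain ⟨m, hm, k⟩ : ∃ m ∈ N, c * m * z * (c * m)⁻¹ = t := by
    rcases ht with rfl | rfl
    · exact ⟨1, one_mem _, by rw [mul_one, A.M.cz c hc, mul_inv_cancel_right]⟩
    · obtain ⟨u, hu, f⟩ := A.M.h.exists_conj A.wQ (A.ne64 A.cw (sqNorm_e8 _)).1 (A.ne64 A.cw (sqNorm_e8 _)).2
      refine ⟨u * n, mul_mem (A.QN hu) hn, ?_⟩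
      calc _ = c * (u * (n * z * n⁻¹) * u⁻¹) * c⁻¹ := by group
        _ = z * (c * w * c⁻¹) := by rw [e1, f, ← A.zw, ← mul_assoc, A.M.cz c hc]; group
        _ = _ := by rw [e0]
  rw [A.mem_QA hc (mul_mem hy hm) (by rw [← k]; group),
    show (c * (c⁻¹ * x * c * m))⁻¹ * (x * a * x⁻¹) * (c * (c⁻¹ * x * c * m)) = (c * m)⁻¹ * a * (c * m) by group]
  exact ha c hc m hm k

theorem eps_mv {v : leechLattice} {s r : G} (hs : cls (e8 none) s) (hr : cls v r) (h : r ∈ QA Q C N z s)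
    (c : Finset GolayPt) (hc : c ∈ code) : Cg (eps c hc • v) v ∨ Cg (eps c hc • v) (v + e8 none) := by
  have p := A.es hs (sqNorm_e8 _)
  obtain ⟨b, b1, b2⟩ := mem_imgC.1 (A.M.le_imgC p hs ⟨c, hc, rfl⟩)
  have h1 := A.M.smul b _ b2 hr
  rcases p.h'.conj h b1 with e | e <;> rw [e] at h1
  · exact Or.inl ((A.M.eq_iff h1 hr).2 (Or.inl rfl))
  · exact Or.inr ((A.M.eq_iff h1 (A.M.add hr hs)).2 (Or.inl rfl))

theorem conj_pair {v v' : leechLattice} {s r s' r' : G} (hs : cls (e8 none) s) (hr : cls v r)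
    (hv : sqNorm (v : GolayPt → ℤ) = 64) (nv : ¬ Cg v (e8 none)) (h : r ∈ QA Q C N z s)
    (hs' : cls (e8 none) s') (hr' : cls v' r') (hv' : sqNorm (v' : GolayPt → ℤ) = 64) (nv' : ¬ Cg v' (e8 none))
    (h' : r' ∈ QA Q C N z s') : ∃ c ∈ C, c * s * c⁻¹ = s' ∧ c * r * c⁻¹ = r' := by
  obtain ⟨γ, hγ, e⟩ := sx hv hv' nv nv' (A.eps_mv hs hr h) (A.eps_mv hs' hr' h')
  obtain ⟨c, c1, c2⟩ := A.M.exists_conj hs hs' (Mon.not_cg_zero (Or.inr (sqNorm_e8 _)))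
    (mem_monoGroup_iff_cg.1 hγ)
  rcases (A.M.eq_iff hr' (A.M.smul c γ c1 hr)).1 e.symm with k | k
  · exact ⟨c, c.2, c2, k⟩
  obtain ⟨u, hu, u1, u2⟩ : ∃ u ∈ Q, u * s' = s' * u ∧ u * r' ≠ r' * u := by
    by_contra! f
    rcases A.M.h.mem_of_centralizes (A.M.mem hs') (A.es hs' (sqNorm_e8 _)).h'.sq (A.M.mem hr') f with
      g | g | g | g
    · exact (A.ne64 hr' hv').1 g
    · exact (A.ne64 hr' hv').2 g
    · exact nv' ((A.M.eq_iff hs' hr').2 (Or.inl g)).symm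
    · exact nv' ((A.M.eq_iff hs' hr').2 (Or.inr (g.trans (A.M.h.central _ (A.M.mem hs')).symm))).symm
  refine ⟨u * c, mul_mem (A.M.le hu) c.2, ?_, ?_⟩
  · calc _ = u * (c * s * (c : G)⁻¹) * u⁻¹ := by group
      _ = _ := by rw [c2, u1, mul_inv_cancel_right]
  · calc _ = u * (c * r * (c : G)⁻¹) * u⁻¹ := by group
      _ = u * r' * u⁻¹ * (u * z * u⁻¹) := by rw [k]; group
      _ = _ := by
        rw [A.M.h.conj_of_ne (A.M.mem hr') hu u2, A.M.h.central u hu, mul_inv_cancel_right, mul_assoc, A.M.h.sq,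
          mul_one]

theorem am {n c c' n' : G} (hn : n ∈ N) (hc : c ∈ C) (hc' : c' ∈ C) (hn' : n' ∈ N) (e : n * z * n⁻¹ = w)
    (k : (c' * n')⁻¹ * (n * c * n) ∈ C)
    (hy : ∀ y, y = c' * n' * z * (c' * n')⁻¹ → y ≠ z ∧ y ≠ w ∧ y ≠ z * w) :
    Am z Q C (QA Q C N z) φ cls := by
  refine ⟨A.M, A.qz, fun d hd _ _ => cj hd, A.es, fun hs hv _ hx _ ht _ ha => A.ln hs hv hx ht ha, ?_⟩
  obtain ⟨y, ey⟩ : ∃ y, y = c' * n' * z * (c' * n')⁻¹ := ⟨_, rfl⟩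
  obtain ⟨y1, y2, y3⟩ := hy y ey
  have e1 : 1 * n * z * (1 * n)⁻¹ = w := by rw [one_mul, e]
  have e2 : y = n * (c * w * c⁻¹) * n⁻¹ := by
    have := A.M.cz _ k
    generalize c' * n' = g at this ey
    calc y = g * (z * (g⁻¹ * (n * c * n))) * (n * c * n)⁻¹ := by rw [ey]; group
      _ = _ := by rw [← this, ← e]; group
  have e3 : n' * z * n'⁻¹ ≠ z := fun f => y1 (by
    calc y = c' * (n' * z * n'⁻¹) * c'⁻¹ := by rw [ey]; group
      _ = z := by rw [f, A.M.cz c' hc', mul_inv_cancel_right])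
  obtain ⟨γ, hγ⟩ := QuotientGroup.mk_surjective (φ ⟨c', hc'⟩)
  have cy : cls (γ • e8 none) y := by
    have := A.M.smul ⟨c', hc'⟩ γ hγ (A.cls_orb hn' e3)
    rwa [show (⟨c', hc'⟩ : C) * (n' * z * n'⁻¹) * ((⟨c', hc'⟩ : C) : G)⁻¹ = y by rw [ey]; group] at this
  have ny : ¬ Cg (γ • e8 none) (e8 none) := fun f => by
    rcases (A.M.eq_iff A.cw cy).1 f.symm with g | g
    exacts [y2 g, y3 (g.trans A.zw.symm)]
  have yQ : y ∈ QA Q C N z w := by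
    rw [A.mem_QA (one_mem _) hn e1, e2, show (1 * n)⁻¹ * (n * (c * w * c⁻¹) * n⁻¹) * (1 * n) = c * w * c⁻¹ by group]
    exact A.M.norm c hc w A.wQ
  have T : ∀ u ∈ QA Q C N z w, u * y = y * u → ∀ a ∈ QA Q C N z y, u * a * u⁻¹ ∈ QA Q C N z y := by
    intro u hu uy a ha
    have h1 := A.QN (A.M.norm' hc (hu 1 (one_mem _) n hn e1))
    have h2 : (n * c * n)⁻¹ * u * (n * c * n) ∈ C := by
      refine A.cen _ ?_ ?_
      · have := mul_mem (mul_mem (inv_mem hn) h1) hn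
        rwa [show n⁻¹ * (c⁻¹ * ((1 * n)⁻¹ * u * (1 * n)) * c) * n = (n * c * n)⁻¹ * u * (n * c * n) by group] at this
      · have h3 : y = n * c * n * z * (n * c * n)⁻¹ := by rw [e2, ← e]; group
        generalize n * c * n = g at h3
        calc _ = g⁻¹ * (u * y) * g := by rw [h3]; group
          _ = _ := by rw [uy, h3]; group
    have h4 := mul_mem (mul_mem k h2) (inv_mem k)
    rw [A.mem_QA hc' hn' ey.symm] at ha ⊢
    have := A.M.norm _ h4 _ ha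
    generalize c' * n' = g, n * c * n = g' at this ⊢
    rwa [show g⁻¹ * g' * (g'⁻¹ * u * g') * (g⁻¹ * g')⁻¹ * (g⁻¹ * a * g) *
      (g⁻¹ * g' * (g'⁻¹ * u * g') * (g⁻¹ * g')⁻¹)⁻¹ = g⁻¹ * (u * a * u⁻¹) * g by group] at this
  intro v s s' hs hs' hv nv h u hu us a ha
  obtain ⟨d, hd, d1, d2⟩ := A.conj_pair hs hs' hv nv h A.cw cy ((sqNorm_co0 _ _).trans (sqNorm_e8 _)) ny yQ
  have h1 := cj (inv_mem hd) (T _ (d1 ▸ cj hd hu) (by
    rw [← d2, conj_mul, conj_mul, us]) _ (d2 ▸ cj hd ha))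
  rwa [← d2, show d⁻¹ * (d * s' * d⁻¹) * d⁻¹⁻¹ = s' by group,
    show d⁻¹ * (d * u * d⁻¹ * (d * a * d⁻¹) * (d * u * d⁻¹)⁻¹) * d⁻¹⁻¹ = u * a * u⁻¹ by group] at h1

end Loc

variable {z : G} {Q C N L : Subgroup G} {π : N →* Equiv.Perm (Fin 3) × M24}
  {ρ : L →* Matrix.SpecialLinearGroup (Fin 3) (ZMod 2)} {φ : C →* Spor.Co1} {cls : leechLattice → G → Prop}

theorem exists_loc (M : MonC z Q C φ cls) (S : Sit z C N L π ρ) : ∃ w φ' cls', Loc z w Q C N φ' cls' := by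
  obtain ⟨θ, g, τ, D⟩ := exists_mid M S
  obtain ⟨δ, h1, h2⟩ := img_mono M S D
  have key : ∀ (γ : Co0) (c : C), (QuotientGroup.mk (δ⁻¹ * γ * δ) : Spor.Co1) = φ c ↔
      (QuotientGroup.mk γ : Spor.Co1) =
        (MulAut.conj (QuotientGroup.mk δ : Spor.Co1)).toMonoidHom.comp φ c := fun γ c => by
    simp only [QuotientGroup.mk_mul, QuotientGroup.mk_inv, MonoidHom.comp_apply, MulEquiv.coe_toMonoidHom,
      MulAut.conj_apply]
    constructor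
    · intro e; rw [← e]; group
    · intro e; rw [e]; group
  have e0 : ∀ γ : Co0, δ * (δ⁻¹ * γ * δ) * δ⁻¹ = γ := fun γ => by group
  have h1' := fun γ => (e0 γ ▸ h1 (δ⁻¹ * γ * δ) :)
  have h2' := fun γ => (e0 γ ▸ h2 (δ⁻¹ * γ * δ) :)
  simp only [key] at h1' h2'
  obtain ⟨a, w, b, c, d, e⟩ := nn3 (M.twist δ) S D h1' h2'
  exact ⟨w, _, _, M.twist δ, a, b, c, d, e, fun γ => (h1' γ).1⟩

theorem eqns_Am : True := by
  have := @QA.eq_1.{0}
  trivial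

end H95.Ag
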