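import Cfsg.Agent.Lib.YM.Sgn2

/-!
The coordinates and symbolic signs of Lib/YM, relative to a subgroup `K` centralising `z`.
-/

set_option autoImplicit false
set_option maxRecDepth 100000

namespace H77.YM.AY

open H54 Finset

variable {G : Type*} [Group G]

structure Bas (K : Subgroup G) (QW : G → Subgroup G) (z : G) (q : ℕ → G) : Prop where
  zz : z * z = 1
  z1 : z ≠ 1
  zq : ∀ i < 24, q i * z = z * q i
  sq : ∀ i < 24, q i * q i = 1
  cm : ∀ i < 24, ∀ j < 24, q i * q j = q j * q i * zp z (Bf i j)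
  cen : ∀ x ∈ K, (∀ i < 24, x * q i = q i * x) → x = 1 ∨ x = z
  qK : ∀ i < 24, q i ∈ K
  zK : z ∈ K
  cj : ∀ c ∈ K, ∀ w x, x ∈ QW w → c * x * c⁻¹ ∈ QW (c * w * c⁻¹)

structure Act (K : Subgroup G) (z : G) (q : ℕ → G) (g : G) (A : List ℕ) : Prop where
  cz : g * z = z * g
  fa : List.Forall₂ (fun i a => Ap z (g * q i * g⁻¹) (e q a)) (List.range 24) A
  mem : g ∈ K

structure Rep (K : Subgroup G) (z : G) (q : ℕ → G) (ρ : ℕ → ZMod 2) (g : G) (A : List ℕ) : Prop where
  cz : g * z = z * g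
  fa : List.Forall₂ (fun i a => g * q i * g⁻¹ = el z q ρ a) (List.range 24) A
  mem : g ∈ K

namespace Bas

variable {K : Subgroup G} {QW : G → Subgroup G} {z : G} {q : ℕ → G} (B : Bas K QW z q) {ρ : ℕ → ZMod 2}
  {g h : G}
include B

theorem e_K (m : ℕ) : e q m ∈ K :=
  E_ind q (P := (· ∈ K)) (one_mem _) (fun _ _ => mul_mem) fun i hi _ => B.qK i hi

theorem cj' {c w w' x : G} (hc : c ∈ K) (h : x ∈ QW w) (e' : c * w * c⁻¹ = w') : c * x * c⁻¹ ∈ QW w' :=
  e' ▸ B.cj c hc w x h

theorem E_z {n : ℕ} (hn : n ≤ 24) (m : ℕ) : E q n m * z = z * E q n m :=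
  E_ind q (P := fun x => Commute x z) (Commute.one_left z) (fun _ _ => Commute.mul_left)
    fun i hi _ => B.zq i (by omega)

theorem e_z (m : ℕ) : e q m * z = z * e q m := B.E_z le_rfl m

theorem q_E {k : ℕ} (hk : k < 24) {n : ℕ} (hn : n ≤ 24) (m : ℕ) :
    q k * E q n m = E q n m * q k * zp z (∑ j ∈ range n, bt m j * Bf k j) := by
  induction n with
  | zero => simp [E_zero]
  | succ n ih =>
    rw [E_succ, ← mul_assoc, ih (by omega), sum_range_succ, zp_add B.zz, bt]
    split_ifs with c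
    · rw [one_mul, mul_assoc, ← zp_comm (B.zq n (by omega)), ← mul_assoc, mul_assoc _ (q k),
        B.cm k hk n (by omega)]
      simp only [mul_assoc, ← zp_add B.zz, add_comm]
    · simp

theorem E_mul {n : ℕ} (hn : n ≤ 24) (a b : ℕ) : E q n a * E q n b =
    E q n (a ^^^ b) * zp z (∑ i ∈ range n, bt a i * ∑ j ∈ range i, bt b j * Bf i j) := by
  induction n with
  | zero => simp [E_zero]
  | succ n ih =>
    have hq := B.zq n (by omega)
    rw [E_succ, E_succ, E_succ, sum_range_succ, zp_add B.zz, Nat.testBit_xor]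
    generalize hS : (∑ i ∈ range n, bt a i * ∑ j ∈ range i, bt b j * Bf i j) = S at ih ⊢
    have ih' := ih (by omega)
    have h2 := B.q_E (k := n) (by omega) (n := n) (by omega) b
    generalize (∑ j ∈ range n, bt b j * Bf n j) = T at h2 ⊢
    unfold bt
    cases a.testBit n <;> cases b.testBit n <;> simp only [Bool.false_eq_true, if_false, if_true,
      Bool.xor_false, Bool.xor_true, Bool.not_false, mul_one, zero_mul,
      one_mul, zp_zero, bne_self_eq_false]
    · exact ih'
    · rw [← mul_assoc, ih', mul_assoc, ← zp_comm hq, mul_assoc]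
    · rw [mul_assoc, h2, ← mul_assoc, ← mul_assoc, ih', mul_assoc _ _ (q n), ← zp_comm hq]
      simp only [mul_assoc]
    · calc _ = E q n a * (q n * E q n b) * q n := by simp only [mul_assoc]
        _ = E q n a * E q n b * (q n * (zp z T * q n)) := by rw [h2]; simp only [mul_assoc]
        _ = _ := by rw [← zp_comm hq, ← mul_assoc (q n), B.sq n (by omega), one_mul, ih', mul_assoc]

theorem e_mul (a b : ℕ) : e q a * e q b = e q (a ^^^ b) * zp z (be a b) := by
  have h := B.E_mul le_rfl a b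
  rw [cocyc] at h
  exact h

theorem e_mul0 {a b : ℕ} (h : be a b = 0) : e q a * e q b = e q (a ^^^ b) := by
  rw [B.e_mul, h]; simp

theorem e_ap (a b : ℕ) : Ap z (e q a * e q b) (e q (a ^^^ b)) := by
  rw [B.e_mul]; exact ap_zp _ _ _

theorem e_comm (a b : ℕ) : e q a * e q b = e q b * e q a * zp z (bf a b) := by
  rw [B.e_mul, B.e_mul, Nat.xor_comm b, mul_assoc, ← zp_add B.zz, bf_cast]
  congr 2
  rw [add_comm, add_assoc, z2_add, add_zero]

theorem e_conj (a b : ℕ) : e q a * e q b * (e q a)⁻¹ = e q b * zp z (bf a b) := by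
  rw [B.e_comm, mul_assoc _ (e q a), zp_comm (B.e_z a)]; group

theorem e_comm0 {a b : ℕ} (h : bf a b = 0) : e q a * e q b = e q b * e q a := by
  rw [B.e_comm, h]; simp

theorem e_conj1 {a b : ℕ} (h : bf a b = 1) : e q a * e q b * (e q a)⁻¹ = e q b * z := by
  rw [B.e_conj, h]; simp

theorem e_sq {a : ℕ} (h : be a a = 0) : e q a * e q a = 1 := by
  rw [B.e_mul0 h, Nat.xor_self, e_zero]

theorem bits_of_ap_one {m : ℕ} (h : Ap z (e q m) 1) {i : ℕ} (hi : i < 24) : m.testBit i = false := by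
  have hd : du i < 24 := by unfold du; split_ifs <;> omega
  have hdd : du (du i) = i := by unfold du; split_ifs <;> omega
  have h1 := B.e_comm m (2 ^ du i)
  have h2 : e q m * e q (2 ^ du i) = e q (2 ^ du i) * e q m := by
    rcases h with h | h <;> rw [h]
    · simp
    · rw [one_mul, B.e_z]
  rw [h2, bf_pow m hd, hdd, left_eq_mul] at h1
  exact bt_eq_zero.1 (zp_inj B.z1 (h1.trans (zp_zero z).symm))

theorem bits_of_ap {m n : ℕ} (h : Ap z (e q m) (e q n)) {i : ℕ} (hi : i < 24) :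
    m.testBit i = n.testBit i := by
  have h1 : Ap z (e q (m ^^^ n)) 1 := by
    refine ((B.e_ap m n).symm B.zz).trans B.zz ?_
    refine (h.mul B.zz (Ap.refl z _) (B.e_z n)).trans B.zz ?_
    have := B.e_ap n n
    rwa [Nat.xor_self, e_zero] at this
  have := B.bits_of_ap_one h1 hi
  rw [Nat.testBit_xor] at this
  revert this; cases m.testBit i <;> cases n.testBit i <;> simp

theorem eq_of_ap {m n : ℕ} (h : Ap z (e q m) (e q n)) (hm : m < 2 ^ 24) (hn : n < 2 ^ 24) : m = n := by
  apply Nat.eq_of_testBit_eq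
  intro i
  by_cases hi : i < 24
  · exact B.bits_of_ap h hi
  · have : 2 ^ 24 ≤ 2 ^ i := Nat.pow_le_pow_right (by norm_num) (by omega)
    rw [Nat.testBit_lt_two_pow (by omega), Nat.testBit_lt_two_pow (by omega)]

theorem el_z (ρ : ℕ → ZMod 2) (A : ℕ) : el z q ρ A * z = z * el z q ρ A := by
  rw [el, mul_assoc, ← zp_comm rfl, ← mul_assoc, B.e_z, mul_assoc]

theorem el_emul {ρ : ℕ → ZMod 2} (h : ρ 0 = 1) (A C : ℕ) :
    el z q ρ (emul A C) = el z q ρ A * el z q ρ C := by
  have e1 : emul A C = (A ^^^ C) ^^^ (be A C <<< 24) := rfl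
  have e2 : e q (emul A C) = e q (A ^^^ C) := E_congr q fun i hi => by
    rw [e1, Nat.testBit_xor, testBit_shl hi, Bool.xor_false]
  have e3 : val ρ (emul A C >>> 24) = be A C + (val ρ (A >>> 24) + val ρ (C >>> 24)) := by
    rw [e1, Nat.shiftRight_xor_distrib, Nat.shiftRight_xor_distrib, shl_shr (be A C), val_xor,
      val_xor, val_bit h (be_le A C), add_comm]
  unfold el
  rw [e2, e3, zp_add B.zz, zp_add B.zz, ← mul_assoc, ← B.e_mul, mul_assoc (e q A), mul_assoc (e q A),
    ← mul_assoc (e q C), zp_comm (B.e_z C)]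
  simp only [mul_assoc]

variable {A C : List ℕ}

theorem fld_xor {L A : List ℕ}
    (H : List.Forall₂ (fun i a => Ap z (g * q i * g⁻¹) (e q a)) L A) : ∀ m acc x,
    Ap z x (e q acc) → Ap z (x * (g * EL q L m * g⁻¹)) (e q (fld Nat.xor A m acc)) := by
  induction H with
  | nil => intro m acc x hx; rw [EL, mul_one, mul_inv_cancel, mul_one]; exact hx
  | @cons i a L A h _ ih =>
    intro m acc x hx
    rw [fld_cons, EL]
    split_ifs
    · have := ih (m >>> 1) _ _ ((hx.mul B.zz h (B.e_z a)).trans B.zz (B.e_ap acc a))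
      rw [show x * (g * (q i * EL q L (m >>> 1)) * g⁻¹) =
        x * (g * q i * g⁻¹) * (g * EL q L (m >>> 1) * g⁻¹) by group]
      exact this
    · rw [one_mul]; exact ih (m >>> 1) _ _ hx

theorem act_app (H : Act K z q g A) (m : ℕ) : Ap z (g * e q m * g⁻¹) (e q (mapp A m)) := by
  have := B.fld_xor H.2 m 0 1 (by rw [e_zero]; exact Ap.refl _ _)
  rwa [one_mul] at this

theorem act_mul (H : Act K z q g A) (H' : Act K z q h C) : Act K z q (g * h) (mmul A C) := by
  refine ⟨by rw [mul_assoc, H'.1, ← mul_assoc, H.1, mul_assoc], ?_, mul_mem H.3 H'.3⟩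
  rw [mmul, mapR_eq, List.forall₂_map_right_iff]
  refine H'.2.imp fun i a ha => ?_
  have := (ha.conj H.1).trans B.zz (B.act_app H a)
  convert this using 1
  group

omit B in
theorem act_of (hK : g ∈ K) (hz : g * z = z * g) (hl : A.length = 24)
    (H : ∀ i < 24, Ap z (g * q i * g⁻¹) (e q (A.getD i 0))) : Act K z q g A :=
  ⟨hz, forall2_range.2 ⟨hl, H⟩, hK⟩

omit B in
theorem act_get (H : Act K z q g A) {i : ℕ} (hi : i < 24) : Ap z (g * q i * g⁻¹) (e q (A.getD i 0)) :=
  (forall2_range.1 H.2).2 i hi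

omit B in
theorem ID_getD {i : ℕ} (hi : i < 24) : e q (ID.getD i 0) = q i := by
  rw [ID_eq, List.getD_eq_getElem?_getD, List.getElem?_map, List.getElem?_range hi]
  exact e_pow q hi

omit B in
theorem act_one : Act K z q 1 ID :=
  act_of (one_mem _) (by simp) rfl fun i hi => by rw [ID_getD hi]; simpa using Ap.refl _ _

theorem act_e (m : ℕ) : Act K z q (e q m) ID :=
  act_of (B.e_K m) (B.e_z m) rfl fun i hi => by
    rw [ID_getD hi, ← e_pow q hi, B.e_conj]; exact ap_zp _ _ _

theorem act_inv (H : Act K z q g A) (hl : C.length = 24) (e' : mmul A C = ID) : Act K z q g⁻¹ C := by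
  have hz : g⁻¹ * z = z * g⁻¹ := (Commute.inv_left (a := g) (b := z) H.1).eq
  refine act_of (inv_mem H.3) hz hl fun i hi => ?_
  have h1 := B.act_app H (C.getD i 0)
  have h2 : mapp A (C.getD i 0) = ID.getD i 0 := by
    rw [← e', mmul, mapR_eq]
    simp [List.getD_eq_getElem?_getD, List.getElem?_eq_getElem (hl ▸ hi : i < C.length)]
  rw [h2, ID_getD hi] at h1
  have := (h1.conj hz).symm B.zz
  convert this using 1
  group

theorem act_word {gs : ℕ → G} {gens : ℕ → List ℕ} {w : List ℕ}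
    (H : ∀ x ∈ w, Act K z q (gs x) (gens x)) : ∀ {g A}, Act K z q g A →
    Act K z q (g * evw gs w) (w.foldl (fun a x => mmul a (gens x)) A) := by
  induction w with
  | nil => intro g A h; simpa [evw] using h
  | cons x w ih =>
    intro g A h
    have := ih (fun y hy => H y (List.mem_cons_of_mem _ hy)) (B.act_mul h (H x List.mem_cons_self))
    simpa [evw, mul_assoc] using this

/-- the matrix of an element modulo signs is unique -/
theorem act_eq (H : Act K z q g A) (H' : Act K z q g C) {i : ℕ} (hi : i < 24) {j : ℕ} (hj : j < 24) :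
    (A.getD i 0).testBit j = (C.getD i 0).testBit j :=
  B.bits_of_ap (((act_get H hi).symm B.zz).trans B.zz (act_get H' hi)) hj

theorem fld_emul (hρ : ρ 0 = 1) {L A : List ℕ}
    (H : List.Forall₂ (fun i a => g * q i * g⁻¹ = el z q ρ a) L A) : ∀ m acc,
    el z q ρ (fld emul A m acc) = el z q ρ acc * (g * EL q L m * g⁻¹) := by
  induction H with
  | nil => intro m acc; simp [EL]; rfl
  | @cons i a L A h _ ih =>
    intro m acc
    rw [fld_cons, EL, ih]
    split_ifs
    · rw [B.el_emul hρ, ← h]; group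
    · rw [one_mul]

theorem rep_app (hρ : ρ 0 = 1) (H : Rep K z q ρ g A) (X : ℕ) :
    el z q ρ (aapp A X) = g * el z q ρ X * g⁻¹ := by
  have e1 : e q ((X >>> 24) <<< 24) = 1 :=
    (E_congr q fun i hi => by rw [testBit_shl hi, Nat.zero_testBit]).trans (e_zero q)
  have e2 : el z q ρ ((X >>> 24) <<< 24) = zp z (val ρ (X >>> 24)) := by
    rw [el, e1, shl_shr (X >>> 24), one_mul]
  refine (B.fld_emul hρ H.2 X _).trans ?_
  change el z q ρ ((X >>> 24) <<< 24) * (g * e q X * g⁻¹) = _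
  rw [e2, el, zp_comm (B.e_z X), ← mul_assoc g, zp_comm H.1]
  simp only [mul_assoc]

theorem rep_mul (hρ : ρ 0 = 1) (H : Rep K z q ρ g A) (H' : Rep K z q ρ h C) :
    Rep K z q ρ (g * h) (amul A C) := by
  refine ⟨by rw [mul_assoc, H'.1, ← mul_assoc, H.1, mul_assoc], ?_, mul_mem H.3 H'.3⟩
  rw [amul, mapR_eq, List.forall₂_map_right_iff]
  refine H'.2.imp fun i a ha => ?_
  rw [B.rep_app hρ H, ← ha]; group

omit B in
theorem el_xor_shl (m c : ℕ) (hm : m < 2 ^ 24) :
    el z q ρ (m ^^^ (c <<< 24)) = e q m * zp z (val ρ c) := by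
  have e2 : e q (m ^^^ (c <<< 24)) = e q m := E_congr q fun i hi => by
    rw [Nat.testBit_xor, testBit_shl hi, Bool.xor_false]
  rw [el, e2, Nat.shiftRight_xor_distrib, shl_shr c, val_xor, Nat.shiftRight_eq_div_pow m,
    Nat.div_eq_of_lt hm, val_zero, zero_add]

theorem rep_inn (hρ : ρ 0 = 1) (m : ℕ) : Rep K z q ρ (e q m) (inn m) := by
  refine ⟨B.e_z m, ?_, B.e_K m⟩
  rw [inn, mapR_eq, ID_eq, List.map_map, List.forall₂_map_right_iff, List.forall₂_same]
  intro i hi
  have hi := List.mem_range.1 hi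
  refine Eq.trans ?_ (el_xor_shl (2 ^ i) (bf m (2 ^ i)) (Nat.pow_lt_pow_right (by norm_num) hi)).symm
  rw [val_bit hρ (bf_le _ _), ← B.e_conj, e_pow q hi]

omit B in
theorem rep_one : Rep K z q ρ 1 ID := by
  refine ⟨by simp, ?_, one_mem _⟩
  rw [ID_eq, List.forall₂_map_right_iff, List.forall₂_same]
  intro i hi
  have hi := List.mem_range.1 hi
  rw [el_lt z q ρ (Nat.pow_lt_pow_right (by norm_num) hi), e_pow q hi]; simp

theorem rep_word (hρ : ρ 0 = 1) {gs : ℕ → G} {gens : ℕ → List ℕ} {w : List ℕ}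
    (H : ∀ x ∈ w, Rep K z q ρ (gs x) (gens x)) : ∀ {g A}, Rep K z q ρ g A →
    Rep K z q ρ (g * evw gs w) (w.foldl (fun a x => amul a (gens x)) A) := by
  induction w with
  | nil => intro g A h; simpa [evw] using h
  | cons x w ih =>
    intro g A h
    have := ih (fun y hy => H y (List.mem_cons_of_mem _ hy))
      (B.rep_mul hρ h (H x List.mem_cons_self))
    simpa [evw, mul_assoc] using this

omit B in
theorem exists_rho (gs : ℕ → G) (As : ℕ → List ℕ) {n : ℕ} (hn : n ≤ 13)
    (H : ∀ k < n, Act K z q (gs k) (As k) ∧ ∀ i < 24, (As k).getD i 0 < 2 ^ 24) :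
    ∃ ρ : ℕ → ZMod 2, ρ 0 = 1 ∧ ∀ k < n, Rep K z q ρ (gs k) (syR (As k) (25 + 24 * k)) := by
  classical
  refine ⟨fun j => if j = 0 then 1 else if gs ((j - 1) / 24) * q ((j - 1) % 24) * (gs ((j - 1) / 24))⁻¹ =
    e q ((As ((j - 1) / 24)).getD ((j - 1) % 24) 0) then 0 else 1, if_pos rfl, fun k hk => ?_⟩
  obtain ⟨h1, h2⟩ := H k hk
  have hl := (forall2_range.1 h1.2).1
  refine ⟨h1.1, forall2_range.2 ⟨(syR_length _ _).trans hl, fun i hi => ?_⟩, h1.3⟩
  have e1 : 1 <<< (25 + 24 * k + i) = (2 ^ (1 + 24 * k + i)) <<< 24 := by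
    rw [Nat.shiftLeft_eq, Nat.shiftLeft_eq, one_mul, ← pow_add]; congr 1; ring
  rw [syR_getD _ _ _ (by omega), e1, el_xor_shl _ _ (h2 i hi), val_pow _ (by omega),
    if_neg (by omega), show (1 + 24 * k + i - 1) / 24 = k by omega,
    show (1 + 24 * k + i - 1) % 24 = i by omega]
  split_ifs with c
  · simpa using c
  · simpa using (act_get h1 hi).resolve_left c

omit B in
theorem rep_eq (H : Rep K z q ρ g A) (H' : Rep K z q ρ g C) :
    List.Forall₂ (fun a b => el z q ρ a = el z q ρ b) A C := by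
  obtain ⟨-, H, -⟩ := H
  obtain ⟨-, H', -⟩ := H'
  generalize List.range 24 = L at H H'
  induction H generalizing C with
  | nil => cases H'; exact .nil
  | cons h _ ih => cases H' with | cons h' H' => exact .cons (h.symm.trans h') (ih H')

theorem addEF_spec {a b : ℕ} {rows : List ℕ} {k : List ℕ → Bool} (h : addEF a b rows k = true)
    (hz : ZF ρ rows) (e' : el z q ρ a = el z q ρ b) : ∃ rows', ZF ρ rows' ∧ k rows' = true := by
  unfold addEF at h
  rw [force_eq, band_eq_true, force_eq, force_eq] at h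
  obtain ⟨h1, h2⟩ := h
  have e1 : e q a = e q b := E_congr q fun i hi => by
    have := land_bits h1 hi
    rw [show Nat.xor a b = a ^^^ b from rfl, Nat.testBit_xor, Nat.zero_testBit] at this
    revert this; cases a.testBit i <;> cases b.testBit i <;> simp
  rw [el, el, e1, mul_right_inj] at e'
  have e2 : val ρ (redF rows (enc (Nat.shiftRight (Nat.xor a b) 24)) >>> 32) = 0 := by
    rw [hz.red, enc_shr, show Nat.shiftRight (Nat.xor a b) 24 = (a ^^^ b) >>> 24 from rfl,
      Nat.shiftRight_xor_distrib, val_xor, zp_inj B.z1 e', z2_add]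
  revert h2
  cases Nat.beq _ 0
  · exact fun h2 => ⟨_, fun r hr => (List.mem_cons.1 hr).elim (fun x => x ▸ e2) (hz r), h2⟩
  · exact fun h2 => ⟨_, hz, h2⟩

theorem addPF_spec {k : List ℕ → Bool} {A C : List ℕ}
    (H : List.Forall₂ (fun a b => el z q ρ a = el z q ρ b) A C) : ∀ {rows}, ZF ρ rows →
    addPF A C rows k = true → ∃ rows', ZF ρ rows' ∧ k rows' = true := by
  induction H with
  | nil => exact fun hz h => ⟨_, hz, h⟩
  | @cons a b A C e' _ ih =>
    intro rows hz h
    have h : addEF a b rows (fun rows' => addPF A C rows' k) = true := h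
    obtain ⟨r, hr, h'⟩ := B.addEF_spec h hz e'
    exact ih hr h'

theorem add2F_spec (hρ : ρ 0 = 1) {gs : ℕ → G} {gens : ℕ → List ℕ} {k : List ℕ → Bool}
    {R : List (ℕ × ℕ × ℕ)} (H : ∀ r ∈ R, Rep K z q ρ (gs r.1) (gens r.1) ∧
      gs r.1 * el z q ρ r.2.1 * (gs r.1)⁻¹ = el z q ρ r.2.2) : ∀ {rows}, ZF ρ rows →
    add2F gens R rows k = true → ∃ rows', ZF ρ rows' ∧ k rows' = true := by
  induction R with
  | nil => exact fun hz h => ⟨_, hz, h⟩
  | cons r R ih =>
    intro rows hz h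
    obtain ⟨h1, h2⟩ := H r List.mem_cons_self
    have h : addEF (aapp (gens r.1) r.2.1) r.2.2 rows (fun rows' => add2F gens R rows' k) = true := h
    obtain ⟨r, hr, h'⟩ := B.addEF_spec h hz ((B.rep_app hρ h1 _).trans h2)
    exact ih (fun x hx => H x (List.mem_cons_of_mem _ hx)) hr h'

theorem add1F_spec (hρ : ρ 0 = 1) {gs : ℕ → G} {gens : ℕ → List ℕ} {k : List ℕ → Bool}
    (hg : ∀ x, Rep K z q ρ (gs x) (gens x)) {R : List (List ℕ × List ℕ × ℕ)}
    (H : ∀ r ∈ R, evw gs r.1 = e q r.2.2 * evw gs r.2.1) : ∀ {rows}, ZF ρ rows →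
    add1F gens R rows k = true → ∃ rows', ZF ρ rows' ∧ k rows' = true := by
  induction R with
  | nil => exact fun hz h => ⟨_, hz, h⟩
  | cons r R ih =>
    intro rows hz h
    have h : addPF _ _ rows _ = true := ((wK_eq _ _ _ _ _).trans
      ((forceL_eq _ _).trans (wK_eq _ _ _ _ _))).symm.trans h
    have h1 := B.rep_word hρ (w := r.1) (fun x _ => hg x) (rep_one (ρ := ρ))
    rw [one_mul, H r List.mem_cons_self] at h1
    obtain ⟨r, hr, h'⟩ := B.addPF_spec (rep_eq h1
      (B.rep_word hρ (fun x _ => hg x) (B.rep_inn hρ _))) hz h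
    exact ih (fun x hx => H x (List.mem_cons_of_mem _ hx)) hr h'

theorem outF_spec {rows : List ℕ} {L : List (ℕ × ℕ)} (hz : ZF ρ rows) (H : Rep K z q ρ g A)
    (h : outOkF rows L A = true) : Ap z g (e q (selx ρ L)) := by
  have key : ∀ i < 24, g * q i * g⁻¹ = e q (selx ρ L) * q i * (e q (selx ρ L))⁻¹ := by
    intro i hi
    have := (allLt_iff _ _).1 h i hi
    rw [force_eq, band_eq_true, force_eq, nth_eq] at this
    rw [(forall2_range.1 H.2).2 i hi, el, ← enc_shr (A.getD i 0 >>> 24), ← hz.red]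
    have h2 : redF rows (enc (A.getD i 0 >>> 24)) >>> 32 = expS L (2 ^ i) := Nat.eq_of_beq_eq_true this.2
    rw [h2, val_expS, ← e_pow q hi, B.e_conj]
    congr 1
    exact E_congr q fun j hj => land_bits this.1 hj
  have hn := B.e_K (selx ρ L)
  generalize e q (selx ρ L) = n at key hn
  rcases B.cen (n⁻¹ * g) (mul_mem (inv_mem hn) H.3) (fun i hi => by
      have := key i hi
      calc n⁻¹ * g * q i = n⁻¹ * (g * q i * g⁻¹) * g := by group
        _ = _ := by rw [this]; group) with c | c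
  · exact Or.inl (inv_mul_eq_one.1 c).symm
  · exact Or.inr (inv_mul_eq_iff_eq_mul.1 c)

end Bas

end H77.YM.AY
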