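import Cfsg.Agent.Lib.YM.Fr
import Cfsg.Agent.Lib.MAg.YB
import Cfsg.Agent.Lib.MAg.Pair

/-! Coordinates in the extraspecial group of an amalgam of Monster type; the sign changes. -/

set_option autoImplicit false
set_option maxRecDepth 100000

namespace H77.YM.AY

open Cfsg H54 H16 H95 Subgroup H95.Ag

variable {G : Type*} [Group G]

structure Fr (z : G) (Q K : Subgroup G) (QW : G → Subgroup G) (φ : K →* Spor.Co1)
    (cls : leechLattice → G → Prop) (q : ℕ → G) : Prop where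
  A : Am z Q K QW φ cls
  hq : ∀ i < 24, cls (lv (nth BV i)) (q i)

def IsA (z : G) (K : Subgroup G) (φ : K →* Spor.Co1) (q : ℕ → G) (γ : Co0) (A : List ℕ) : Prop :=
  ∀ g : K, (QuotientGroup.mk γ : Spor.Co1) = φ g → Act K z q g A

theorem exists_fr {z : G} {Q K : Subgroup G} {QW : G → Subgroup G} {φ : K →* Spor.Co1}
    {cls : leechLattice → G → Prop} (A : Am z Q K QW φ cls) : ∃ q, Fr z Q K QW φ cls q := by
  choose l hl using A.M.ex_elt
  exact ⟨fun i => l _, A, fun i _ => hl _⟩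

namespace Fr

variable {z : G} {Q K : Subgroup G} {QW : G → Subgroup G} {φ : K →* Spor.Co1}
  {cls : leechLattice → G → Prop} {q : ℕ → G} (F : Fr z Q K QW φ cls q)
include F

theorem M : MonC z Q K φ cls := F.A.M

theorem cl_mul {a b : L2} {x y : G} (hx : Cl cls a x) (hy : Cl cls b y) : Cl cls (a + b) (x * y) := by
  obtain ⟨v, rfl, hv⟩ := hx
  obtain ⟨w, rfl, hw⟩ := hy
  exact ⟨v + w, map_add _ _ _, F.M.add hv hw⟩

theorem cl_ap {a : L2} {x y : G} (hx : Cl cls a x) (hy : Cl cls a y) : Ap z y x := by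
  obtain ⟨v, rfl, hv⟩ := hx
  obtain ⟨w, e, hw⟩ := hy
  exact (F.M.eq_iff hv hw).1 (mk2_eq.1 e.symm)

theorem cl_of_ap {a : L2} {x y : G} (hx : Cl cls a x) (h : Ap z y x) : Cl cls a y := by
  obtain ⟨v, rfl, hv⟩ := hx
  rcases h with rfl | rfl
  exacts [⟨v, rfl, hv⟩, ⟨v, rfl, F.M.mul_z hv⟩]

theorem cl_EL {L A : List ℕ} (H : List.Forall₂ (fun i a => cls (lv a) (q i)) L A) :
    ∀ m, Cl cls ((selL A m).map clsC).sum (EL q L m) := by
  induction H with
  | nil => exact fun _ => ⟨0, map_zero _, F.M.cls_zero⟩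
  | @cons i a L A h _ ih =>
    intro m
    have e1 : selL (a :: A) m = Bool.rec (selL A (m / 2)) (a :: selL A (m / 2)) (Nat.beq (m % 2) 1) := rfl
    rw [EL, e1, Nat.testBit_zero, Nat.shiftRight_one]
    rcases Nat.mod_two_eq_zero_or_one m with c | c <;> rw [c]
    · rw [if_neg (by decide), one_mul]; exact ih (m / 2)
    · rw [if_pos (by decide)]; exact F.cl_mul ⟨_, rfl, h⟩ (ih (m / 2))

theorem cl_e (m : ℕ) : Cl cls (cv m) (e q m) :=
  F.cl_EL (forall2_range.2 ⟨rfl, fun i hi => nth_eq BV i ▸ F.hq i hi⟩) m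

theorem e_mem (m : ℕ) : e q m ∈ Q := by
  obtain ⟨v, -, hv⟩ := F.cl_e m
  exact F.M.mem hv

theorem cls_of_isC {a m : ℕ} (h : isC a m = true) {x : G} (hx : Ap z x (e q m)) : cls (lv a) x := by
  obtain ⟨v, e, hv⟩ := F.cl_of_ap (F.cl_e m) hx
  exact F.M.congr hv (mk2_eq.1 (e.trans (isC_spec h).symm))

theorem span {P : G → Prop} (hm : ∀ a b, P a → P b → P (a * b)) (hz : P z)
    (he : ∀ m < 2 ^ 24, P (e q m)) : ∀ x ∈ Q, P x := by
  let K : AddSubgroup leechLattice :=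
    { carrier := {v | ∃ x, P x ∧ cls v x}
      zero_mem' := ⟨1, e_zero q ▸ he 0 (by norm_num), F.M.cls_zero⟩
      add_mem' := by
        rintro v w ⟨a, ha, hv⟩ ⟨b, hb, hw⟩
        exact ⟨a * b, hm _ _ ha hb, F.M.add hv hw⟩
      neg_mem' := by
        rintro v ⟨a, ha, hv⟩
        exact ⟨a, ha, F.M.congr hv (cg_neg v)⟩ }
  have hK : K = ⊤ := top_of_genL K fun a ha => by
    obtain ⟨i, hi, rfl⟩ := List.getElem_of_mem ha
    have h := gen_chk
    rw [band_eq_true, allLt_iff] at h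
    have h2 := h.2 i hi
    rw [band_eq_true, nth_eq H95.genL, List.getD_eq_getElem _ _ hi] at h2
    exact ⟨_, he _ (by simpa using h2.1), F.cls_of_isC h2.2 (Ap.refl _ _)⟩
  intro x hx
  obtain ⟨v, hv⟩ := F.M.ex_cls x hx
  obtain ⟨y, hy, h⟩ : v ∈ K := hK ▸ AddSubgroup.mem_top v
  rcases (F.M.eq_iff h hv).1 (Cg.refl v) with rfl | rfl
  exacts [hy, hm _ _ hy hz]

theorem le_of_gens {H : Subgroup G} (hz : z ∈ H) (hq : ∀ i < 24, q i ∈ H) : Q ≤ H :=
  F.span (P := (· ∈ H)) (fun _ _ => H.mul_mem) hz fun _ _ =>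
    E_ind q (P := (· ∈ H)) H.one_mem (fun _ _ => H.mul_mem) fun i hi _ => hq i hi

theorem isA_of_okA {P : ℕ} {γ : Co0} (hP : IsM P γ) {A : List ℕ} (h : okA P A = true) :
    IsA z K φ q γ A := by
  intro g hg
  unfold okA at h
  rw [force_eq, band_eq_true, allLt_iff, Nat.beq_eq, len_eq] at h
  refine Bas.act_of g.2 (F.M.cz _ g.2) h.1 fun i hi => ?_
  have h1 := (hP.app (code_lv (bv_spec hi).1) (by
    rw [(code_lv (bv_spec hi).1).norm]; linarith [(bv_spec hi).2.2.1])).lv_eq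
  have h2 := h.2 i hi
  rw [force_eq, nth_eq A] at h2
  exact F.cl_ap (F.cl_e _) ⟨_, (congrArg mk2 h1).symm.trans (isC_spec h2), F.M.smul g γ hg (F.hq i hi)⟩

theorem cls_y {w : G} (h : Ap z w (e q 224)) : cls (e8 none) w := by
  have := F.cls_of_isC y_chk h
  rwa [(code_e8C (by norm_num)).lv_eq] at this

theorem cls_t : cls vU (q 7) := by
  have := F.hq 7 (by norm_num)
  rwa [t_chk, code_U.lv_eq] at this

theorem lift_act {P : ℕ} {A : List ℕ} (h : band (okM P) (okA P A) = true) : ∃ g, Act K z q g A := by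
  rw [band_eq_true] at h
  obtain ⟨g, hg⟩ := F.M.exists_lift (H16.el P)
  exact ⟨g, F.isA_of_okA (isM_el h.1) h.2 g hg⟩

theorem bas : Bas K QW z q where
  zz := F.M.h.sq
  z1 := F.M.h.ne_one
  zq i hi := F.M.h.central _ (F.M.mem (F.hq i hi))
  sq i hi := by
    rw [F.M.sq_iff (F.hq i hi), (code_lv (bv_spec hi).1).norm]
    exact Int.dvd_of_emod_eq_zero (bv_spec hi).2.1
  cm i hi j hj := by
    have h1 := F.M.commute_iff (F.hq i hi) (F.hq j hj)
    rw [(code_lv (bv_spec hi).1).dot (code_lv (bv_spec hj).1)] at h1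
    have h2 := (bv_spec hi).2.2.2 j hj
    unfold Bf
    split_ifs at h2 ⊢
    · exact (F.M.h.comm _ (F.M.mem (F.hq i hi)) _ (F.M.mem (F.hq j hj))).resolve_left
        fun c => by have := h1.1 c; omega
    · rw [zp_zero, mul_one]; exact h1.2 (by omega)
  cen x hz hq := F.M.cent x hz fun y hy => mem_cent_iff.1 (F.le_of_gens (H := centralizer {x})
    (mem_cent_iff.2 (F.M.cz x hz).symm) (fun i hi => mem_cent_iff.2 (hq i hi).symm) hy)
  qK i hi := F.M.le (F.M.mem (F.hq i hi))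
  zK := F.M.le F.M.h.mem
  cj := F.A.cj

theorem ex_e : ∀ x ∈ Q, ∃ m < 2 ^ 24, Ap z x (e q m) :=
  F.span (by
    rintro a b ⟨m, hm, ha⟩ ⟨n, hn, hb⟩
    exact ⟨m ^^^ n, Nat.xor_lt_two_pow hm hn,
      (ha.mul F.bas.zz hb (F.bas.e_z n)).trans F.bas.zz (F.bas.e_ap m n)⟩)
    ⟨0, by norm_num, Or.inr (by rw [e_zero, one_mul])⟩ fun m hm => ⟨m, hm, Ap.refl _ _⟩

theorem mem_of_act {g : G} (h : Act K z q g ID) : g ∈ Q := by
  refine F.M.mem_of_trivial h.3 (F.span (P := fun x => x * z = z * x ∧ Ap z (g * x * g⁻¹) x) ?_ ?_ ?_ · · |>.2)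
  · rintro a b ⟨a1, a2⟩ ⟨b1, b2⟩
    refine ⟨by rw [mul_assoc, b1, ← mul_assoc, a1, mul_assoc], ?_⟩
    rw [show g * (a * b) * g⁻¹ = g * a * g⁻¹ * (g * b * g⁻¹) by group]
    exact a2.mul F.bas.zz b2 b1
  · exact ⟨rfl, Or.inl (by rw [h.1, mul_inv_cancel_right])⟩
  · intro m _
    refine E_ind q (P := fun x => x * z = z * x ∧ Ap z (g * x * g⁻¹) x) ⟨by simp, by simp [Ap]⟩ ?_
      fun i hi _ => ⟨F.bas.zq i hi, by have := Bas.act_get h hi; rwa [Bas.ID_getD hi] at this⟩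
    rintro a b ⟨a1, a2⟩ ⟨b1, b2⟩
    refine ⟨by rw [mul_assoc, b1, ← mul_assoc, a1, mul_assoc], ?_⟩
    rw [show g * (a * b) * g⁻¹ = g * a * g⁻¹ * (g * b * g⁻¹) by group]
    exact a2.mul F.bas.zz b2 b1

theorem isA_one : IsA z K φ q 1 ID := by
  intro g hg
  obtain ⟨m, -, h⟩ := F.ex_e g ((F.M.ker g).1 hg.symm)
  refine Bas.act_of g.2 (F.M.cz _ g.2) rfl fun i hi => ?_
  rw [Bas.ID_getD hi]
  exact F.M.h.conj (F.M.mem (F.hq i hi)) ((F.M.ker g).1 hg.symm)

theorem split {γ δ : Co0} {g : K}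
    (hg : (QuotientGroup.mk (γ * δ) : Spor.Co1) = φ g) : ∃ a b : K,
    (QuotientGroup.mk γ : Spor.Co1) = φ a ∧ (QuotientGroup.mk δ : Spor.Co1) = φ b ∧ (g : G) = a * b := by
  obtain ⟨a, ha⟩ := F.M.exists_lift γ
  refine ⟨a, a⁻¹ * g, ha, ?_, by simp⟩
  rw [map_mul, map_inv, ← ha, ← hg, QuotientGroup.mk_mul, inv_mul_cancel_left]

theorem isA_mul {γ δ : Co0} {A C : List ℕ} (h : IsA z K φ q γ A) (h' : IsA z K φ q δ C) :
    IsA z K φ q (γ * δ) (mmul A C) := by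
  intro g hg
  obtain ⟨a, b, ha, hb, e⟩ := F.split hg
  rw [e]
  exact F.bas.act_mul (h a ha) (h' b hb)

theorem eps_ind {L : List ℕ} {Es : List (List ℕ)}
    (H : List.Forall₂ (fun b E => ∃ hb, IsA z K φ q (eps (H15.ofMask b) hb) E ∧ mapp E 224 = 224) L Es)
    (hL : ∀ b ∈ L, H15.ofMask b ∈ code) : ∀ t,
    IsA z K φ q (eps _ (H15.encL_mem_codeSets hL t)) (EtL Es t) ∧ ∀ g : K,
      (QuotientGroup.mk (eps _ (H15.encL_mem_codeSets hL t)) : Spor.Co1) = φ g →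
      Ap z (g * e q 224 * (g : G)⁻¹) (e q 224) ∧ ∀ m a, be m 224 = 0 → faL m Es a = true →
      Ap z (g * e q m * (g : G)⁻¹)
        (e q m * zp (e q 224) (∑ j ∈ Finset.range Es.length, bt t j * bt a j)) := by
  have B := F.bas
  induction H with
  | nil =>
    intro t
    have e1 : eps _ (H15.encL_mem_codeSets hL t) = 1 := by
      rw [← eps_empty]; simp only [H15.encL_nil, H15.ofMask_zero]
    rw [e1]
    refine ⟨F.isA_one, fun g hg => ?_⟩
    have hQ := (F.M.ker g).1 hg.symm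
    exact ⟨F.M.h.conj (F.e_mem _) hQ, fun m a _ _ => by simpa [Ap] using F.M.h.conj (F.e_mem _) hQ⟩
  | @cons b E L Es h _ ih =>
    intro t
    obtain ⟨hb, h1, h2⟩ := h
    have hL' : ∀ b ∈ L, H15.ofMask b ∈ code := fun c hc => hL c (List.mem_cons_of_mem _ hc)
    obtain ⟨i1, i2⟩ := ih hL' (t >>> 1)
    rw [H77.YM.Fr.eps_cons hb hL', EtL_cons]
    have yy : e q 224 * e q 224 = 1 := B.e_sq (by decide +kernel)
    have hs : ∀ a, ∑ j ∈ Finset.range (E :: Es).length, bt t j * bt a j =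
        bt t 0 * bt a 0 + ∑ j ∈ Finset.range Es.length, bt (t >>> 1) j * bt (a >>> 1) j := by
      intro a
      rw [List.length_cons, Finset.sum_range_succ', add_comm]
      simp only [bt_shr, add_comm 1]
    split_ifs with c
    · refine ⟨F.isA_mul h1 i1, fun g hg => ?_⟩
      obtain ⟨u, v, hu, hv, e'⟩ := F.split hg
      obtain ⟨j1, j2⟩ := i2 v hv
      have hu := h1 u hu
      have k1 := B.act_app hu 224
      rw [h2] at k1
      have k2 : ∀ x, (g : G) * x * (g : G)⁻¹ = u * (v * x * (v : G)⁻¹) * (u : G)⁻¹ := fun x => by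
        rw [e']; group
      refine ⟨k2 _ ▸ (j1.conj hu.1).trans B.zz k1, fun m a h0 ha => ?_⟩
      have ha : band (Nat.beq (mapp E m) (sel (od a) (m ^^^ 224) m)) (faL m Es (a >>> 1)) = true := ha
      rw [band_eq_true, Nat.beq_eq, od_eq] at ha
      rw [k2, hs, zp_add yy, ← mul_assoc (e q m)]
      refine ((j2 m _ h0 ha.2).conj hu.1).trans B.zz ?_
      generalize (∑ j ∈ Finset.range Es.length, bt (t >>> 1) j * bt (a >>> 1) j) = s
      have k3 : e q (mapp E m) = e q m * zp (e q 224) (bt t 0 * bt a 0) := by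
        rw [ha.1, bt, bt, if_pos c, one_mul]
        cases a.testBit 0
        · simp
        · simp [B.e_mul0 h0]
      rw [show (u : G) * (e q m * zp (e q 224) s) * (u : G)⁻¹ =
        u * e q m * (u : G)⁻¹ * (u * zp (e q 224) s * (u : G)⁻¹) by group, ← k3]
      refine (B.act_app hu m).mul B.zz ?_ (zp_comm (B.e_z 224).symm s).symm
      rcases z2 s with rfl | rfl
      · simpa using Ap.refl _ _
      · simpa using k1
    · rw [one_mul]
      refine ⟨i1, fun g hg => ⟨(i2 g hg).1, fun m a h0 ha => ?_⟩⟩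
      have ha : band (Nat.beq (mapp E m) (sel (od a) (m ^^^ 224) m)) (faL m Es (a >>> 1)) = true := ha
      rw [band_eq_true] at ha
      rw [hs, bt, if_neg c, zero_mul, zero_add]
      exact (i2 g hg).2 m _ h0 ha.2

theorem ep_spec (t : ℕ) {g : K}
    (hg : (QuotientGroup.mk (ep t) : Spor.Co1) = φ g) : Act K z q g (Et t) ∧ ∀ m a, faOk m a = true →
      Ap z (g * e q m * (g : G)⁻¹) (e q m * zp (e q 224) (par (Nat.land (Nat.land t a) 4095))) := by
  have H : List.Forall₂ (fun b E => ∃ hb, IsA z K φ q (eps (H15.ofMask b) hb) E ∧ mapp E 224 = 224)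
      H15.basisL EK := by
    refine List.forall₂_iff_get.2 ⟨rfl, fun i h1 h2 => ?_⟩
    have := (allLt_iff _ _).1 ek_chk i h1
    rw [band_eq_true, nth_eq, List.getD_eq_getElem _ _ h1, List.getD_eq_getElem _ _ h2] at this
    exact ⟨_, F.isA_of_okA (isM_eps this.1) this.2,
      (by decide +kernel : ∀ E ∈ EK, mapp E 224 = 224) _ (List.get_mem _ _)⟩
  obtain ⟨h1, h2⟩ := F.eps_ind H H15.basisL_mem t
  refine ⟨h1 g hg, fun m a h => ?_⟩
  unfold faOk at h
  rw [band_eq_true, Nat.beq_eq] at h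
  rw [par_land]
  simp only [show Nat.land t a = t &&& a from rfl, bt_and]
  exact (h2 g hg).2 m a h.1 h.2

theorem yy : e q 224 * e q 224 = 1 := F.bas.e_sq (by decide +kernel)

theorem not_ap_y : ¬ Ap z (e q 224) 1 := fun h => by
  have := F.bas.bits_of_ap_one h (i := 5) (by norm_num)
  revert this; decide

theorem ap_y_inj {x : G} {s t : ZMod 2} (h : Ap z (x * zp (e q 224) s) (x * zp (e q 224) t)) : s = t := by
  have h := h.mul_left x⁻¹
  rw [inv_mul_cancel_left, inv_mul_cancel_left] at h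
  rcases z2 s with rfl | rfl <;> rcases z2 t with rfl | rfl
  · rfl
  · exact absurd (by simpa using h.symm F.bas.zz) F.not_ap_y
  · exact absurd (by simpa using h) F.not_ap_y
  · rfl

/-- `w` lies over a frame: it is carried to the standard one by `d⁻¹` -/
theorem cls_w {w d : G} (hd : d ∈ K) (h : Ap z (d⁻¹ * w * d) (e q 224)) :
    ∃ v, cls v w ∧ sqNorm (v : GolayPt → ℤ) = 64 := by
  obtain ⟨γ, hγ⟩ := QuotientGroup.mk_surjective (φ ⟨d, hd⟩)
  have := F.M.smul ⟨d, hd⟩ γ hγ (F.cls_y h)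
  rw [show d * (d⁻¹ * w * d) * d⁻¹ = w by group] at this
  exact ⟨_, this, (sqNorm_co0 _ _).trans (sqNorm_e8 _)⟩

theorem good {w d : G} (hd : d ∈ K) (h : Ap z (d⁻¹ * w * d) (e q 224)) : PairC Q (QW w) K z w :=
  (F.cls_w hd h).elim fun _ k => F.A.es k.1 k.2

theorem good1 {w : G} (h : Ap z w (e q 224)) : PairC Q (QW w) K z w :=
  F.A.es (F.cls_y h) (sqNorm_e8 _)

theorem eps_std {w b : G} (h : Ap z w (e q 224)) (hb : b ∈ QW w) (hz : b ∈ K) :
    ∃ t < 4096, (QuotientGroup.mk (ep t) : Spor.Co1) = φ ⟨b, hz⟩ := by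
  obtain ⟨γ, hγ⟩ := QuotientGroup.mk_surjective (φ ⟨b, hz⟩)
  obtain ⟨t, ht, rfl⟩ := exists_ep (F.M.imgC_le (F.good1 h) (F.cls_y h) (mem_imgC.2 ⟨_, hb, hγ⟩))
  exact ⟨t, ht, hγ⟩

theorem ex_eps_std {w : G} (h : Ap z w (e q 224)) (t : ℕ) : ∃ b : K,
    (b : G) ∈ QW w ∧ (QuotientGroup.mk (ep t) : Spor.Co1) = φ b :=
  mem_imgC.1 (F.M.le_imgC (F.good1 h) (F.cls_y h) ⟨_, _, rfl⟩)

theorem ex_eps {w d : G} {D D' : List ℕ} (hd : Act K z q d D) (hd' : Act K z q d⁻¹ D')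
    (h : Ap z (d⁻¹ * w * d) (e q 224)) (t : ℕ) :
    ∃ b ∈ QW w, Act K z q b (mmul D (mmul (Et t) D')) := by
  obtain ⟨b, h1, h2⟩ := F.ex_eps_std h t
  refine ⟨d * (b * d⁻¹), ?_, F.bas.act_mul hd (F.bas.act_mul (F.ep_spec t h2).1 hd')⟩
  rw [← mul_assoc]
  exact F.bas.cj' hd.3 h1 (by group)

theorem eps_act {w d b : G} {D D' : List ℕ} (hd : Act K z q d D) (hd' : Act K z q d⁻¹ D')
    (h : Ap z (d⁻¹ * w * d) (e q 224)) (hb : b ∈ QW w) (hz : b * z = z * b)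
    {C : List (ℕ × ℕ × ℕ)} (hC : H77.YM.Fr.consOk D' C = true)
    (H : ∀ c ∈ C, Ap z (b * e q c.1 * b⁻¹) (e q c.1 * zp w c.2.1)) :
    ∃ t < 4096, H77.YM.Fr.okT C t = true ∧ Act K z q b (mmul D (mmul (Et t) D')) := by
  have B := F.bas
  have hz' : d⁻¹ * b * d * z = z * (d⁻¹ * b * d) :=
    (((show Commute d⁻¹ z from hd'.1).mul_left hz).mul_left hd.1).eq
  have hb' : d⁻¹ * b * d ∈ QW (d⁻¹ * w * d) := by simpa using B.cj _ hd'.3 _ _ hb
  obtain ⟨t, ht, e1⟩ := F.eps_std h hb' ((F.good1 h).sub _ hb' hz')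
  obtain ⟨h1, h2⟩ := F.ep_spec t e1
  refine ⟨t, ht, (allL_iff _ _).2 fun c hc => ?_, ?_⟩
  · have h3 := (allL_iff _ _).1 hC c hc
    rw [band_eq_true, force_eq, Nat.ble_eq] at h3
    have h4 := h2 _ _ h3.2
    have h5 := B.act_app hd' c.1
    have h6 : Ap z (d⁻¹ * b * d * e q (mapp D' c.1) * (d⁻¹ * b * d)⁻¹)
        (e q (mapp D' c.1) * zp (e q 224) c.2.1) := by
      refine ((h5.symm B.zz).conj hz').trans B.zz ?_
      rw [show d⁻¹ * b * d * (d⁻¹ * e q c.1 * d⁻¹⁻¹) * (d⁻¹ * b * d)⁻¹ =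
        d⁻¹ * (b * e q c.1 * b⁻¹) * d⁻¹⁻¹ by group]
      refine ((H c hc).conj hd'.1).trans B.zz ?_
      rw [show d⁻¹ * (e q c.1 * zp w c.2.1) * d⁻¹⁻¹ =
        d⁻¹ * e q c.1 * d⁻¹⁻¹ * (d⁻¹ * zp w c.2.1 * d) by group]
      refine h5.mul B.zz ?_ (zp_comm (B.e_z 224).symm _).symm
      rcases z2 (c.2.1 : ZMod 2) with k | k <;> rw [k]
      · simpa using Ap.refl _ _
      · simpa using h
    have h7 := F.ap_y_inj ((h4.symm B.zz).trans B.zz h6)
    rw [Nat.beq_eq]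
    have h8 : c.2.1 = 0 ∨ c.2.1 = 1 := by omega
    rcases par_le (Nat.land (Nat.land t c.2.2) 4095) with k | k <;> rcases h8 with k' | k' <;>
      rw [k, k'] at h7 ⊢ <;> revert h7 <;> decide
  · have := B.act_mul hd (B.act_mul h1 hd')
    rwa [show d * (d⁻¹ * b * d * d⁻¹) = b by group] at this

theorem inE_std {w : G} (h : Ap z w (e q 224)) (c : ℕ) : e q (H15.encL H77.YM.Fr.FM' c) ∈ QW w := by
  have B := F.bas
  have p := F.good1 h
  refine H15.encL_induction (P := fun m => e q m ∈ QW w) (by rw [e_zero]; exact one_mem _)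
    (fun a b ha hb => ((B.e_ap a b).symm B.zz).mem p.zQ (mul_mem ha hb)) _ (fun m hm => ?_) c
  rw [← H77.YM.Fr.fm_chk.1] at hm
  rcases List.mem_cons.1 hm with rfl | hm
  · exact (h.symm B.zz).mem p.zQ p.h'.mem
  · obtain ⟨r, hr, rfl⟩ := List.mem_map.1 hm
    obtain ⟨b, h1, h2⟩ := F.ex_eps_std h r.1
    have h3 : e q r.2 * w * (e q r.2)⁻¹ = w := by
      rw [mul_inv_eq_iff_eq_mul]
      rcases h with rfl | rfl
      · exact B.e_comm0 (H77.YM.Fr.fm_chk.2 r hr)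
      · rw [← mul_assoc, B.e_comm0 (H77.YM.Fr.fm_chk.2 r hr), mul_assoc, B.e_z, mul_assoc]
    have h4 : (b : G) * e q r.2 * (b : G)⁻¹ * (e q r.2)⁻¹ ∈ QW w := by
      rw [mul_assoc, mul_assoc, ← mul_assoc (e q r.2)]
      exact mul_mem h1 (B.cj' (B.e_K _) (inv_mem h1) h3)
    have h5 : Ap z (e q r.2)⁻¹ (e q r.2) := by
      have := (B.e_ap r.2 r.2).mul_left (e q r.2)⁻¹
      rw [Nat.xor_self, e_zero, inv_mul_cancel_left, mul_one] at this
      exact this.symm B.zz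
    exact ((((B.act_app (F.ep_spec _ h2).1 r.2).mul B.zz h5 (B.e_z _)).trans B.zz
      (B.e_ap _ _)).symm B.zz).mem p.zQ h4

theorem inE {w d : G} {D' : List ℕ} (hd' : Act K z q d⁻¹ D') (h : Ap z (d⁻¹ * w * d) (e q 224))
    {m c : ℕ} (hm : mapp D' m = H15.encL H77.YM.Fr.FM' c) : e q m ∈ QW w := by
  have p := F.good1 h
  have h1 := (F.bas.act_app hd' m).mem p.zQ (hm ▸ F.inE_std h c)
  have := F.A.cj d (inv_mem_iff.1 hd'.3) _ _ h1
  rwa [show d * (d⁻¹ * e q m * d⁻¹⁻¹) * d⁻¹ = e q m by group,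
    show d * (d⁻¹ * w * d) * d⁻¹ = w by group] at this

end Fr

/-- an involution of `Q'` inverting `z` modulo `w` and centralising a given list of elements -/
theorem exists_cand {Q Q' K : Subgroup G} {z w : G} (p : PairC Q Q' K z w)
    (L : List (G × G)) (h1 : ∀ r ∈ L, r.1 ∈ Q' ∧ r.1 * z = z * r.1 ∧ r.2 * z = z * r.2 ∧ r.2 * w = w * r.2 ∧
      r.2 * r.1 * r.2⁻¹ = r.1 * z ∧ r.2 ∈ K) (h2 : L.Pairwise fun r s => r.2 * s.1 = s.1 * r.2) :
    ∃ x ∈ Q', x * x = 1 ∧ x * z * x⁻¹ = z * w ∧ ∀ r ∈ L, x * r.1 = r.1 * x := by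
  have key : ∃ x ∈ Q', x * z * x⁻¹ = z * w ∧ ∀ r ∈ L, x * r.1 = r.1 * x := by
    induction L with
    | nil =>
      obtain ⟨u, hu, e⟩ := p.h'.exists_conj p.zQ p.h.ne_one p.ne.symm
      exact ⟨u, hu, e, fun _ h => absurd h List.not_mem_nil⟩
    | cons r L ih =>
      obtain ⟨x, hx, e1, e2⟩ := ih (fun s hs => h1 s (List.mem_cons_of_mem _ hs)) h2.of_cons
      obtain ⟨d, a⟩ := r
      obtain ⟨k1, k2, k3, k4, k5, k0⟩ := h1 _ List.mem_cons_self
      dsimp only at k1 k2 k3 k4 k5 k0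
      by_cases c : x * d = d * x
      · exact ⟨x, hx, e1, fun s hs => (List.mem_cons.1 hs).elim (fun e => e ▸ c) (e2 s)⟩
      have k6 := p.h'.conj_of_ne k1 hx c
      have az : a⁻¹ * z * a = z := by rw [mul_assoc, ← k3, inv_mul_cancel_left]
      refine ⟨a * x * a⁻¹, p.norm a k0 k4 _ hx, ?_, fun s hs => ?_⟩
      · calc _ = a * (x * (a⁻¹ * z * a) * x⁻¹) * a⁻¹ := by group
          _ = _ := by rw [az, e1, ← mul_assoc, k3, mul_assoc z, k4]; group
      rcases List.mem_cons.1 hs with rfl | hs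
      · have k7 : a⁻¹ * d * a = d * z := by
          calc _ = a⁻¹ * (a * d * a⁻¹ * z) * a := by rw [k5, mul_assoc d, p.h.sq, mul_one]
            _ = d * (a⁻¹ * z * a) := by group
            _ = _ := by rw [az]
        rw [← mul_inv_eq_iff_eq_mul]
        calc _ = a * ((x * d * x⁻¹) * (x * z * x⁻¹)) * a⁻¹ := by
              rw [show a * x * a⁻¹ * d * (a * x * a⁻¹)⁻¹ = a * (x * (a⁻¹ * d * a) * x⁻¹) * a⁻¹ by group, k7]
              group
          _ = a * d * a⁻¹ * (a * (w * z * w) * a⁻¹) := by rw [k6, e1]; group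
          _ = d := by
            rw [← p.zs, mul_assoc z, p.h'.sq, mul_one, k3, k5, mul_inv_cancel_right, mul_assoc, p.h.sq,
              mul_one]
      · exact (((show Commute a s.1 from List.rel_of_pairwise_cons h2 hs).mul_left (e2 s hs)).mul_left
          (show Commute a s.1 from List.rel_of_pairwise_cons h2 hs).inv_left).eq
  obtain ⟨x, hx, e1, e2⟩ := key
  rcases p.h'.sq_mem hx with c | c
  · exact ⟨x, hx, c, e1, e2⟩
  · refine ⟨x * z, mul_mem hx p.zQ, ?_, by rw [← e1]; group, fun r hr =>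
      ((show Commute x r.1 from e2 r hr).mul_left (h1 r hr).2.1.symm).eq⟩
    calc _ = x * z * x⁻¹ * (x * x) * z := by group
      _ = 1 := by rw [e1, c, mul_assoc z, p.h'.sq, mul_one, p.h.sq]

end H77.YM.AY
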