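import Cfsg.Agent.Lib.YM.Line
import Cfsg.Agent.Lib.MAg.YF

/-! Collineations lifted to `K`; candidates for the lines. -/

set_option autoImplicit false
set_option maxRecDepth 100000

namespace H77.YM.AY

open Cfsg H54 H16 H95 Subgroup H95.Ag

variable {G : Type*} [Group G]

structure Sym (K : Subgroup G) (z : G) (q : ℕ → G) (σ : List ℕ) (h : G) : Prop where
  cz : h * z = z * h
  ac : σ.length = 13 ∧ ∀ j < 13, nth σ j < 13 ∧ h * P q j * h⁻¹ = P q (nth σ 0) * P q (nth σ j) ∧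
    h * S q j * h⁻¹ = S q (nth σ j)
  mem : h ∈ K

def CB (QW : G → Subgroup G) (z : G) (q : ℕ → G) (l : ℕ) (x : G) : Prop :=
  x * x = 1 ∧ x ∈ QW (W q l) ∧ x * z * x⁻¹ = z * W q l ∧
  (∀ j < 13, ∀ k < 13, on l j = false → on l k = false → Commute x (P q j * P q k)) ∧
  ∀ j < 13, on l j = true → Commute x (S q j)

/-- candidates for the line `l` -/
def Cand (QW : G → Subgroup G) (z : G) (q : ℕ → G) (l : ℕ) (u : G) : Prop :=
  (∀ j < 13, on l j = false → CB QW z q l (P q j * u)) ∧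
  ∀ k < 13, on l k = true → (u⁻¹ * P q k) ^ 3 = 1

namespace Bas

variable {K : Subgroup G} {QW : G → Subgroup G} {z : G} {q : ℕ → G} (B : Bas K QW z q)
include B

theorem P_mul (j k : ℕ) : P q j * P q k = e q (Pm j ^^^ Pm k) := B.e_mul0 (be_P j k)
theorem P_sq (j : ℕ) : P q j * P q j = 1 := B.e_sq (be_P j j)
theorem P_comm (j k : ℕ) : Commute (P q j) (P q k) := by
  rw [Commute, SemiconjBy, B.P_mul, B.P_mul, Nat.xor_comm]
theorem P_z (j : ℕ) : P q j * z = z * P q j := B.e_z _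
theorem P_inv (j : ℕ) : (P q j)⁻¹ = P q j := inv_eq_of_mul_eq_one_right (B.P_sq j)

theorem PP (i j k : ℕ) : P q i * P q j * (P q i * P q k) = P q j * P q k := by
  rw [(B.P_comm i j).eq, mul_assoc, ← mul_assoc (P q i), B.P_sq, one_mul]

theorem exists_rep0 {g : G} {A : List ℕ} (H : Act K z q g A) (hA : ∀ a ∈ A, a < 2 ^ 24) :
    ∃ h, Act K z q h A ∧ Rep K z q (fun _ => 1) h A := by
  have hl := (forall2_range.1 H.2).1
  choose s hs using fun i (hi : i < 24) => (act_get H hi).ex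
  obtain ⟨m, hm⟩ := exists_bits (fun i => if h : du i < 24 then s (du i) h else 0) 24
  have key : ∀ i < 24, g * e q m * q i * (g * e q m)⁻¹ = e q (A.getD i 0) := by
    intro i hi
    have hd : du i < 24 := by unfold du; split_ifs <;> omega
    have hdd : du (du i) = i := by unfold du; split_ifs <;> omega
    have h1 := B.e_conj m (2 ^ i)
    rw [bf_pow m hi, hm _ hd, e_pow q hi] at h1
    simp only [hdd, hi, dif_pos] at h1
    calc _ = g * (e q m * q i * (e q m)⁻¹) * g⁻¹ := by group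
      _ = g * q i * g⁻¹ * (g * zp z (s i hi) * g⁻¹) := by rw [h1]; group
      _ = _ := by rw [hs i hi, conj_zp H.1, mul_assoc, ← zp_add B.zz, z2_add, zp_zero, mul_one]
  have hz : g * e q m * z = z * (g * e q m) := by rw [mul_assoc, B.e_z, ← mul_assoc, H.1, mul_assoc]
  have hK := mul_mem H.3 (B.e_K m)
  refine ⟨g * e q m, act_of hK hz hl fun i hi => Or.inl (key i hi), hz, forall2_range.2 ⟨hl, fun i hi => ?_⟩, hK⟩
  rw [key i hi, el_lt]
  rw [List.getD_eq_getElem _ _ (hl ▸ hi)]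
  exact hA _ (List.getElem_mem _)

theorem rep0_app {h : G} {A : List ℕ} (H : Rep K z q (fun _ => 1) h A) {m n : ℕ} (hm : m < 2 ^ 24)
    (hn : n < 2 ^ 24) (e' : aapp A m = n) : h * e q m * h⁻¹ = e q n := by
  rw [← el_lt z q (fun _ => 1) hm, ← B.rep_app rfl H, e', el_lt z q _ hn]

theorem sym_of_act {g : G} {A σ : List ℕ} (H : Act K z q g A) (c : (∀ a ∈ A, a < 2 ^ 24) ∧ σ.length = 13 ∧
    ∀ j < 13, nth σ j < 13 ∧ Pm j < 2 ^ 24 ∧ Sm j < 2 ^ 24 ∧ Pm (nth σ 0) ^^^ Pm (nth σ j) < 2 ^ 24 ∧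
      Sm (nth σ j) < 2 ^ 24 ∧ aapp A (Pm j) = Pm (nth σ 0) ^^^ Pm (nth σ j) ∧
      aapp A (Sm j) = Sm (nth σ j)) : ∃ h, Sym K z q σ h := by
  obtain ⟨h, -, H⟩ := B.exists_rep0 H c.1
  refine ⟨h, H.1, ⟨c.2.1, fun j hj => ?_⟩, H.3⟩
  obtain ⟨c1, c2, c3, c4, c5, c6, c7⟩ := c.2.2 j hj
  exact ⟨c1, (B.rep0_app H c2 c4 c6).trans (B.P_mul _ _).symm, B.rep0_app H c3 c5 c7⟩

omit B in
theorem sym_id {h : G} (hK : h ∈ K) (hz : h * z = z * h) (hq : ∀ m, h * e q m = e q m * h) : Sym K z q (sw []) h := by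
  have : ∀ j < 13, nth (sw []) j = j := by decide +kernel
  refine ⟨hz, ⟨rfl, fun j hj => ?_⟩, hK⟩
  rw [this j hj, this 0 (by norm_num), P_zero, one_mul, P, S, hq, hq]
  simpa using hj

theorem sym_comp {σ τ : List ℕ} {h k : G} (H : Sym K z q σ h) (J : Sym K z q τ k) :
    Sym K z q (comp σ τ) (h * k) := by
  have e1 : ∀ j < 13, nth (comp σ τ) j = nth σ (nth τ j) := fun j hj => by
    rw [comp, mapR_eq, nth_eq, nth_eq τ, List.getD_eq_getElem _ _ (by simpa [J.2.1] using hj),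
      List.getD_eq_getElem _ _ (by simpa [J.2.1] using hj), List.getElem_map]
  refine ⟨by rw [mul_assoc, J.1, ← mul_assoc, H.1, mul_assoc], ⟨by rw [comp, mapR_eq, List.length_map, J.2.1],
    fun j hj => ?_⟩, mul_mem H.3 J.3⟩
  obtain ⟨k1, k2, k3⟩ := J.2.2 j hj
  obtain ⟨h1, h2, h3⟩ := H.2.2 _ k1
  rw [e1 j hj, e1 0 (by norm_num)]
  refine ⟨h1, ?_, by rw [← h3, ← k3]; group⟩
  calc _ = h * (k * P q j * k⁻¹) * h⁻¹ := by group
    _ = h * P q (nth τ 0) * h⁻¹ * (h * P q (nth τ j) * h⁻¹) := by rw [k2]; group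
    _ = _ := by rw [h2, (H.2.2 _ (J.2.2 0 (by norm_num)).1).2.1, B.PP]

theorem sym_act {σ : List ℕ} {h : G} (H : Sym K z q σ h) : Act K z q h (symM σ) := by
  refine act_of H.3 H.1 (by simp [symM]) fun i hi => Or.inl ?_
  rw [symM, List.getD_eq_getElem _ _ (by simpa using hi), List.getElem_map, List.getElem_range,
    ← e_pow q hi]
  split_ifs with c
  · rw [(by decide +kernel : ∀ i < 12, 2 ^ i = Pm (i + 1)) i c, ← B.P_mul]
    exact (H.2.2 (i + 1) (by omega)).2.1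
  · rw [(by decide +kernel : ∀ i < 24, ¬ i < 12 → 2 ^ i = Sm (i - 11)) i hi c]
    exact (H.2.2 (i - 11) (by omega)).2.2

theorem xs_spec (L : List ℕ) : xs L &&& 16773120 = xs L ∧ e q (xs L) = (L.map (S q)).prod := by
  induction L with
  | nil => exact ⟨rfl, e_zero q⟩
  | cons j L ih =>
    refine ⟨sub_xor (Sm_sub j) ih.1, ?_⟩
    rw [List.map_cons, List.prod_cons, ← ih.2]
    exact (B.e_mul0 (be_S (Sm_sub j) ih.1)).symm

theorem sym_W {σ : List ℕ} {h : G} (H : Sym K z q σ h) {l l' : ℕ} (c : TrOk σ l l') :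
    h * W q l * h⁻¹ = W q l' := by
  obtain ⟨-, -, c3, c4, c5⟩ := c
  rw [W, W, c4, c5, (B.xs_spec _).2, (B.xs_spec _).2, List.map_map]
  refine (map_list_prod (MulAut.conj h) _).trans ?_
  rw [List.map_map]
  exact congrArg _ (List.map_congr_left fun j hj => (H.2.2 j (c3 j hj)).2.2)

theorem cb_tr {σ : List ℕ} {h : G} (H : Sym K z q σ h) {l l' : ℕ} (c : TrOk σ l l') {x : G}
    (hx : CB QW z q l x) : CB QW z q l' (h * x * h⁻¹) := by
  have hW := B.sym_W H c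
  obtain ⟨c1, c2, -⟩ := c
  obtain ⟨x1, x2, x3, x4, x5⟩ := hx
  have hz : h * z * h⁻¹ = z := by rw [H.1, mul_inv_cancel_right]
  refine ⟨by rw [conj_mul, x1]; simp, B.cj' H.3 x2 hW, ?_, fun j hj k hk oj ok => ?_, fun j hj oj => ?_⟩
  · calc _ = h * x * h⁻¹ * (h * z * h⁻¹) * (h * x * h⁻¹)⁻¹ := by rw [hz]
      _ = h * z * h⁻¹ * (h * W q l * h⁻¹) := by rw [conj_mul (b := h) (a := z), ← x3]; group
      _ = _ := by rw [hz, hW]
  · obtain ⟨j, hj', rfl⟩ := c2 j hj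
    obtain ⟨k, hk', rfl⟩ := c2 k hk
    have := comm_conj h (x4 j hj' k hk' ((c1 j hj').trans oj) ((c1 k hk').trans ok))
    rwa [← conj_mul (a := P q j), (H.2.2 j hj').2.1, (H.2.2 k hk').2.1, B.PP] at this
  · obtain ⟨j, hj', rfl⟩ := c2 j hj
    exact (H.2.2 j hj').2.2 ▸ comm_conj h (x5 j hj' ((c1 j hj').trans oj))

theorem cand_tr {σ : List ℕ} {h : G} (H : Sym K z q σ h) {l l' : ℕ} (c : TrOk σ l l') {u : G}
    (hu : Cand QW z q l u) : Cand QW z q l' (P q (nth σ 0) * (h * u * h⁻¹)) := by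
  refine ⟨fun j hj' oj => ?_, fun j hj' oj => ?_⟩ <;> obtain ⟨j, hj, rfl⟩ := c.2.1 j hj'
  · have := B.cb_tr H c (hu.1 j hj ((c.1 j hj).trans oj))
    rwa [← conj_mul (a := P q j), (H.2.2 j hj).2.1, (B.P_comm _ _).eq, mul_assoc] at this
  · rw [show (P q (nth σ 0) * (h * u * h⁻¹))⁻¹ * P q (nth σ j) =
      h * u⁻¹ * h⁻¹ * ((P q (nth σ 0))⁻¹ * P q (nth σ j)) by group, B.P_inv, ← (H.2.2 j hj).2.1,
      conj_mul, conj_pow, hu.2 j hj ((c.1 j hj).trans oj)]
    simp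

theorem cand_z {l : ℕ} (c : TrOk (sw []) l l) {u : G} (hu : Cand QW z q l u) :
    Cand QW z q l (z * u * z⁻¹) := by
  have := B.cand_tr (sym_id B.zK rfl fun m => (B.e_z m).symm) c hu
  rwa [show nth (sw []) 0 = 0 from rfl, P_zero, one_mul] at this

omit B in
theorem cand_cb {l : ℕ} {u : G} (hu : Cand QW z q l u) (h : on l 0 = false) : CB QW z q l u := by
  have := hu.1 0 (by norm_num) h
  rwa [P_zero, one_mul] at this

omit B in
theorem cb_comm {l : ℕ} (hl : l < 13) (h : on l 0 = false) {x : G} (hx : CB QW z q l x) {m : ℕ}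
    (hm : m &&& Dm l = m) : Commute x (e q m) := by
  refine E_ind q (P := Commute x) (Commute.one_right x) (fun _ _ => Commute.mul_right) fun i hi c => ?_
  have := dm_chk l hl i hi h (sub_bit hm c)
  rw [← e_pow q hi]
  rcases this with ⟨a, b, c⟩ | ⟨a, b, c⟩ <;> rw [c]
  · have := hx.2.2.2.1 0 (by norm_num) _ a h b
    rwa [P_zero, one_mul] at this
  · exact hx.2.2.2.2 _ a b

end Bas

theorem Fr.sym {z : G} {Q K : Subgroup G} {QW : G → Subgroup G} {φ : K →* Spor.Co1}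
    {cls : leechLattice → G → Prop} {q : ℕ → G} (F : Fr z Q K QW φ cls q) (w : List ℕ) :
    ∃ h, Sym K z q (sw w) h := by
  induction w with
  | nil => exact ⟨1, Bas.sym_id (one_mem _) (by simp) (by simp)⟩
  | cons x w ih =>
    obtain ⟨k, hk⟩ := ih
    have : ∃ h, Sym K z q (sgen x) h := by
      unfold sgen
      split_ifs
      · obtain ⟨g, hg⟩ := F.lift_act sg0_chk
        exact F.bas.sym_of_act hg (by decide +kernel)
      · obtain ⟨g, hg⟩ := F.lift_act sg1_chk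
        exact F.bas.sym_of_act hg (by decide +kernel)
    obtain ⟨h, hh⟩ := this
    exact ⟨_, F.bas.sym_comp hh hk⟩

end H77.YM.AY
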