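import Cfsg.Agent.Lib.YM.LineA
import Cfsg.Agent.Lib.MAg.YL

/-! Existence of candidates for the lines. -/

set_option autoImplicit false
set_option maxRecDepth 100000

namespace H77.YM.AY

open Cfsg H54 H16 H95 Subgroup H95.Ag

variable {G : Type*} [Group G]

def CB0 (QW : G → Subgroup G) (z : G) (q : ℕ → G) (x : G) : Prop :=
  x * x = 1 ∧ x ∈ QW (e q w0) ∧ x * z * x⁻¹ = z * e q w0 ∧ ∀ m, m &&& D0 = m → Commute x (e q m)

theorem cb0_of {QW : G → Subgroup G} {z : G} {q : ℕ → G} {x : G} (h : CB QW z q 0 x) : CB0 QW z q x :=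
  ⟨h.1, h.2.1, h.2.2.1, fun _ hm => Bas.cb_comm (by norm_num) rfl h hm⟩

theorem cb_of {QW : G → Subgroup G} {z : G} {q : ℕ → G} {x : G} (h : CB0 QW z q x) :
    CB QW z q 0 x := by
  have c1 : ∀ j < 13, on 0 j = false → Pm j &&& D0 = Pm j := by decide +kernel
  have c2 : ∀ j < 13, on 0 j = true → Sm j &&& D0 = Sm j := by decide +kernel
  exact ⟨h.1, h.2.1, h.2.2.1, fun j hj k hk oj ok =>
    (h.2.2.2 _ (c1 j hj oj)).mul_right (h.2.2.2 _ (c1 k hk ok)), fun j hj oj => h.2.2.2 _ (c2 j hj oj)⟩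

namespace Fr

variable {z : G} {Q K : Subgroup G} {QW : G → Subgroup G} {φ : K →* Spor.Co1}
  {cls : leechLattice → G → Prop} {q : ℕ → G} (F : Fr z Q K QW φ cls q)
include F

theorem exists_dA : ∃ d, Act K z q d DA ∧ Act K z q d⁻¹ DAi ∧ Ap z (d⁻¹ * e q w0 * d) (e q 224) := by
  obtain ⟨d, hd⟩ := F.lift_act dA_chk
  have hd' := F.bas.act_inv hd (C := DAi) rfl (by decide +kernel)
  have := F.bas.act_app hd' w0
  rw [inv_inv, (by decide +kernel : mapp DAi w0 = 224)] at this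
  exact ⟨d, hd, hd', this⟩

theorem pairA : PairC Q (QW (e q w0)) K z (e q w0) := by
  obtain ⟨d, hd, -, h⟩ := F.exists_dA
  exact F.good hd.3 h

theorem lnA {x s s' a : G} (hx : x ∈ QW (e q w0)) (hs : s = z ∨ s = z * e q w0) (ha : a ∈ QW s)
    (e' : x * s * x⁻¹ = s') : x * a * x⁻¹ ∈ QW s' := by
  obtain ⟨d, hd, -, h⟩ := F.exists_dA
  obtain ⟨v, h1, h2⟩ := F.cls_w hd.3 h
  exact e' ▸ F.A.ln h1 h2 x hx s hs a ha

theorem inD {m : ℕ} (hm : m &&& D0 = m) : e q m ∈ QW (e q w0) := by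
  obtain ⟨d, -, hd, h⟩ := F.exists_dA
  refine E_ind q (P := (· ∈ QW (e q w0))) (one_mem _) (fun _ _ => mul_mem) fun i hi c => ?_
  rw [← e_pow q hi]
  exact F.inE hd h ((by decide +kernel : ∀ i < 24, D0.testBit i = true →
    mapp DAi (2 ^ i) = H15.encL H77.YM.Fr.FM' (nth cA i)) i hi (sub_bit hm c))

theorem E_comm {x y : G} (hx : x ∈ Q ⊓ QW (e q w0)) (hy : y ∈ Q ⊓ QW (e q w0)) : Commute x y := by
  have h1 := F.pairA.E_elementary hx
  have h2 := F.pairA.E_elementary hy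
  have h3 := F.pairA.E_elementary (mul_mem hx hy)
  calc x * y = (x * y)⁻¹ := eq_inv_of_mul_eq_one_left h3
    _ = y * x := by rw [mul_inv_rev, inv_eq_of_mul_eq_one_left h1, inv_eq_of_mul_eq_one_left h2]

theorem E_char {r : G} (hr : r ∈ Q) (h : ∀ m, m &&& D0 = m → Commute r (e q m)) :
    ∃ m, m &&& D0 = m ∧ Ap z r (e q m) := by
  obtain ⟨m, hm, a⟩ := F.ex_e r hr
  refine ⟨m, Nat.eq_of_testBit_eq fun j => ?_, a⟩
  rw [Nat.testBit_and]
  by_cases hj : j < 24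
  · cases c : D0.testBit j
    · obtain ⟨c1, c2, c3⟩ := (by decide +kernel : ∀ j < 24, D0.testBit j = false →
        du j < 24 ∧ du (du j) = j ∧ 2 ^ du j &&& D0 = 2 ^ du j) j hj c
      have h1 := F.bas.e_comm m (2 ^ du j)
      have h2 : Commute (e q m) (e q (2 ^ du j)) := by
        rcases a.symm F.bas.zz with k | k <;> rw [k]
        exacts [h _ c3, (h _ c3).mul_left (F.bas.e_z _).symm]
      rw [h2.eq, bf_pow m c1, c2, left_eq_mul] at h1
      rw [bt_eq_zero.1 (zp_inj F.bas.z1 (h1.trans (zp_zero z).symm))]; rfl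
    · simp
  · rw [Nat.testBit_lt_two_pow (lt_of_lt_of_le hm (Nat.pow_le_pow_right (by norm_num) (by omega)))]; rfl

theorem E_char' {r : G} (hr : r ∈ Q ⊓ QW (e q w0)) : ∃ m, m &&& D0 = m ∧ Ap z r (e q m) :=
  F.E_char hr.1 fun _ hm => F.E_comm hr ⟨F.e_mem _, F.inD hm⟩

theorem ww : e q w0 * e q w0 = 1 := F.pairA.h'.sq

theorem exists_cb0 : ∃ x, CB0 QW z q x := by
  have B := F.bas
  obtain ⟨x, h1, h2, h3, h4⟩ := exists_cand F.pairA
    (LA.map fun r => (e q r.1, e q r.2)) (by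
      intro r hr'
      obtain ⟨r, hr, rfl⟩ := List.mem_map.1 hr'
      obtain ⟨c1, c2, c3⟩ := (by decide +kernel : ∀ r ∈ LA, r.1 &&& D0 = r.1 ∧ bf r.2 w0 = 0 ∧
        bf r.2 r.1 = 1) r hr
      exact ⟨F.inD c1, B.e_z _, B.e_z _, B.e_comm0 c2, B.e_conj1 c3, B.e_K _⟩)
    (List.pairwise_map.2 ((by decide +kernel : LA.Pairwise fun r s => bf r.2 s.1 = 0).imp B.e_comm0))
  have h5 : ∀ r ∈ LA, Commute x (e q r.1) := fun r hr => h4 _ (List.mem_map_of_mem hr)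
  refine ⟨x, h2, h1, h3, fun m hm => E_ind q (P := Commute x) (Commute.one_right x)
    (fun _ _ => Commute.mul_right) fun i hi c => ?_⟩
  rw [← e_pow q hi]
  rcases (by decide +kernel : ∀ i < 24, D0.testBit i = true → i = 23 ∨ ∃ r ∈ LA, 2 ^ i = r.1) i hi
    (sub_bit hm c) with rfl | ⟨r, hr, k⟩
  · have : e q (2 ^ 23) = e q w0 * e q 4096 * e q 8192 * e q 16384 := by
      rw [B.e_mul0 (by decide +kernel), B.e_mul0 (by decide +kernel), B.e_mul0 (by decide +kernel)]; rfl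
    rw [this]
    exact (((show Commute x _ from F.pairA.h'.central x h1).mul_right (h5 (4096, 2049) (by decide))).mul_right
      (h5 (8192, 2050) (by decide))).mul_right (h5 (16384, 2052) (by decide))
  · rw [k]; exact h5 r hr

theorem cb0_mul {x : G} (h : CB0 QW z q x) {m : ℕ} (hm : m &&& D0 = m) : CB0 QW z q (x * e q m) := by
  refine ⟨?_, mul_mem h.2.1 (F.inD hm), ?_, fun n hn => (h.2.2.2 n hn).mul_left
    (F.E_comm ⟨F.e_mem _, F.inD hm⟩ ⟨F.e_mem _, F.inD hn⟩)⟩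
  · rw [mul_assoc, ← mul_assoc (e q m), ← (h.2.2.2 m hm).eq, mul_assoc, F.bas.e_sq (be_D hm hm), mul_one, h.1]
  · rw [← h.2.2.1, mul_assoc x, F.bas.e_z]; group

section
variable {x p : G} (h : CB0 QW z q x) (hp : p ∈ Q) (pp : p * p = 1) (pw : p * e q w0 * p⁻¹ = e q w0 * z)
include h hp pp pw

omit pp in
theorem cyc : x * p * z * (x * p)⁻¹ = z * e q w0 ∧ x * p * e q w0 * (x * p)⁻¹ = z ∧
    x * p * (z * e q w0) * (x * p)⁻¹ = e q w0 := by
  have a : x * p * z * (x * p)⁻¹ = z * e q w0 := by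
    rw [← h.2.2.1, mul_assoc x, F.M.h.central p hp]; group
  have b : x * p * e q w0 * (x * p)⁻¹ = z := by
    calc _ = x * (p * e q w0 * p⁻¹) * x⁻¹ := by group
      _ = x * e q w0 * x⁻¹ * (x * z * x⁻¹) := by rw [pw]; group
      _ = _ := by
        rw [(h.2.2.2 w0 rfl).eq, h.2.2.1, mul_inv_cancel_right, ← F.bas.e_z, ← mul_assoc, F.ww, one_mul]
  refine ⟨a, b, ?_⟩
  rw [← conj_mul, a, b, ← F.bas.e_z, mul_assoc, F.bas.zz, mul_one]

theorem br_exists : ∃ m, m &&& D0 = m ∧ (x * e q m * p) ^ 3 = 1 := by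
  obtain ⟨a, b, c⟩ := F.cyc h hp pw
  have xi : x⁻¹ = x := inv_eq_of_mul_eq_one_left h.1
  have pi : p⁻¹ = p := inv_eq_of_mul_eq_one_left pp
  have r1 : (x * p) ^ 3 ∈ QW (z * e q w0) := by
    have := mul_mem (F.lnA h.2.1 (Or.inl rfl) (F.A.qz.symm ▸ hp : p ∈ QW z) h.2.2.1)
      (F.bas.cj' (F.M.le hp) h.2.1 (pw.trans (F.bas.e_z _)))
    rwa [xi, pi, show x * p * x * (p * x * p) = (x * p) ^ 3 by rw [pow3]; group] at this
  have hg : ∀ g : G, g * g ^ 3 * g⁻¹ = g ^ 3 := fun g => by group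
  have hc : ∀ y : G, x * p * y * (x * p)⁻¹ = x * (p * y * p⁻¹) * x⁻¹ := fun y => by group
  have r2 : x * p * (x * p) ^ 3 * (x * p)⁻¹ ∈ QW (e q w0) := by
    rw [hc]
    refine mul_mem (mul_mem h.2.1 (F.bas.cj' (F.M.le hp) r1 ?_)) (inv_mem h.2.1)
    rw [← conj_mul, pw, F.M.h.central p hp, mul_inv_cancel_right, F.bas.e_z, ← mul_assoc, F.bas.zz, one_mul]
  rw [hg] at r2
  have r3 : x * p * (x * p) ^ 3 * (x * p)⁻¹ ∈ QW z := by
    rw [hc]
    refine F.lnA h.2.1 (Or.inr rfl) (F.bas.cj' (F.M.le hp) r2 (pw.trans (F.bas.e_z _))) ?_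
    rw [← F.bas.e_z, ← pw, ← hc, b]
  rw [hg, F.A.qz] at r3
  obtain ⟨m, hm, k⟩ := F.E_char' ⟨r3, r2⟩
  have rr := F.pairA.E_elementary ⟨r3, r2⟩
  have rz := F.M.h.central _ r3
  refine ⟨m, hm, ?_⟩
  rw [(h.2.2.2 m hm).eq, mul_assoc]
  generalize x * p = g at *
  have cg : Commute (g ^ 3) g := (Commute.refl g).pow_left 3
  rcases k.symm F.bas.zz with k | k <;> rw [k]
  · rw [cg.mul_pow, pow3 (g ^ 3), rr, one_mul, rr]
  · have : (z * g) ^ 3 = g ^ 3 := by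
      calc _ = z * (g * z * g⁻¹) * (g * (g * z * g⁻¹) * g⁻¹) * g ^ 3 := by rw [pow3, pow3]; group
        _ = _ := by rw [a, c, ← mul_assoc z, F.bas.zz, one_mul, F.ww, one_mul]
    rw [mul_assoc, ((show Commute (g ^ 3) z from rz).mul_right cg).mul_pow, this, pow3 (g ^ 3), rr, one_mul, rr]

theorem uniq {x' : G} (h' : CB0 QW z q x') : ∃ m, m &&& D0 = m ∧ x' = x * e q m := by
  have B := F.bas
  have xi : x⁻¹ = x := inv_eq_of_mul_eq_one_left h.1
  have pi : p⁻¹ = p := inv_eq_of_mul_eq_one_left pp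
  have pz : p * z * p⁻¹ = z := by rw [F.M.h.central p hp, mul_inv_cancel_right]
  have xw : x * e q w0 * x⁻¹ = e q w0 := by rw [(h.2.2.2 w0 rfl).eq, mul_inv_cancel_right]
  have t1 : p * x * p * z * (p * x * p)⁻¹ = e q w0 := by
    calc _ = p * (x * (p * z * p⁻¹) * x⁻¹) * p⁻¹ := by group
      _ = p * z * p⁻¹ * (p * e q w0 * p⁻¹) := by rw [pz, h.2.2.1]; nth_rewrite 2 [← pz]; group
      _ = _ := by rw [pz, pw, B.e_z, ← mul_assoc, B.zz, one_mul]
  have tt : p * x * p * (p * x * p) = 1 := by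
    rw [mul_assoc, ← mul_assoc p, ← mul_assoc p, pp, one_mul, mul_assoc, ← mul_assoc x, h.1, one_mul, pp]
  have hc : ∀ y : G, p * x * p * y * (p * x * p)⁻¹ = p * (x * (p * y * p⁻¹) * x⁻¹) * p⁻¹ := fun y => by group
  have tz : ∀ a ∈ Q, p * x * p * a * (p * x * p)⁻¹ ∈ QW (e q w0) := fun a ha => by
    rw [hc]
    refine B.cj' (F.M.le hp) (F.lnA h.2.1 (Or.inl rfl)
      (F.A.qz.symm ▸ F.M.norm p (F.M.le hp) a ha : _ ∈ QW z) h.2.2.1) ?_
    rw [← conj_mul, pw, pz, B.e_z, ← mul_assoc, B.zz, one_mul]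
  have tw : ∀ a ∈ QW (e q w0), p * x * p * a * (p * x * p)⁻¹ ∈ Q := fun a ha => by
    rw [hc]
    refine F.M.norm p (F.M.le hp) _ (F.A.qz ▸ F.lnA h.2.1 (Or.inr rfl)
      (B.cj' (F.M.le hp) ha (pw.trans (B.e_z _))) ?_)
    rw [← conj_mul, h.2.2.1, xw, mul_assoc, F.ww, mul_one]
  clear hc
  generalize p * x * p = t at t1 tt tz tw
  have ti : t⁻¹ = t := inv_eq_of_mul_eq_one_left tt
  have tc : ∀ a, t * (t * a * t⁻¹) * t⁻¹ = a := fun a => by
    rw [ti, ← mul_assoc, ← mul_assoc, tt, one_mul, mul_assoc, tt, mul_one]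
  have tE : ∀ a ∈ Q ⊓ QW (e q w0), t * a * t⁻¹ ∈ Q ⊓ QW (e q w0) := fun a ha =>
    ⟨tw a ha.2, tz a ha.1⟩
  have rz : Commute (x * x') z := by
    rw [Commute, SemiconjBy, ← mul_inv_eq_iff_eq_mul]
    calc _ = x * (x' * z * x'⁻¹) * x⁻¹ := by group
      _ = x * z * x⁻¹ * (x * e q w0 * x⁻¹) := by rw [h'.2.2.1]; group
      _ = _ := by rw [h.2.2.1, xw, mul_assoc, F.ww, mul_one]
  have rE : ∀ a ∈ Q ⊓ QW (e q w0), Commute (x * x') a := fun a ha => by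
    obtain ⟨m, hm, k⟩ := F.E_char' ha
    have := (h.2.2.2 m hm).mul_left (h'.2.2.2 m hm)
    rcases k with k | k <;> rw [k]
    exacts [this, this.mul_right rz]
  obtain ⟨n, hn, k⟩ := F.E_char (tw _ (mul_mem h.2.1 h'.2.1)) fun m hm => by
    have := comm_conj t (rE _ (tE _ ⟨F.e_mem m, F.inD hm⟩))
    rwa [tc] at this
  have r1 := tE _ (k.mem ⟨F.M.h.mem, F.pairA.zQ⟩ (H := Q ⊓ QW (e q w0)) ⟨F.e_mem n, F.inD hn⟩)
  rw [tc] at r1
  obtain ⟨m, hm, k⟩ := F.E_char' r1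
  rcases k with k | k
  · exact ⟨m, hm, by rw [← k, ← mul_assoc, h.1, one_mul]⟩
  · have e1 : x' = x * e q m * z := by rw [mul_assoc, ← k, ← mul_assoc, h.1, one_mul]
    have h2 := F.cb0_mul h hm
    have e2 := h'.1
    rw [e1] at e2
    generalize x * e q m = y at h2 e2
    have e3 : y * z * y⁻¹ * (y * y) * z = 1 := by rw [← e2]; group
    rw [h2.1, h2.2.2.1, mul_one, ← B.e_z, mul_assoc, B.zz, mul_one] at e3
    exact absurd e3 F.pairA.h'.ne_one

end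

theorem uniq_br {x : G} (h : CB0 QW z q x) {a : ℕ} (ha : bf a w0 = 1) (hb : (x * e q a) ^ 3 = 1) {m : ℕ}
    (hm : m &&& D0 = m) (hb' : (x * e q m * e q a) ^ 3 = 1) : m = 0 ∨ m = w0 := by
  have B := F.bas
  have key : ∀ {x}, CB0 QW z q x → (x * e q a) ^ 3 = 1 → ∀ {m}, m &&& D0 = m → (bf m a : ZMod 2) = 0 →
      (x * e q m * e q a) ^ 3 = 1 → m = 0 := by
    intro x h hb m hm h0 hb'
    have c : Commute (e q m) (x * e q a) :=
      (h.2.2.2 m hm).symm.mul_right (B.e_comm0 (nat_of_cast (bf_le _ _) h0))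
    rw [(h.2.2.2 m hm).eq, mul_assoc, c.mul_pow, hb, mul_one, pow3, B.e_sq (be_D hm hm), one_mul] at hb'
    exact B.eq_of_ap (Or.inl (hb'.trans (e_zero q).symm)) (lt_D hm) (by norm_num)
  rcases z2 (bf m a) with c | c
  · exact Or.inl (key h hb hm c hb')
  · have e1 : x * e q w0 = z * x * z⁻¹ := by
      have xi : x⁻¹ = x := inv_eq_of_mul_eq_one_left h.1
      rw [F.M.h.inv_eq, eq_comm, ← inv_mul_eq_iff_eq_mul, xi, ← mul_assoc, ← mul_assoc]
      nth_rewrite 2 [← xi]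
      rw [h.2.2.1, ← B.e_z, mul_assoc, B.zz, mul_one]
    have hw : (w0 ^^^ m) &&& D0 = w0 ^^^ m := sub_xor rfl hm
    have := key (F.cb0_mul h (m := w0) rfl) (by
      rw [e1, show z * x * z⁻¹ * e q a = z * (x * e q a) * z⁻¹ by
        rw [F.M.h.inv_eq, mul_assoc, ← B.e_z]; group, conj_pow, hb]; simp) hw
      (by rw [bf_xor, bf_comm, ha, c]; rfl) (by
        rwa [mul_assoc x, B.e_mul0 (be_D rfl hw), Nat.xor_xor_cancel_left])
    exact Or.inr (Nat.xor_eq_zero_iff.1 this).symm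

theorem dl_fix {P : ℕ} {A N : List ℕ} (c : band (okM P) (okA P A) = true) (c' : DlOk A N) {x : G}
    (h : CB0 QW z q x) (h1 : (x * e q 1) ^ 3 = 1) {m : ℕ} (hm : m &&& D0 = m)
    (h2 : (x * e q m * e q 2) ^ 3 = 1) : fxs A m = true := by
  have B := F.bas
  obtain ⟨g, hg⟩ := F.lift_act c
  obtain ⟨c1, c2, c3, c4, c5⟩ := c'
  obtain ⟨g, ga, gr⟩ := B.exists_rep0 hg c1
  have gw := B.rep0_app gr (by decide) (by decide) c2
  have gz : g * z * g⁻¹ = z := by rw [ga.1, mul_inv_cancel_right]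
  have cb : ∀ {x}, CB0 QW z q x → CB0 QW z q (g * x * g⁻¹) := by
    intro x h
    refine ⟨by rw [conj_mul, h.1]; simp, B.cj' ga.3 h.2.1 gw, ?_, fun n hn => E_ind q (P := Commute _)
      (Commute.one_right _) (fun _ _ => Commute.mul_right) fun i hi k => ?_⟩
    · calc _ = g * x * g⁻¹ * (g * z * g⁻¹) * (g * x * g⁻¹)⁻¹ := by rw [gz]
        _ = g * z * g⁻¹ * (g * e q w0 * g⁻¹) := by rw [conj_mul (b := g) (a := z), ← h.2.2.1]; group
        _ = _ := by rw [gz, gw]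
    · obtain ⟨k1, k2⟩ := c5 i hi (sub_bit hn k)
      have := comm_conj g (h.2.2.2 _ k1)
      rwa [B.rep0_app gr (lt_D k1) (Nat.pow_lt_pow_right (by norm_num) hi) k2, e_pow q hi] at this
  have step : ∀ {x a}, CB0 QW z q x → be a a = 0 → bf a w0 = 1 → a < 2 ^ 24 → aapp A a = a →
      (x * e q a) ^ 3 = 1 → ∃ n, (n = 0 ∨ n = w0) ∧ g * x * g⁻¹ = x * e q n := by
    intro x a h a1 a2 a3 a4 hb
    obtain ⟨n, hn, k⟩ := F.uniq h (F.e_mem a) (B.e_sq a1) (B.e_conj1 a2) (cb h)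
    refine ⟨n, F.uniq_br h a2 hb hn ?_, k⟩
    rw [← k, ← B.rep0_app gr a3 a3 a4, conj_mul, conj_pow, hb]; simp
  obtain ⟨n1, k1, e1⟩ := step h (by decide +kernel) (by decide +kernel) (by norm_num) c3 h1
  obtain ⟨n2, k2, e2⟩ := step (F.cb0_mul h hm) (by decide +kernel) (by decide +kernel) (by norm_num) c4 h2
  have e3 : Ap z (e q n1 * e q (mapp A m)) (e q m * e q n2) := by
    have := (B.act_app ga m).mul_left (e q n1)
    rw [show e q n1 * (g * e q m * g⁻¹) = e q m * e q n2 by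
      rw [← conj_mul, e1, mul_assoc x, mul_assoc x] at e2; exact mul_left_cancel e2] at this
    exact this.symm B.zz
  have e4 := (((B.e_ap _ _).symm B.zz).trans B.zz e3).trans B.zz (B.e_ap _ _)
  refine fxs_of fun lt => ?_
  have l1 : ∀ {n}, n = 0 ∨ n = w0 → n < 2 ^ 24 := by rintro _ (rfl | rfl) <;> decide
  have e5 := B.eq_of_ap e4 (Nat.xor_lt_two_pow (l1 k1) lt) (Nat.xor_lt_two_pow (lt_D hm) (l1 k2))
  have e6 : mapp A m = n1 ^^^ (m ^^^ n2) := by rw [← e5, Nat.xor_xor_cancel_left]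
  rw [e6]
  rcases k1 with rfl | rfl <;> rcases k2 with rfl | rfl
  · simp
  · simp
  · simp [Nat.xor_comm]
  · left; rw [Nat.xor_comm m, Nat.xor_xor_cancel_left]

theorem br2 {x : G} (h : CB0 QW z q x) (h1 : (x * P q 1) ^ 3 = 1) : (x * P q 2) ^ 3 = 1 := by
  have B := F.bas
  obtain ⟨m, hm, h2⟩ := F.br_exists h (F.e_mem 2) (B.e_sq (by decide +kernel)) (B.e_conj1 (by decide +kernel))
  have := allSub_spec fix_chk m fun i hi => by
    have := sub_bit hm hi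
    by_cases c : i < 24
    · exact (by decide : ∀ i < 24, D0.testBit i = true → i ∈ [3, 4, 5, 6, 7, 8, 9, 10, 12, 13, 14, 23]) i c this
    · rw [Nat.testBit_lt_two_pow (lt_of_lt_of_le (lt_D rfl) (Nat.pow_le_pow_right (by norm_num) (by omega)))]
        at this
      exact absurd this (by decide)
  rw [Nat.zero_xor, bimp_eq_true, bimp_eq_true, bor_eq_true, Nat.beq_eq, Nat.beq_eq] at this
  rcases this (F.dl_fix dl0_chk dl_ok.1 h h1 hm h2) (F.dl_fix dl1_chk dl_ok.2 h h1 hm h2) with rfl | rfl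
  · rwa [e_zero, mul_one] at h2
  · have xi : x⁻¹ = x := inv_eq_of_mul_eq_one_left h.1
    have e1 : x * e q w0 * e q 2 = z * (x * e q 2) * z⁻¹ := by
      have : z * x = x * e q w0 * z := by
        rw [mul_assoc, B.e_z, ← h.2.2.1, xi, ← mul_assoc, ← mul_assoc, h.1, one_mul]
      rw [← mul_assoc, this, mul_assoc _ z, ← B.e_z]; group
    rwa [e1, conj_pow, conj_eq_one_iff] at h2

theorem brk {x : G} (h : CB0 QW z q x) (h1 : (x * P q 1) ^ 3 = 1) (w : List ℕ) {k : ℕ} (hk : k < 13)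
    (c : TrOk (sw w) 0 0 ∧ nth (sw w) 0 = 0 ∧ nth (sw w) 1 = 1 ∧ nth (sw w) k = 2) :
    (x * P q k) ^ 3 = 1 := by
  obtain ⟨g, hg⟩ := F.sym w
  have a1 := (hg.2.2 1 (by norm_num)).2.1
  have a2 := (hg.2.2 k hk).2.1
  rw [c.2.1, P_zero, one_mul] at a1 a2
  rw [c.2.2.1] at a1
  rw [c.2.2.2] at a2
  have := F.br2 (cb0_of (F.bas.cb_tr hg c.1 (cb_of h))) (by
    rw [← a1, conj_mul, conj_pow, h1]; simp)
  rwa [← a2, conj_mul, conj_pow, conj_eq_one_iff] at this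

theorem exists_cand0 : ∃ u, Cand QW z q 0 u := by
  have B := F.bas
  obtain ⟨x, h⟩ := F.exists_cb0
  obtain ⟨m, hm, h1⟩ := F.br_exists h (F.e_mem 1) (B.e_sq (by decide +kernel)) (B.e_conj1 (by decide +kernel))
  have h := F.cb0_mul h hm
  generalize x * e q m = x at h h1
  refine ⟨x, fun j hj oj => ?_, fun k hk ok => ?_⟩
  · have c := (by decide +kernel : ∀ j < 13, on 0 j = false → Pm j &&& D0 = Pm j) j hj oj
    rw [P, ← (h.2.2.2 _ c).eq]
    exact cb_of (F.cb0_mul h c)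
  · rw [inv_eq_of_mul_eq_one_left h.1]
    rcases (by decide +kernel : ∀ k < 13, on 0 k = true → k = 1 ∨ k = 2 ∨ k = 3 ∨ k = 12) k hk ok with
      rfl | rfl | rfl | rfl
    exacts [h1, F.br2 h h1, F.brk h h1 [0, 0, 1, 1, 1, 1, 1, 0, 1, 0, 0] hk (by decide +kernel),
      F.brk h h1 [1, 0, 0, 1, 1, 1, 0, 1] hk (by decide +kernel)]

theorem cand_ex (w : List ℕ) {l : ℕ} (c : TrOk (sw w) 0 l) : ∃ u, Cand QW z q l u := by
  obtain ⟨u, hu⟩ := F.exists_cand0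
  obtain ⟨g, hg⟩ := F.sym w
  exact ⟨_, F.bas.cand_tr hg c hu⟩

/-- the frame of a line -/
theorem exists_d (w w' : List ℕ) {l : ℕ} (c : TrOk (sw w) 0 l)
    (c' : mmul (mmul (symM (sw w)) DA) (mmul DAi (symM (sw w'))) = ID) :
    ∃ d, Act K z q d (mmul (symM (sw w)) DA) ∧ Act K z q d⁻¹ (mmul DAi (symM (sw w'))) ∧
      Ap z (d⁻¹ * W q l * d) (e q 224) := by
  obtain ⟨g, hg⟩ := F.sym w
  obtain ⟨d, h1, -, h3⟩ := F.exists_dA
  have := F.bas.act_mul (F.bas.sym_act hg) h1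
  refine ⟨g * d, this, F.bas.act_inv this (by rw [mmul, mapR_eq]; simp [symM]) c', ?_⟩
  rw [← F.bas.sym_W hg c, show (g * d)⁻¹ * (g * W q 0 * g⁻¹) * (g * d) = d⁻¹ * W q 0 * d by group]
  exact h3

end Fr

end H77.YM.AY
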