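import Cfsg.Agent.Lib.YM.Tri
import Cfsg.Agent.Lib.MAg.YA

/-! The triangle of lines a, c1, c2 and its nine points, seen from the conjugate of `K` at `e q 224`. -/

set_option autoImplicit false
set_option maxRecDepth 100000

namespace H77.YM.AY

open Cfsg H54 H16 H95 Subgroup H95.Ag

variable {G : Type*} [Group G]

structure Tw (QW : G → Subgroup G) (z : G) (q : ℕ → G) (u : G) : Prop where
  uu : u * u = 1
  uz : u * z * u⁻¹ = e q 224
  uh : ∀ h ∈ HB, Commute u (e q h)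
  uQ : u ∈ QW (z * e q 224)
  hQ : ∀ h ∈ HB, e q h ∈ QW (z * e q 224)

structure Ses (K : Subgroup G) (QW : G → Subgroup G) (z : G) (q x : ℕ → G) (u : G) (ρ : ℕ → ZMod 2) : Prop where
  T : Tw QW z q u
  h0 : ρ 0 = 1
  act : ∀ k < 12, Act K z q (u * Nd q x k * u⁻¹) (XS k)
  rep : ∀ k, Rep K z q ρ (u * Nd q x k * u⁻¹) (gens3 k)
  rows : ZF ρ ROWS

variable {K : Subgroup G} {QW : G → Subgroup G}

theorem Tw.uy {z u : G} {q : ℕ → G} (T : Tw QW z q u) : u * e q 224 * u⁻¹ = z := by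
  rw [← T.uz, inv_eq_of_mul_eq_one_left T.uu, ← mul_assoc, ← mul_assoc, T.uu, one_mul, mul_assoc, T.uu, mul_one]

theorem Tw.un {z u : G} {q : ℕ → G} (T : Tw QW z q u) {g n : G} (c : Commute u n) (h : Ap z (u * g * u⁻¹) n) :
    Ap (e q 224) g n := by
  have e1 : u * n * u⁻¹ = n := by rw [c.eq, mul_inv_cancel_right]
  rcases h with h | h
  · exact Or.inl (by rwa [← e1, mul_left_inj, mul_right_inj] at h)
  · exact Or.inr (by rwa [← e1, ← T.uy, conj_mul, mul_left_inj, mul_right_inj] at h)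

theorem Bas.uW {z u : G} {q : ℕ → G} (B : Bas K QW z q) (T : Tw QW z q u) {l : ℕ} (hl : l < 3) :
    u * W q l * u⁻¹ = W q l := by
  obtain ⟨a, ha, b, hb, c, hc, h1, h2, h3⟩ := (by decide +kernel : ∀ l < 3, ∃ a ∈ HB, ∃ b ∈ HB, ∃ c ∈ HB,
    be a b = 0 ∧ be (a ^^^ b) c = 0 ∧ Wm l = a ^^^ b ^^^ c) l hl
  rw [W, h3, ← B.e_mul0 h2, ← B.e_mul0 h1, (((T.uh a ha).mul_right (T.uh b hb)).mul_right (T.uh c hc)).eq,
    mul_inv_cancel_right]

theorem Bas.WQ {z u : G} {q : ℕ → G} (B : Bas K QW z q) (T : Tw QW z q u) {l : ℕ} (hl : l < 3) :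
    W q l ∈ QW (z * e q 224) := by
  obtain ⟨a, ha, b, hb, c, hc, h1, h2, h3⟩ := (by decide +kernel : ∀ l < 3, ∃ a ∈ HB, ∃ b ∈ HB, ∃ c ∈ HB,
    be a b = 0 ∧ be (a ^^^ b) c = 0 ∧ Wm l = a ^^^ b ^^^ c) l hl
  rw [W, h3, ← B.e_mul0 h2, ← B.e_mul0 h1]
  exact mul_mem (mul_mem (T.hQ a ha) (T.hQ b hb)) (T.hQ c hc)

theorem Bas.idOk_of {z : G} {q : ℕ → G} (B : Bas K QW z q) {A : List ℕ} (H : Act K z q 1 A) : idOk A = true := by
  refine (allLt_iff _ _).2 fun i hi => ?_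
  rw [Nat.beq_eq, nth_eq]
  refine Nat.eq_of_testBit_eq fun j => ?_
  rw [show Nat.land (A.getD i 0) 16777215 = A.getD i 0 &&& (2 ^ 24 - 1) from rfl, Nat.testBit_and,
    Nat.testBit_two_pow_sub_one, show Nat.pow 2 i = 2 ^ i from rfl]
  by_cases hj : j < 24
  · rw [B.act_eq H Bas.act_one hi hj, (by decide +kernel : ∀ i < 24, ID.getD i 0 = 2 ^ i) i hi]; simp [hj]
  · rw [Nat.testBit_two_pow_of_ne (by omega)]; simp [hj]

theorem CB.xW {z x : G} {q : ℕ → G} (B : Bas K QW z q) {l : ℕ} (h : CB QW z q l x) :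
    x * W q l = z * x * z⁻¹ := by
  have xi : x⁻¹ = x := inv_eq_of_mul_eq_one_left h.1
  rw [inv_eq_of_mul_eq_one_left B.zz, eq_comm, ← inv_mul_eq_iff_eq_mul, ← mul_assoc, ← mul_assoc, xi]
  nth_rewrite 2 [← xi]
  rw [h.2.2.1, W, ← B.e_z, mul_assoc, B.zz, mul_one]

theorem Cand.br {z x : G} {q : ℕ → G} (B : Bas K QW z q) {l k : ℕ} (h : Cand QW z q l x)
    (h0 : on l 0 = false) (hk : k < 13) (ok : on l k = true) : x * P q k * x = P q k * x * P q k := by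
  have h1 := (Bas.cand_cb h h0).1
  exact braid_of h1 (B.P_sq k) (by have := h.2 k hk ok; rwa [inv_eq_of_mul_eq_one_left h1] at this)

theorem Cand.cm {z x : G} {q : ℕ → G} {l k : ℕ} (h : Cand QW z q l x)
    (h0 : on l 0 = false) (hk : k < 13) (ok : on l k = false) : Commute x (P q k) := by
  have := (Bas.cand_cb h h0).2.2.2.1 0 (by norm_num) k hk h0 ok
  rwa [P_zero, one_mul] at this

namespace Fr

variable {z : G} {Q : Subgroup G} {φ : K →* Spor.Co1}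
  {cls : leechLattice → G → Prop} {q : ℕ → G} (F : Fr z Q K QW φ cls q)
include F

theorem exists_tw : ∃ u, Tw QW z q u := by
  have B := F.bas
  have h : Ap z (z * e q 224) (e q 224) := Or.inr (B.e_z _).symm
  obtain ⟨x, h1, h2, h3, h4⟩ := exists_cand (F.good1 h) (LU.map fun r => (e q r.1, e q r.2.1)) (by
      intro r hr'
      obtain ⟨r, hr, rfl⟩ := List.mem_map.1 hr'
      obtain ⟨c1, c2, c3⟩ := (by decide +kernel : ∀ r ∈ LU, r.1 = H15.encL H77.YM.Fr.FM' r.2.2 ∧ bf r.2.1 224 = 0 ∧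
        bf r.2.1 r.1 = 1) r hr
      exact ⟨c1 ▸ F.inE_std h _, B.e_z _, B.e_z _,
        ((show Commute _ z from B.e_z _).mul_right (B.e_comm0 c2)).eq, B.e_conj1 c3, B.e_K _⟩)
    (List.pairwise_map.2 ((by decide +kernel : LU.Pairwise fun r s => bf r.2.1 s.1 = 0).imp B.e_comm0))
  refine ⟨x, h2, by rw [h3, ← mul_assoc, B.zz, one_mul], fun m hm => ?_, h1, fun m hm => ?_⟩
  · obtain ⟨r, hr, rfl⟩ := (by decide : ∀ m ∈ HB, ∃ r ∈ LU, r.1 = m) m hm
    exact h4 _ (List.mem_map_of_mem hr)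
  · obtain ⟨r, hr, rfl⟩ := (by decide : ∀ m ∈ HB, ∃ r ∈ LU, r.1 = m) m hm
    rw [(by decide +kernel : ∀ r ∈ LU, r.1 = H15.encL H77.YM.Fr.FM' r.2.2) r hr]
    exact F.inE_std h _

theorem eps_chk {w d b : G} {D D' : List ℕ} (hd : Act K z q d D) (hd' : Act K z q d⁻¹ D')
    (h : Ap z (d⁻¹ * w * d) (e q 224)) (hb : b ∈ QW w) (hz : b * z = z * b)
    {C : List (ℕ × ℕ × ℕ)} {f : List ℕ → Bool} (c : epsChk D D' C f = true)
    (H : ∀ c ∈ C, b * e q c.1 * b⁻¹ = e q c.1 * zp w c.2.1) : ∃ A, Act K z q b A ∧ f A = true := by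
  unfold epsChk at c
  rw [forceL_eq, forceL_eq, band_eq_true, allLt_iff] at c
  obtain ⟨t, ht, h1, h2⟩ := F.eps_act hd hd' h hb hz c.1 fun c hc => Or.inl (H c hc)
  have := c.2 t ht
  rw [bimp_eq_true, forceL_eq, forceL_eq, forceL_eq] at this
  exact ⟨_, h2, this h1⟩

omit F in
theorem cy {l : ℕ} (hl : l < 3) {a : G} (ha : Cand QW z q l a) : Commute a (e q 224) :=
  Bas.cb_comm (by omega) (on0 l hl) (Bas.cand_cb ha (on0 l hl))
    ((by decide +kernel : ∀ l < 3, 224 &&& Dm l = 224) l hl)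

theorem py (k : ℕ) : Commute (P q k) (e q 224) := by
  rw [show e q 224 = P q 6 * P q 7 * P q 8 by
    rw [F.bas.P_mul, P, F.bas.e_mul0 (by decide +kernel)]; rfl]
  exact ((F.bas.P_comm _ _).mul_right (F.bas.P_comm _ _)).mul_right (F.bas.P_comm _ _)

theorem cu_of_ap {l m r : ℕ} (hl : l < 3) (hm : m < 3) (c : r < 13 ∧ on l r = true ∧ on m r = false)
    {a b : G} (ha : Cand QW z q l a) (hb : Cand QW z q m b) (h : Ap (e q 224) ((a * b) ^ 2) 1) : CU a b := by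
  have aa := (Bas.cand_cb ha (on0 l hl)).1
  rw [CU, inv_eq_of_mul_eq_one_left aa]
  refine h.resolve_right fun h => F.not_ap_y (Or.inl ?_)
  exact no_y aa (Bas.cand_cb hb (on0 m hm)).1 (F.bas.P_sq r) F.yy (h.trans (one_mul _)) (cy hl ha) (F.py r)
    (ha.br F.bas (on0 l hl) c.1 c.2.1) (hb.cm (on0 m hm) c.1 c.2.2)

section
variable {x : ℕ → G} (hx : ∀ l < 3, Cand QW z q l (x l))
include hx

theorem Ny (k : ℕ) : Commute (Nd q x k) (e q 224) := by
  unfold Nd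
  split_ifs
  · exact F.py _
  · exact cy (by omega) (hx _ (by omega))
  · exact F.bas.e_comm0 (by decide +kernel)
  · exact Commute.one_left _

variable {u : G} (T : Tw QW z q u)
include T

theorem gz (k : ℕ) : u * Nd q x k * u⁻¹ * z = z * (u * Nd q x k * u⁻¹) := by
  have := comm_conj u (F.Ny hx k)
  rwa [T.uy] at this

theorem con {k : ℕ} (hk : k < 12) {c : ℕ × ℕ × ℕ} (hc : c ∈ CC k) :
    u * Nd q x k * u⁻¹ * e q c.1 * (u * Nd q x k * u⁻¹)⁻¹ = e q c.1 * zp (e q (wm k)) c.2.1 := by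
  have B := F.bas
  have k1 : ∀ {n a : G}, Commute u a → u * n * u⁻¹ * a * (u * n * u⁻¹)⁻¹ = u * (n * a * n⁻¹) * u⁻¹ := by
    intro n a h
    calc _ = u * (n * (u⁻¹ * (a * u)) * n⁻¹) * u⁻¹ := by group
      _ = _ := by rw [← h.eq, inv_mul_cancel_left]
  have k2 : ∀ n : G, u * n * u⁻¹ * e q 224 * (u * n * u⁻¹)⁻¹ = u * (n * z * n⁻¹) * u⁻¹ := by
    intro n; rw [← T.uz]; group
  obtain ⟨-, -, -, ⟨h9, ⟨h1, h2⟩ | ⟨h1, h2⟩⟩ | ⟨h9, ⟨h1, h2, h3⟩ | ⟨h1, h2⟩⟩⟩ := (cc_chk k hk).2.2 c hc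
  · rw [k1 (T.uh _ h1), Nd_p q x h9, P, B.e_conj, h2, wm, if_pos h9, ← mul_assoc, (T.uh _ h1).eq, mul_assoc,
      mul_assoc, ← mul_assoc u, ← T.uz]
    rcases z2 (bf (Pm (nth trip k)) c.1 : ZMod 2) with s | s <;> simp [s]
  · rw [h1, h2, k2, Nd_p q x h9, B.P_z, mul_inv_cancel_right, T.uz]; simp
  · rw [k1 (T.uh _ h1), h3, Nd, if_neg h9, if_pos hk, (Bas.cb_comm (by omega) (on0 _ (by omega))
      (Bas.cand_cb (hx _ (by omega)) (on0 _ (by omega))) h2).eq, mul_inv_cancel_right, (T.uh _ h1).eq]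
    simp
  · rw [h1, h2, k2, Nd, if_neg h9, if_pos hk, (Bas.cand_cb (hx _ (by omega)) (on0 _ (by omega))).2.2.1,
      ← conj_mul, T.uz, B.uW T (by omega), wm, if_neg h9]
    simp [W]

theorem actP {k : ℕ} (hk : k < 9) : Act K z q (u * Nd q x k * u⁻¹) (XS k) := by
  obtain ⟨A, h1, h2⟩ := F.eps_chk (d := 1) (w := e q 224) Bas.act_one (by rw [inv_one]; exact Bas.act_one)
    (by simpa using Ap.refl _ _) (T.uz ▸ F.A.ln (F.cls_y (Or.inr (F.bas.e_z _).symm)) (sqNorm_e8 _) u T.uQ z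
      (Or.inl rfl) _ (by rw [F.A.qz, Nd_p q x hk]; exact F.e_mem _))
    (F.gz hx T k) ((allLt_iff _ _).1 pt_chk k hk) fun c hc => by
      rw [F.con hx T (by omega) hc, wm, if_pos hk]
  exact H18.TC.leq_spec _ _ h2 ▸ h1

theorem actL {l : ℕ} (hl : l < 3) : Act K z q (u * Nd q x (9 + l) * u⁻¹) (XS (9 + l)) := by
  have B := F.bas
  obtain ⟨d, d1, d2, d3⟩ := F.exists_d _ _ (fw_chk l (by omega)).1 (fw_chk l (by omega)).2
  obtain ⟨v, v1, v2⟩ := F.cls_w d1.3 d3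
  have v3 : ¬ Cg v (e8 none) := fun c => by
    obtain ⟨c1, c2⟩ := (by decide +kernel : ∀ l < 3, Wm l < 2 ^ 24 ∧ Wm l ≠ 224) l hl
    exact c2 (B.eq_of_ap ((F.M.eq_iff (F.cls_y (Ap.refl _ _)) v1).1 c.symm) c1 (by norm_num))
  obtain ⟨A, h1, h2⟩ := F.eps_chk d1 d2 d3 (F.A.tr (F.cls_y (Or.inr (B.e_z _).symm)) v1 v2 v3 (B.WQ T hl) u T.uQ
      (mul_inv_eq_iff_eq_mul.1 (B.uW T hl)) _ (by
      rw [Nd_l q x hl]; exact (Bas.cand_cb (hx l hl) (on0 l hl)).2.1))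
    (F.gz hx T _) ((allLt_iff _ _).1 ln_chk l hl) fun c hc => by
      rw [F.con hx T (by omega) hc, wm, if_neg (by omega), Nat.add_sub_cancel_left, W]
  unfold brOk at h2
  rw [bimp_eq_true, forceL_eq, forceL_eq, forceL_eq] at h2
  have h3 := B.act_mul h1 (F.actP hx T (k := l / 2) (by omega))
  have h4 := B.act_mul (B.act_mul h3 h3) h3
  obtain ⟨c1, c2⟩ := (by decide +kernel : ∀ l < 3, nth trip (l / 2) < 13 ∧ on l (nth trip (l / 2)) = true) l hl
  have h5 := (hx l hl).2 _ c1 c2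
  rw [inv_eq_of_mul_eq_one_left (Bas.cand_cb (hx l hl) (on0 l hl)).1] at h5
  rw [← pow3, conj_mul, conj_pow, Nd_l q x hl, Nd_p q x (by omega), h5, mul_one, mul_inv_cancel] at h4
  exact H18.TC.leq_spec _ _ (h2 (B.idOk_of h4)) ▸ h1

omit T in
theorem rel1 {r : List ℕ × List ℕ × ℕ} (hr : r ∈ R1) :
    evw (Nd q x) r.1 = e q r.2.2 * evw (Nd q x) r.2.1 ∧ (r.2.2 = 0 ∨ r.2.2 ∈ HB) := by
  have B := F.bas
  simp only [R1, List.mem_append, List.mem_map] at hr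
  rcases hr with ⟨k, hk, rfl⟩ | ⟨p, hp, rfl⟩ | ⟨p, hp, rfl⟩ | ⟨p, hp, rfl⟩ | ⟨p, hp, rfl⟩ <;>
    simp only [evw_cons, evw_nil, mul_one, e_zero, one_mul, true_or, and_true]
  · have hk := List.mem_range.1 hk
    unfold Nd
    split_ifs
    · exact B.P_sq _
    · exact (Bas.cand_cb (hx _ (by omega)) (on0 _ (by omega))).1
  · obtain ⟨c1, c2, c3⟩ := (by decide +kernel : ∀ p ∈ KER, p.1 < 9 ∧ p.2 < 9 ∧
      Pm (nth trip p.1) ^^^ Pm (nth trip p.2) ∈ HB) p hp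
    exact ⟨by rw [Nd_p q x c1, Nd_p q x c2, ← B.P_mul, mul_assoc, B.P_sq, mul_one], Or.inr c3⟩
  · obtain ⟨c1, c2, c3, c4⟩ := (by decide +kernel : ∀ p ∈ BR, p.1 < 3 ∧ p.2 < 9 ∧ nth trip p.2 < 13 ∧
      on p.1 (nth trip p.2) = true) p hp
    rw [Nd_p q x c2, Nd_l q x c1, ← mul_assoc, ← mul_assoc]
    exact (hx _ c1).br B (on0 _ c1) c3 c4
  · obtain ⟨c1, c2, c3, c4⟩ := (by decide +kernel : ∀ p ∈ CML, p.1 < 3 ∧ p.2 < 9 ∧ nth trip p.2 < 13 ∧
      on p.1 (nth trip p.2) = false) p hp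
    rw [Nd_p q x c2, Nd_l q x c1]
    exact (hx _ c1).cm (on0 _ c1) c3 c4
  · obtain ⟨c1, c2⟩ := (by decide : ∀ p ∈ CMP, p.1 < 9 ∧ p.2 < 9) p hp
    rw [Nd_p q x c1, Nd_p q x c2]
    exact B.P_comm _ _

omit T in
theorem exists_ses : ∃ u ρ, Ses K QW z q x u ρ := by
  have B := F.bas
  obtain ⟨u, T⟩ := F.exists_tw
  have act : ∀ k < 12, Act K z q (u * Nd q x k * u⁻¹) (XS k) := fun k hk => by
    by_cases c : k < 9
    · exact F.actP hx T c
    · obtain ⟨l, rfl⟩ := Nat.exists_eq_add_of_le (not_lt.1 c)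
      exact F.actL hx T (by omega)
  obtain ⟨ρ, h0, h1⟩ := Bas.exists_rho (fun k => u * Nd q x k * u⁻¹) XS (n := 12) (by norm_num)
    fun k hk => ⟨act k hk, (cc_chk k hk).1⟩
  have rep : ∀ k, Rep K z q ρ (u * Nd q x k * u⁻¹) (gens3 k) := fun k => by
    unfold gens3
    split_ifs with c c'
    · exact h1 k c
    · rw [Nd, if_neg (by omega), if_neg c, if_pos c', B.uW T (by norm_num)]
      exact B.rep_inn h0 _
    · rw [Nd, if_neg (by omega), if_neg c, if_neg c', mul_one, mul_inv_cancel]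
      exact Bas.rep_one
  obtain ⟨r1, z1, k1⟩ := B.add2F_spec h0 (gs := fun k => u * Nd q x k * u⁻¹) (fun r hr => by
    obtain ⟨k, hk, hr⟩ := List.mem_flatMap.1 hr
    obtain ⟨c, hc, rfl⟩ := List.mem_map.1 hr
    have hk := List.mem_range.1 hk
    obtain ⟨-, c0, c1⟩ := cc_chk k hk
    obtain ⟨c1, c2, c3, -⟩ := c1 c hc
    refine ⟨rep k, ?_⟩
    dsimp only
    rw [el_lt z q ρ c1, F.con hx T hk hc]
    rcases c3 with s | s <;> rw [s]
    · rw [zero_mul, Nat.xor_zero, el_lt z q ρ c1]; simp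
    · rw [one_mul, el_lt z q ρ (Nat.xor_lt_two_pow c1 c0), ← B.e_mul0 c2]; simp)
    (fun _ h => absurd h List.not_mem_nil) rows_chk
  obtain ⟨r2, z2, k2⟩ := B.add1F_spec h0 rep (fun r hr => by
    obtain ⟨h1, h2⟩ := F.rel1 hx hr
    rw [evw_conj, evw_conj, h1, ← mul_assoc, ← mul_assoc, ← mul_assoc]
    rcases h2 with s | s
    · rw [s, e_zero, mul_one, one_mul]
    · rw [(T.uh _ s).eq]) z1 k1
  exact ⟨u, ρ, T, h0, act, rep, H18.TC.leq_spec _ _ k2 ▸ z2⟩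

end

end Fr

namespace Ses

variable {z u : G} {q x : ℕ → G} {ρ : ℕ → ZMod 2} (S : Ses K QW z q x u ρ) (B : Bas K QW z q)
include S B

theorem out {rows w : List ℕ} {L : List (ℕ × ℕ)} (hz : ZF ρ rows) (c : outW rows w L = true)
    (h : Commute u (e q (selx ρ L))) : Ap (e q 224) (evw (Nd q x) w) (e q (selx ρ L)) := by
  rw [outW, wK_eq] at c
  have := B.outF_spec hz (B.rep_word S.h0 (fun k _ => S.rep k) Bas.rep_one) c
  rw [one_mul, evw_conj] at this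
  exact S.T.un h this

theorem out0 {rows w : List ℕ} {m a : ℕ} (hz : ZF ρ rows) (c : outW rows w [(m, a)] = true)
    (h : val ρ a = 0) : Ap (e q 224) (evw (Nd q x) w) 1 := by
  have e1 : e q (selx ρ [(m, a)]) = 1 := by simp [selx, h, e_zero]
  exact e1 ▸ S.out B hz c (e1 ▸ Commute.one_right u)

theorem rows2 (h1 : Commute (x 0) (x 1)) (h2 : Commute (x 0) (x 2)) : ZF ρ ROWS2 := by
  obtain ⟨r2, z2, k2⟩ := B.add1F_spec S.h0 S.rep (fun r hr => by
    rw [evw_conj, evw_conj]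
    simp only [List.mem_cons, List.not_mem_nil, or_false] at hr
    rcases hr with rfl | rfl <;> simp only [evw_cons, evw_nil, mul_one, e_zero, one_mul]
    exacts [congrArg (u * · * u⁻¹) h1, congrArg (u * · * u⁻¹) h2]) S.rows rows2_chk
  exact H18.TC.leq_spec _ _ k2 ▸ z2

theorem md {H : Subgroup G} (hN : ∀ k < 12, Nd q x k ∈ H) (hy : e q 224 ∈ H) :
    z ∈ H ∧ H77.YM.S q 1 ∈ H ∧ H77.YM.S q 2 ∈ H ∧ H77.YM.S q 11 ∈ H := by
  let J := H.comap (MulAut.conj u⁻¹).toMonoidHom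
  have hK : ∀ {g}, g ∈ H → u * g * u⁻¹ ∈ J := fun {g} hg => by
    change u⁻¹ * (u * g * u⁻¹) * u⁻¹⁻¹ ∈ H
    rwa [show u⁻¹ * (u * g * u⁻¹) * u⁻¹⁻¹ = g by group]
  have hK' : ∀ {g}, u * g * u⁻¹ ∈ J → g ∈ H := fun {g} hg => by
    change u⁻¹ * (u * g * u⁻¹) * u⁻¹⁻¹ ∈ H at hg
    rwa [show u⁻¹ * (u * g * u⁻¹) * u⁻¹⁻¹ = g by group] at hg
  have fx : ∀ m ∈ HB, u * e q m * u⁻¹ = e q m := fun m hm => by rw [(S.T.uh m hm).eq, mul_inv_cancel_right]
  have zK : z ∈ J := S.T.uy ▸ hK hy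
  have k1 : ∀ m, m = 520 ∨ m = 2052 → e q m ∈ J := by
    rintro m (rfl | rfl)
    · exact fx 520 (by decide) ▸ hK (B.P_mul 4 10 ▸ H.mul_mem (hN 4 (by norm_num)) (hN 5 (by norm_num)))
    · exact fx 2052 (by decide) ▸ hK (B.P_mul 3 12 ▸ H.mul_mem (hN 2 (by norm_num)) (hN 3 (by norm_num)))
  have k2 : ∀ (w : List ℕ) m, e q m ∈ J → (∀ k ∈ w, k < 12) → e q (mw w m) ∈ J := by
    intro w m hm hw
    induction w with
    | nil => exact hm
    | cons k w ih =>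
      have c := hw k List.mem_cons_self
      exact ((B.act_app (S.act k c) _).symm B.zz).mem zK (J.mul_mem (J.mul_mem (hK (hN k c))
        (ih fun j hj => hw j (List.mem_cons_of_mem _ hj))) (J.inv_mem (hK (hN k c))))
  have k3 : ∀ L : List ℕ, (∀ m ∈ L, e q m ∈ J) → e q (L.foldr (· ^^^ ·) 0) ∈ J := by
    intro L hL
    induction L with
    | nil => exact e_zero q ▸ J.one_mem
    | cons a L ih =>
      exact ((B.e_ap _ _).symm B.zz).mem zK (J.mul_mem (hL a List.mem_cons_self)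
        (ih fun j hj => hL j (List.mem_cons_of_mem _ hj)))
  have k4 : ∀ p ∈ MC, e q p.1 ∈ J := fun p hp => by
    rw [(mc_chk p hp).1]
    exact k3 _ (List.forall_mem_map.2 fun r hr =>
      k2 _ _ (k1 _ ((mc_chk p hp).2 r hr).1) ((mc_chk p hp).2 r hr).2)
  have k5 : ∀ i (h : i < MC.length), MC[i].1 ∈ HB → e q MC[i].1 ∈ H := fun i h c =>
    hK' ((fx _ c).symm ▸ k4 _ (List.getElem_mem h))
  exact ⟨hK' (S.T.uz.symm ▸ k4 _ (List.getElem_mem (n := 0) (by decide))), k5 1 (by decide) (by decide),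
    k5 2 (by decide) (by decide), k5 3 (by decide) (by decide)⟩

end Ses

namespace Fr

variable {z : G} {Q : Subgroup G} {φ : K →* Spor.Co1}
  {cls : leechLattice → G → Prop} {q : ℕ → G} (F : Fr z Q K QW φ cls q)
  {x : ℕ → G} (hx : ∀ l < 3, Cand QW z q l (x l))
include F hx

theorem ex2_std : CU (x 0) (x 1) ∨ CU (x 0) (z * x 1 * z⁻¹) := by
  have B := F.bas
  obtain ⟨u, ρ, S⟩ := F.exists_ses hx
  have h0 := hx 0 (by norm_num)
  have h1 := hx 1 (by norm_num)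
  rcases z2 (val ρ aA) with c | c
  · refine Or.inl (F.cu_of_ap (r := 2) (by norm_num) (by norm_num) (by decide +kernel) h0 h1 ?_)
    have := S.out0 B S.rows outA c
    rw [pow_two, mul_assoc]
    simp only [evw_cons, evw_nil, mul_one] at this
    exact this
  · refine Or.inr (F.cu_of_ap (r := 2) (by norm_num) (by norm_num) (by decide +kernel) h0
      (B.cand_z (by decide +kernel) h1) ?_)
    have := S.out0 B S.rows outB (by rw [val_xor, c, val_bit S.h0 (Or.inr rfl)]; rfl)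
    rw [← (Bas.cand_cb h1 (on0 1 (by norm_num))).xW B, pow_two]
    simp only [evw_cons, evw_nil, mul_one, mul_assoc] at this ⊢
    exact this

theorem md_std {H : Subgroup G} (hN : ∀ k < 12, Nd q x k ∈ H) (hy : e q 224 ∈ H) :
    z ∈ H ∧ S q 1 ∈ H ∧ S q 2 ∈ H ∧ S q 11 ∈ H := by
  obtain ⟨u, ρ, S⟩ := F.exists_ses hx
  exact S.md F.bas hN hy

theorem tri_std (h1 : CU (x 0) (x 1)) (h2 : CU (x 0) (x 2)) : CU (x 1) (x 2) ∧
    (∃ m, m &&& 224 = m ∧ evw (Nd q x) (H18.TC.rep 9 N1) = e q m) ∧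
    ((Ap (e q 224) (evw (Nd q x) T1 * P q 9) 1 ∧ Ap (e q 224) (evw (Nd q x) T2 * P q 10) 1 ∧
      Ap (e q 224) (evw (Nd q x) T4 * P q 12) 1) ∨
      Ap (e q 224) (evw (Nd q x) T1 * P q 9) (P q 5 * P q 9)) := by
  have B := F.bas
  obtain ⟨u, ρ, S⟩ := F.exists_ses hx
  have sq : ∀ l < 3, x l * x l = 1 := fun l hl => (Bas.cand_cb (hx l hl) (on0 l hl)).1
  have hz := S.rows2 B (h1.comm (sq 0 (by norm_num)) (sq 1 (by norm_num)))
    (h2.comm (sq 0 (by norm_num)) (sq 2 (by norm_num)))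
  refine ⟨F.cu_of_ap (r := 1) (by norm_num) (by norm_num) (by decide +kernel) (hx 1 (by norm_num))
    (hx 2 (by norm_num)) ?_, ?_, ?_⟩
  · have := S.out B hz outC (by rw [selx, e_zero]; exact Commute.one_right u)
    rw [selx, e_zero] at this
    rw [pow_two, mul_assoc]
    simp only [evw_cons, evw_nil, mul_one] at this
    exact this
  · have c : selx ρ LW = 0 ∨ selx ρ LW = 64 ∨ selx ρ LW = 128 ∨ selx ρ LW = 192 := by
      simp only [LW, selx]; split_ifs <;> decide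
    have c2 : Commute u (e q (selx ρ LW)) := by
      rcases c with c | c | c | c <;> rw [c]
      exacts [e_zero q ▸ Commute.one_right u, S.T.uh _ (by decide), S.T.uh _ (by decide),
        B.P_mul 7 8 ▸ (S.T.uh 64 (by decide)).mul_right (S.T.uh 128 (by decide))]
    have c3 : selx ρ LW &&& 224 = selx ρ LW ∧ be (selx ρ LW) 224 = 0 := by
      rcases c with c | c | c | c <;> rw [c] <;> decide +kernel
    rcases S.out B hz outE c2 with k | k
    exacts [⟨_, c3.1, k⟩, ⟨_, sub_xor c3.1 rfl, k.trans (B.e_mul0 c3.2)⟩]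
  · rcases z2 (val ρ aT) with c | c
    · have a1 := S.out0 B hz out1 c
      have a2 := S.out0 B hz out2 c
      have a4 := S.out0 B hz out4 c
      rw [evw_append, evw_cons, evw_nil, mul_one] at a1 a2 a4
      exact Or.inl ⟨a1, a2, a4⟩
    · have e1 : selx ρ [(272, aT)] = 272 := by simp [selx, c]
      have a1 := S.out B hz out1 (e1.symm ▸ S.T.uh 272 (by decide))
      rw [evw_append, evw_cons, evw_nil, mul_one, e1] at a1
      exact Or.inr (B.P_mul 5 9 ▸ a1)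

end Fr

end H77.YM.AY
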