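import Cfsg.Agent.Lib.YM.Sys
import Cfsg.Agent.Lib.MAg.YT

/-! Seven commuting lines; the sixteen nodes satisfy the relators of Y555 in the wreath product. -/

set_option autoImplicit false
set_option maxRecDepth 100000

namespace H77.YM.AY

open Cfsg H54 H16 H95 Subgroup H95.Ag H18.TC

variable {G : Type*} [Group G]

/-- a node of the diagram in the wreath product -/
def nd (u : G) : Equiv.Perm (G × Bool) :=
  Function.Involutive.toPerm (fun x => ((bif x.2 then u else u⁻¹) * x.1, !x.2)) fun x => by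
    obtain ⟨x, _ | _⟩ := x <;> simp

theorem nd_apply (u : G) (x : G × Bool) : nd u x = ((bif x.2 then u else u⁻¹) * x.1, !x.2) := rfl

theorem nd_sq (u : G) : nd u * nd u = 1 := Equiv.ext fun x => by
  obtain ⟨x, _ | _⟩ := x <;> simp [nd_apply]

def nds (u : ℕ → G) (n : ℕ) : Equiv.Perm (G × Bool) := if n < 16 then nd (u n) else 1

theorem nds_lt (u : ℕ → G) {n : ℕ} (h : n < 16) : nds u n = nd (u n) := if_pos h

def κ : G →* Equiv.Perm (G × Bool) where
  toFun v := (Equiv.mulLeft v).prodCongr (Equiv.refl _)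
  map_one' := Equiv.ext fun x => by simp
  map_mul' a b := Equiv.ext fun x => by simp [Prod.map, mul_assoc]

theorem κ_apply (v : G) (x : G × Bool) : κ v x = (v * x.1, x.2) := rfl

theorem nd_eq {v : G} (h : v * v = 1) : nd v = κ v * nd 1 := Equiv.ext fun x => by
  obtain ⟨x, _ | _⟩ := x <;> simp [nd_apply, κ_apply, inv_eq_of_mul_eq_one_left h]

theorem nd_comm (v : G) : Commute (nd 1) (κ v) := Equiv.ext fun x => by
  obtain ⟨x, _ | _⟩ := x <;> simp [nd_apply, κ_apply]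

theorem ev_nd {u : ℕ → G} {w : List ℕ} (h : ∀ k ∈ w, k < 16 ∧ u k * u k = 1) :
    ev (nds u) w = κ (ev u w) * nd 1 ^ w.length := by
  induction w with
  | nil => simp
  | cons k w ih =>
    obtain ⟨h1, h2⟩ := h k List.mem_cons_self
    rw [ev_cons, ev_cons, ih fun j hj => h j (List.mem_cons_of_mem _ hj), nds_lt u h1, nd_eq h2, map_mul,
      List.length_cons, pow_succ, mul_assoc, ← mul_assoc (nd 1 ^ _), ((nd_comm _).pow_left _).eq]
    simp only [mul_assoc]

theorem nd_pow {u v : G} {k : ℕ} (h : (u⁻¹ * v) ^ k = 1) : (nd u * nd v) ^ k = 1 ∧ (nd v * nd u) ^ k = 1 := by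
  have key : ∀ {u v : G}, (u⁻¹ * v) ^ k = 1 → (nd u * nd v) ^ k = 1 := fun {u v} h => by
    have e1 : ∀ n x b, ((nd u * nd v) ^ n) (x, b) = ((bif b then u⁻¹ * v else u * v⁻¹) ^ n * x, b) := fun n => by
      induction n with
      | zero => simp
      | succ n ih =>
        intro x b
        rw [pow_succ, Equiv.Perm.mul_apply, pow_succ, mul_assoc, ← ih]
        cases b <;> simp [nd_apply, mul_assoc]
    refine Equiv.ext fun x => ?_
    obtain ⟨x, _ | _⟩ := x <;> rw [e1]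
    · rw [cond_false, show u * v⁻¹ = u * (u⁻¹ * v)⁻¹ * u⁻¹ by group, conj_pow, inv_pow, h]; simp
    · rw [cond_true, h]; simp
  exact ⟨key h, key (by rw [show v⁻¹ * u = (u⁻¹ * v)⁻¹ by group, inv_pow, h, inv_one])⟩

structure Sys (QW : G → Subgroup G) (z : G) (q x : ℕ → G) : Prop where
  cand : ∀ l < 7, Cand QW z q l (x l)
  cu : ∀ l < 7, ∀ m < 7, CU (x l) (x m)

namespace Bas

variable {K : Subgroup G} {QW : G → Subgroup G} {z : G} {q : ℕ → G} (B : Bas K QW z q)
include B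

theorem e_ne {m : ℕ} (h : m < 2 ^ 24) (h0 : m ≠ 0) : e q m ≠ 1 := fun c =>
  h0 (B.eq_of_ap (Or.inl (c.trans (e_zero q).symm)) h (by norm_num))

theorem ncm {l k : ℕ} {x : G} (h : Cand QW z q l x) (c : on l 0 = false ∧ k < 13 ∧ on l k = true ∧
    Wm l < 2 ^ 24 ∧ Wm l ≠ 0) : ¬ Commute x (P q k) := fun cm => by
  have h1 := cand_cb h c.1
  have h2 := h.br B c.1 c.2.1 c.2.2.1
  rw [mul_left_inj (a := P q k) |>.symm, cm.eq, mul_assoc (P q k) x x, h1.1, mul_one, mul_assoc, B.P_sq,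
    mul_one, eq_comm, mul_eq_one_iff_eq_inv', ] at h2
  have h3 := h1.2.2.1
  rw [h2, B.P_inv, B.P_z, mul_inv_cancel_right, left_eq_mul] at h3
  exact B.e_ne c.2.2.2.1 c.2.2.2.2 h3

theorem ncm2 {l j k : ℕ} {x : G} (h : Cand QW z q l x) (c : on l 0 = false ∧ j < 13 ∧ on l j = true ∧
    k < 13 ∧ on l k = true ∧ Pm j ^^^ Pm k < 2 ^ 24 ∧ Pm j ^^^ Pm k ≠ 0) : ¬ Commute x (P q j * P q k) :=
  fun cm => by
  have h1 := h.2 j c.2.1 c.2.2.1
  have h2 := h.2 k c.2.2.2.1 c.2.2.2.2.1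
  have c2 : Commute (x⁻¹ * P q j) (P q j * P q k) :=
    cm.inv_left.mul_left ((Commute.refl _).mul_right (B.P_comm j k))
  rw [show x⁻¹ * P q k = x⁻¹ * P q j * (P q j * P q k) by
    rw [mul_assoc, ← mul_assoc (P q j), B.P_sq, one_mul], c2.mul_pow, h1, one_mul, pow3, B.PP,
    B.P_sq, one_mul, B.P_mul] at h2
  exact B.e_ne c.2.2.2.2.2.1 c.2.2.2.2.2.2 h2

end Bas

namespace Fr

variable {z : G} {Q K : Subgroup G} {QW : G → Subgroup G} {φ : K →* Spor.Co1}
  {cls : leechLattice → G → Prop} {q : ℕ → G} (F : Fr z Q K QW φ cls q)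
include F

theorem ex2 {w : List ℕ} {l m : ℕ} (c : TrOk (sw w) l 0 ∧ TrOk (sw w) m 1) {a b : G}
    (ha : Cand QW z q l a) (hb : Cand QW z q m b) : ∃ b', Cand QW z q m b' ∧ CU a b' := by
  have B := F.bas
  obtain ⟨h, hh⟩ := F.sym w
  obtain ⟨d, hd⟩ := F.cand_ex _ (fw_chk 2 (by norm_num)).1
  rcases F.ex2_std (x := t3 _ _ d) (fun l hl => by
    interval_cases l
    exacts [B.cand_tr hh c.1 ha, B.cand_tr hh c.2 hb, hd]) with k | k
  · exact ⟨b, hb, CU_tr.1 k⟩
  · refine ⟨_, B.cand_z ⟨fun j hj => ?_, by decide +kernel, c.2.2.2.1, c.2.2.2.2.1, ?_⟩ hb,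
      (CU_tr (p := P q (nth (sw w) 0)) (h := h)).1 ?_⟩
    · rw [(by decide +kernel : ∀ j < 13, nth (sw []) j = j) j hj]
    · rw [List.map_congr_left (g := id) fun j hj =>
        (by decide +kernel : ∀ j < 13, nth (sw []) j = j) j (c.2.2.2.1 j hj), List.map_id]
      exact c.2.2.2.2.1
    · have e1 : z * (P q (nth (sw w) 0) * (h * b * h⁻¹)) * z⁻¹ =
          P q (nth (sw w) 0) * (h * (z * b * z⁻¹) * h⁻¹) := by
        rw [← mul_assoc z, ← B.P_z]
        calc _ = P q (nth (sw w) 0) * (z * h * b * (z * h)⁻¹) := by group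
          _ = _ := by rw [← hh.1]; group
      exact e1 ▸ k

theorem tri {l m n : ℕ} (c : Tr3 l m n) {a b d : G} (ha : Cand QW z q l a) (hb : Cand QW z q m b)
    (hd : Cand QW z q n d) (h1 : CU a b) (h2 : CU a d) : CU b d := by
  have B := F.bas
  obtain ⟨w, -, c⟩ := c
  obtain ⟨h, hh⟩ := F.sym w
  exact CU_tr.1 (F.tri_std (x := t3 _ _ _) (fun l hl => by
    interval_cases l
    exacts [B.cand_tr hh c.1 ha, B.cand_tr hh c.2.1 hb, B.cand_tr hh c.2.2 hd]) (CU_tr.2 h1) (CU_tr.2 h2)).1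

theorem exists_sys : ∃ x, Sys QW z q x := by
  obtain ⟨a, ha⟩ := F.cand_ex _ (fw_chk 0 (by norm_num)).1
  have : ∀ m, ∃ b, m < 7 → Cand QW z q m b ∧ CU a b ∧ (m = 0 → b = a) := fun m => by
    by_cases hm : m < 7
    · by_cases h0 : m = 0
      · exact ⟨a, fun _ => ⟨h0 ▸ ha, by simp [CU], fun _ => rfl⟩⟩
      · obtain ⟨w, -, c⟩ := tw_chk.1 m hm h0
        obtain ⟨b, hb⟩ := F.cand_ex _ (fw_chk m hm).1
        obtain ⟨b, h1, h2⟩ := F.ex2 c ha hb
        exact ⟨b, fun _ => ⟨h1, h2, fun h => absurd h h0⟩⟩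
    · exact ⟨1, fun h => absurd h hm⟩
  choose x hx using this
  have k1 : ∀ n < 7, ∀ m < n, m < 4 → CU (x m) (x n) := fun n hn m hm h4 => by
    by_cases h0 : m = 0
    · rw [(hx m (by omega)).2.2 h0]; exact (hx n hn).2.1
    · exact F.tri (tw_chk.2.1 n hn m hm h0 h4) ha (hx m (by omega)).1 (hx n hn).1 (hx m (by omega)).2.1
        (hx n hn).2.1
  have k2 : ∀ n < 7, ∀ m < n, CU (x m) (x n) := fun n hn m hm => by
    by_cases h4 : m < 4
    · exact k1 n hn m hm h4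
    · exact F.tri (tw_chk.2.2 n hn m hm h4) (hx 1 (by omega)).1 (hx m (by omega)).1 (hx n hn).1
        (k1 m (by omega) 1 (by omega) (by omega)) (k1 n hn 1 (by omega) (by omega))
  refine ⟨x, fun l hl => (hx l hl).1, fun l hl m hm => ?_⟩
  rcases lt_trichotomy l m with c | rfl | c
  exacts [k2 m hm l c, by simp [CU], (k2 l hl m c).symm]

variable {x : ℕ → G} (S : Sys QW z q x)
include S

omit F in
theorem lcomm {l m : ℕ} (c : l < 7 ∧ m < 7 ∧ on l 0 = false ∧ on m 0 = false) : Commute (x l) (x m) :=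
  (S.cu l c.1 m c.2.1).comm (Bas.cand_cb (S.cand l c.1) c.2.2.1).1 (Bas.cand_cb (S.cand m c.2.1) c.2.2.2).1

omit F in
theorem commN {l : ℕ} (c : l < 7 ∧ on l 0 = false) {w : List ℕ}
    (h : ∀ k ∈ w, (k < 9 ∧ nth trip k < 13 ∧ on l (nth trip k) = false) ∨ (9 ≤ k ∧ k < 12)) :
    Commute (x l) (evw (Nd q x) w) := evw_comm fun k hk => by
  rcases h k hk with h | h
  · rw [Nd_p q x h.1]; exact (S.cand l c.1).cm c.2 h.2.1 h.2.2
  · rw [Nd, if_neg (by omega), if_pos h.2]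
    exact lcomm S ⟨c.1, by omega, c.2, on0 _ (by omega)⟩

theorem omega1 : evw (Nd q x) N1 ^ 9 = 1 := by
  have B := F.bas
  obtain ⟨m, hm, h⟩ := (F.tri_std (fun l hl => S.cand l (by omega)) (S.cu 0 (by norm_num) 1 (by norm_num))
    (S.cu 0 (by norm_num) 2 (by norm_num))).2.1
  rw [evw_rep] at h
  have c5 : Commute (x 5) (e q m) := h ▸ (commN S (by decide +kernel) (by decide +kernel)).pow_right 9
  have c6 : Commute (x 6) (e q m) := h ▸ (commN S (by decide +kernel) (by decide +kernel)).pow_right 9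
  have h5 := S.cand 5 (by norm_num)
  have h6 := S.cand 6 (by norm_num)
  have n5 := B.ncm h5 (k := 7) (by decide +kernel)
  have k : ∀ {a}, a &&& Dm 5 = a → be m a = 0 → m ^^^ a = 64 → False := fun h1 h2 h3 => n5 (by
    have := c5.mul_right (Bas.cb_comm (by norm_num) (by decide +kernel) (Bas.cand_cb h5 (by decide +kernel)) h1)
    rwa [B.e_mul0 h2, h3] at this)
  have hm' : m < 256 := hm ▸ lt_of_le_of_lt Nat.and_le_right (by norm_num)
  rw [h]
  rcases (by decide +kernel : ∀ m < 256, m &&& 224 = m → m = 0 ∨ m = 32 ∨ m = 128 ∨ m = 160 ∨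
    ((m ^^^ 64) &&& Dm 5 = m ^^^ 64 ∧ be m (m ^^^ 64) = 0 ∧ m ^^^ (m ^^^ 64) = 64)) m hm' hm with
    rfl | rfl | rfl | rfl | c
  · exact e_zero q
  · exact absurd c6 (B.ncm h6 (k := 6) (by decide +kernel))
  · exact absurd c6 (B.ncm h6 (k := 8) (by decide +kernel))
  · exact absurd (B.P_mul 6 8 ▸ c6) (B.ncm2 h6 (by decide +kernel))
  · exact (k c.1 c.2.1 c.2.2).elim

theorem satX : Sat (nds (un q x)) 16 RX := by
  have B := F.bas
  refine ⟨fun k => ?_, if_neg (lt_irrefl _), fun R hR => ?_⟩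
  · unfold nds
    split_ifs
    exacts [eq_inv_of_mul_eq_one_left (nd_sq _), inv_one.symm]
  obtain ⟨i, hi, j, hj, h⟩ := rx_chk R hR
  have key : ∀ {k}, ((un q x i)⁻¹ * un q x j) ^ k = 1 →
      ev (nds (un q x)) (rep k [i, j]) = 1 ∧ ev (nds (un q x)) (rep k [j, i]) = 1 := fun h => by
    simp only [ev_rep, ev_cons, ev_nil, one_mul, nds_lt _ hi, nds_lt _ hj]
    exact (nd_pow h).symm
  rcases h with ⟨rfl, rfl⟩ | ⟨a, b, rfl⟩ | ⟨a, b, c, d, rfl⟩ | ⟨a, b, c, d, ⟨f, g⟩ | ⟨f, g⟩⟩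
  · exact (key (by simp)).1
  · exact (key (by simp only [un, a, b, Bool.false_eq_true, if_false, B.P_inv, pow_two, B.PP, B.P_sq])).1
  · exact (key (by simp only [un, a, b, if_true]; exact S.cu _ c _ d)).1
  · have := key (k := 3) (by
      simp only [un, a, b, if_true, Bool.false_eq_true, if_false]; exact (S.cand _ c).2 _ d f)
    rcases g with rfl | rfl
    exacts [this.1, this.2]
  · have := key (k := 2) (by
      simp only [un, a, b, if_true, Bool.false_eq_true, if_false]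
      rw [← B.P_inv, ← mul_inv_rev, inv_pow, pow_two, ((S.cand _ c).1 _ d f).1, inv_one])
    rcases g with rfl | rfl
    exacts [this.1, this.2]

theorem un_sq {k : ℕ} (c : isL k = false ∨ (ix k < 7 ∧ on (ix k) 0 = false)) : un q x k * un q x k = 1 := by
  unfold un
  split_ifs with h
  · exact (Bas.cand_cb (S.cand _ (c.resolve_left (by simp [h])).1) (c.resolve_left (by simp [h])).2).1
  · exact F.bas.P_sq _

theorem sat : Sat (nds (un q x)) 16 RS := by
  have h1 : ev (nds (un q x)) (5 :: rep 9 [11, 7, 6, 0, 1, 2, 3]) = 1 := by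
    rw [ev_nd fun k hk => ((by decide +kernel : ∀ k ∈ 5 :: rep 9 [11, 7, 6, 0, 1, 2, 3], k < 16 ∧
      (isL k = false ∨ (ix k < 7 ∧ on (ix k) 0 = false))) k hk).imp_right (F.un_sq S), ev_cons, ev_rep,
      show ev (un q x) [11, 7, 6, 0, 1, 2, 3] = evw (Nd q x) N1 by
        simp only [N1, ev_cons, ev_nil, evw_cons, evw_nil, one_mul, mul_one, mul_assoc]; rfl,
      F.omega1 S, show un q x 5 = 1 from P_zero q, one_mul, map_one, one_mul,
      show (5 :: rep 9 [11, 7, 6, 0, 1, 2, 3]).length = 2 * 32 by decide +kernel, pow_mul, pow_two, nd_sq, one_pow]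
  have h2 := H18.Fi24.spider (((F.satX S).add h1).sub [5, 4, 3, 2, 1, 0, 6, 7, 8, 9, 11, 12] (by decide +kernel))
  rw [H18.YG.ev_map'] at h2
  exact ((F.satX S).add h2).of_sub (by decide +kernel)

end Fr

theorem eqns_YS : True := by
  have := @nd.eq_1.{0}
  have := @nds.eq_1.{0}
  trivial

end H77.YM.AY
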