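import Cfsg.Agent.Lib.YM.Gen
import Cfsg.Agent.Lib.MAg.YS

/-! The nodes generate `K`. -/

set_option autoImplicit false
set_option maxRecDepth 100000

namespace H77.YM.AY

open Cfsg H54 H16 H95 Subgroup H95.Ag

variable {G : Type*} [Group G]

def PA (K : Subgroup G) (z : G) (q : ℕ → G) (H : Subgroup G) (A : List ℕ) : Prop := ∃ c ∈ H, Act K z q c A

theorem Sym.P {K : Subgroup G} {z h : G} {q : ℕ → G} {σ : List ℕ} (H : Sym K z q σ h) (h0 : nth σ 0 = 0) {j : ℕ} (hj : j < 13) :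
    P q (nth σ j) = h * P q j * h⁻¹ := by
  rw [(H.2.2 j hj).2.1, h0, P_zero, one_mul]

namespace Bas

variable {K H : Subgroup G} {QW : G → Subgroup G} {z : G} {q : ℕ → G} (B : Bas K QW z q)
include B

omit B in
theorem pa_get {m : List (List ℕ)} (h : ∀ A ∈ m, PA K z q H A) (i : ℕ) : PA K z q H (m.getD i ID) := by
  by_cases c : i < m.length
  · rw [List.getD_eq_getElem _ _ c]; exact h _ (List.getElem_mem c)
  · rw [List.getD_eq_default _ _ (not_lt.1 c)]; exact ⟨1, one_mem _, act_one⟩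

theorem pa_mul {A C : List ℕ} (h : PA K z q H A) (h' : PA K z q H C) : PA K z q H (mmul A C) := by
  obtain ⟨a, a1, a2⟩ := h
  obtain ⟨c, c1, c2⟩ := h'
  exact ⟨_, mul_mem a1 c1, B.act_mul a2 c2⟩

omit B in
theorem ini_spec {L : List (ℕ × ℕ)} (h : ∀ p ∈ L, PA K z q H (GM p)) {k : List (List ℕ) → Bool} :
    ∀ {m}, (∀ A ∈ m, PA K z q H A) → iniK L m k = true → ∃ m, (∀ A ∈ m, PA K z q H A) ∧ k m = true := by
  induction L with
  | nil => exact fun a b => ⟨_, a, b⟩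
  | cons p L ih =>
    intro m a b
    exact ih (fun r hr => h r (List.mem_cons_of_mem _ hr))
      (List.forall_mem_cons.2 ⟨h p List.mem_cons_self, a⟩) ((forceL_eq _ _).symm.trans b)

theorem slp_spec {L : List (ℕ × ℕ)} {k : List (List ℕ) → Bool} :
    ∀ {m}, (∀ A ∈ m, PA K z q H A) → slpK L m k = true → ∃ m, (∀ A ∈ m, PA K z q H A) ∧ k m = true := by
  induction L with
  | nil => exact fun a b => ⟨_, a, b⟩
  | cons p L ih =>
    intro m a b
    exact ih (List.forall_mem_cons.2 ⟨B.pa_mul (pa_get a _) (pa_get a _), a⟩) ((forceL_eq _ _).symm.trans b)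

theorem okW_spec {m : List (List ℕ)} (h : ∀ A ∈ m, PA K z q H A) {w T : List ℕ} (c : okW m w T = true) :
    ∃ A, PA K z q H A ∧ mmul A T = ID := by
  rw [okW, wK_eq] at c
  refine ⟨_, ?_, H18.TC.leq_spec _ _ c⟩
  have : ∀ A, PA K z q H A → PA K z q H (w.foldl (fun a x => mmul a (m.getD x ID)) A) := by
    clear c
    induction w with
    | nil => exact fun _ h => h
    | cons x w ih => exact fun A hA => ih _ (B.pa_mul hA (pa_get h x))
  exact this _ ⟨1, one_mem _, act_one⟩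

theorem xor_mem (hz : z ∈ H) {a b : ℕ} (ha : e q a ∈ H) (hb : e q b ∈ H) : e q (a ^^^ b) ∈ H :=
  ((B.e_ap a b).symm B.zz).mem hz (mul_mem ha hb)

omit B in
theorem W_mem (hz : z ∈ H) {l : ℕ} {x : G} (h : CB QW z q l x) (hx : x ∈ H) : e q (Wm l) ∈ H := by
  have := mul_mem (inv_mem hz) (mul_mem (mul_mem hx hz) (inv_mem hx))
  rwa [h.2.2.1, inv_mul_cancel_left] at this

theorem sys_tr {x : ℕ → G} (S : Sys QW z q x) {σ π : List ℕ} {h : G} (hh : Sym K z q σ h)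
    (c : ∀ l < 7, nth π l < 7 ∧ TrOk σ (nth π l) l) :
    Sys QW z q fun l => P q (nth σ 0) * (h * x (nth π l) * h⁻¹) :=
  ⟨fun l hl => B.cand_tr hh (c l hl).2 (S.cand _ (c l hl).1),
    fun l hl m hm => CU_tr.2 (S.cu _ (c l hl).1 _ (c m hm).1)⟩

end Bas

/-- the image in Co0 of the elements of `H` in `K` -/
def KH {K : Subgroup G} (φ : K →* Spor.Co1) (H : Subgroup G) : Subgroup Co0 :=
  ((H.subgroupOf _).map φ).comap (QuotientGroup.mk' _)

namespace Fr

variable {z : G} {Q K : Subgroup G} {QW : G → Subgroup G} {φ : K →* Spor.Co1}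
  {cls : leechLattice → G → Prop} {q : ℕ → G} (F : Fr z Q K QW φ cls q)
include F

theorem y_mem {H : Subgroup G} (h6 : P q 6 ∈ H) (h7 : P q 7 ∈ H) (h8 : P q 8 ∈ H) : e q 224 ∈ H := by
  rw [show e q 224 = P q 6 * P q 7 * P q 8 by rw [F.bas.P_mul, P, F.bas.e_mul0 (by decide +kernel)]; rfl]
  exact mul_mem (mul_mem h6 h7) h8

theorem mem_KH {H : Subgroup G} {M : ℕ} {γ : Co0} (hP : IsM M γ) {T : List ℕ} (h : okA M T = true)
    (k : ∃ A, PA K z q H A ∧ mmul A T = ID) : γ ∈ KH φ H := by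
  obtain ⟨A, ⟨c, c1, c2⟩, c3⟩ := k
  obtain ⟨g, hg⟩ := F.M.exists_lift γ
  have h1 := F.mem_of_act (c3 ▸ F.bas.act_mul c2 (F.isA_of_okA hP h g hg))
  have h2 := (F.M.ker (⟨c, c2.3⟩ * g)).2 h1
  rw [map_mul] at h2
  exact ⟨(⟨c, c2.3⟩ : K)⁻¹, inv_mem c1,
    ((map_inv φ _).trans (eq_inv_of_mul_eq_one_right h2).symm).trans hg.symm⟩

variable {x : ℕ → G} (S : Sys QW z q x) {H : Subgroup G}
include S

theorem theta (hx : ∀ l < 3, x l ∈ H) (hp : ∀ j < 9, P q j ∈ H) :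
    P q 9 ∈ H ∧ P q 10 ∈ H ∧ (P q 11 ∈ H → P q 12 ∈ H) := by
  have B := F.bas
  have hy := F.y_mem (hp 6 (by norm_num)) (hp 7 (by norm_num)) (hp 8 (by norm_num))
  have k : ∀ {w : List ℕ} {p : G} {n}, (∀ j < n, P q j ∈ H) → Ap (e q 224) (evw (Nd q x) w * p) 1 →
      (∀ k ∈ w, (k < 9 ∧ nth trip k < n) ∨ (9 ≤ k ∧ k < 12)) → p ∈ H := fun hp h c => by
    refine (mul_mem_cancel_left (evw_mem fun k hk => ?_)).1 (h.mem hy (one_mem _))
    rcases c k hk with c | c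
    · rw [Nd_p q x c.1]; exact hp _ c.2
    · rw [Nd, if_neg (by omega), if_pos c.2]; exact hx _ (by omega)
  rcases (F.tri_std (fun l hl => S.cand l (by omega)) (S.cu 0 (by norm_num) 1 (by norm_num))
    (S.cu 0 (by norm_num) 2 (by norm_num))).2.2 with ⟨a, b, c⟩ | a
  · have a := k hp a (by decide +kernel)
    have b := k hp b (by decide +kernel)
    refine ⟨a, b, fun d => k (n := 12) (fun j hj => ?_) c (by decide +kernel)⟩
    rcases (by omega : j < 9 ∨ j = 9 ∨ j = 10 ∨ j = 11) with h | rfl | rfl | rfl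
    exacts [hp j h, a, b, d]
  · have h5 := S.cand 5 (by norm_num)
    have c5 : Commute (x 5) (evw (Nd q x) T1) := commN S (by decide +kernel) (by decide +kernel)
    rcases a with a | a
    · exact absurd (mul_right_cancel a ▸ c5) (B.ncm h5 (by decide +kernel))
    · rw [mul_assoc, (F.py 9).eq, ← mul_assoc] at a
      rw [mul_right_cancel a, P, B.e_mul0 (by decide +kernel)] at c5
      have := c5.mul_right (Bas.cb_comm (m := 160) (by norm_num) (by decide +kernel)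
        (Bas.cand_cb h5 (by decide +kernel)) (by decide +kernel))
      rw [B.e_mul0 (by decide +kernel)] at this
      exact absurd (B.P_mul 5 7 ▸ this) (B.ncm2 h5 (by decide +kernel))

theorem star (hp : ∀ j < 13, P q j ∈ H) (w : List ℕ) {l m n : ℕ}
    (c : l < 7 ∧ m < 7 ∧ n < 7 ∧ nth (sw w) 0 = 0 ∧ TrOk (sw w) l 0 ∧ TrOk (sw w) m 1 ∧ TrOk (sw w) n 2)
    (hl : x l ∈ H) (hm : x m ∈ H) (hn : x n ∈ H) :
    z ∈ H ∧ ∀ j < 13, nth (sw w) j ∈ [1, 2, 11] → e q (Sm j) ∈ H := by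
  have B := F.bas
  obtain ⟨h, hh⟩ := F.sym w
  obtain ⟨c1, c2, c3, c0, d1, d2, d3⟩ := c
  have k : ∀ j < 13, P q j ∈ H.map (MulAut.conj h).toMonoidHom := fun j hj => by
    obtain ⟨i, hi, rfl⟩ := d1.2.1 j hj
    rw [hh.P c0 hi]; exact mem_cj.2 (hp i hi)
  have k0 := k _ (hh.2.2 0 (by norm_num)).1
  obtain ⟨a, b1, b2, b3⟩ := F.md_std (x := t3 _ _ _) (fun l hl => by
    interval_cases l
    exacts [B.cand_tr hh d1 (S.cand _ c1), B.cand_tr hh d2 (S.cand _ c2), B.cand_tr hh d3 (S.cand _ c3)])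
    (H := H.map (MulAut.conj h).toMonoidHom) (fun j hj => by
      by_cases c : j < 9
      · rw [Nd_p _ _ c]; exact k _ ((by decide +kernel : ∀ j < 9, nth trip j < 13) j c)
      · rcases (by omega : j = 9 ∨ j = 10 ∨ j = 11) with rfl | rfl | rfl
        exacts [mul_mem k0 (mem_cj.2 hl), mul_mem k0 (mem_cj.2 hm), mul_mem k0 (mem_cj.2 hn)])
    (F.y_mem (k 6 (by norm_num)) (k 7 (by norm_num)) (k 8 (by norm_num)))
  refine ⟨(mem_cj (h := h)).1 (by rwa [hh.1, mul_inv_cancel_right]), fun j hj c => (mem_cj (h := h)).1 ?_⟩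
  have := (hh.2.2 j hj).2.2
  rw [H77.YM.S] at this
  rw [this]
  simp only [List.mem_cons, List.not_mem_nil, or_false] at c
  rcases c with c | c | c <;> rw [c] <;> assumption

variable (hx : ∀ l ∈ [0, 1, 2, 3, 5], x l ∈ H) (hp : ∀ j < 9, P q j ∈ H)
include hx hp

theorem pts : ∀ j < 13, P q j ∈ H := by
  obtain ⟨a, b, c⟩ := F.theta S (fun l hl => hx l ((by decide : ∀ l < 3, l ∈ [0, 1, 2, 3, 5]) l hl)) hp
  obtain ⟨h, hh⟩ := F.sym wsw
  have c0 : nth (sw wsw) 0 = 0 := by decide +kernel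
  have d := (F.theta (F.bas.sys_tr S hh (π := [0, 1, 3, 2, 4, 6, 5]) (by decide +kernel))
    (H := H.map (MulAut.conj h).toMonoidHom) (fun l hl => by
      rw [c0, P_zero, one_mul]
      exact mem_cj.2 (hx _ ((by decide +kernel : ∀ l < 3, nth [0, 1, 3, 2, 4, 6, 5] l ∈ [0, 1, 2, 3, 5]) l hl)))
    fun j hj => by
      obtain ⟨i, hi, rfl⟩ := (by decide +kernel : ∀ j < 9, ∃ i < 9, nth (sw wsw) i = j) j hj
      rw [hh.P c0 (by omega)]; exact mem_cj.2 (hp i hi)).2.1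
  rw [← (by decide +kernel : nth (sw wsw) 11 = 10), hh.P c0 (by norm_num), mem_cj] at d
  intro j hj
  rcases (by omega : j < 9 ∨ j = 9 ∨ j = 10 ∨ j = 11 ∨ j = 12) with h | rfl | rfl | rfl | rfl
  exacts [hp j h, a, b, d, c d]

theorem qs : z ∈ H ∧ (∀ i < 24, i ≠ 19 → q i ∈ H) ∧ (x 6 ∈ H → q 19 ∈ H) := by
  have B := F.bas
  have p := F.pts S hx hp
  obtain ⟨hz, a⟩ := F.star S p [] (by decide +kernel) (hx 0 (by decide)) (hx 1 (by decide)) (hx 2 (by decide))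
  have b := (F.star S p [0, 1, 0, 1, 1, 1, 1, 0, 0, 0] (by decide +kernel) (hx 2 (by decide)) (hx 3 (by decide))
    (hx 0 (by decide))).2
  have c := (F.star S p [0, 0, 0, 0, 1, 0, 0, 1, 1, 1, 1] (by decide +kernel) (hx 0 (by decide))
    (hx 3 (by decide)) (hx 5 (by decide))).2
  have d := (F.star S p [1, 0, 1, 0, 1, 0] (by decide +kernel) (hx 2 (by decide)) (hx 5 (by decide))
    (hx 0 (by decide))).2
  have s1 := a 1 (by norm_num) (by decide +kernel)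
  have s3 := b 3 (by norm_num) (by decide +kernel)
  have s5 := d 5 (by norm_num) (by decide +kernel)
  have s9 := b 9 (by norm_num) (by decide +kernel)
  have s10 := c 10 (by norm_num) (by decide +kernel)
  have s11 := a 11 (by norm_num) (by decide +kernel)
  have s12 := c 12 (by norm_num) (by decide +kernel)
  have w : ∀ l < 7, on l 0 = false → x l ∈ H → ∀ {i j k}, e q i ∈ H → e q j ∈ H → e q k ∈ H →
      e q (Wm l ^^^ i ^^^ j ^^^ k) ∈ H := fun l hl h0 h _ _ _ hi hj hk =>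
    B.xor_mem hz (B.xor_mem hz (B.xor_mem hz (Bas.W_mem hz (Bas.cand_cb (S.cand l hl) h0) h) hi) hj) hk
  have s6 := w 3 (by norm_num) (by decide +kernel) (hx 3 (by decide)) s3 s9 s10
  refine ⟨hz, fun i hi h => ?_, fun h => e_pow q (i := 19) (by norm_num) ▸
    w 6 (by norm_num) (by decide +kernel) h s6 s11 s12⟩
  rw [← e_pow q hi]
  interval_cases i
  exacts [p 1 (by norm_num), p 2 (by norm_num), p 3 (by norm_num), p 4 (by norm_num), p 5 (by norm_num),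
    p 6 (by norm_num), p 7 (by norm_num), p 8 (by norm_num), p 9 (by norm_num), p 10 (by norm_num),
    p 11 (by norm_num), p 12 (by norm_num), s1, a 2 (by norm_num) (by decide +kernel), s3,
    w 1 (by norm_num) (by decide +kernel) (hx 1 (by decide)) s1 s10 s11, s5, s6,
    w 5 (by norm_num) (by decide +kernel) (hx 5 (by decide)) s5 s10 s12, absurd rfl h, s9, s10, s11, s12]

omit hx hp in
theorem epsl {p : ℕ × ℕ} (c : p.1 < 7 ∧ on p.1 0 = false) :
    ∃ r ∈ Q, Act K z q (x p.1 * r * (x p.1)⁻¹) (GM p) := by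
  obtain ⟨d, d1, d2, d3⟩ := F.exists_d _ _ (fw_chk _ c.1).1 (fw_chk _ c.1).2
  obtain ⟨xx, xQ, h, -⟩ := Bas.cand_cb (S.cand _ c.1) c.2
  obtain ⟨v, v1, v2⟩ := F.cls_w d1.3 d3
  obtain ⟨b, b1, b2⟩ := F.ex_eps (w := z * W q p.1) d1 d2 (by
    rw [← mul_assoc, d2.1, mul_assoc, mul_assoc, ← mul_assoc d⁻¹]
    rcases d3 with k | k <;> rw [k]
    · exact Or.inr (F.bas.e_z _).symm
    · exact Or.inl (by rw [F.bas.e_z, ← mul_assoc, F.bas.zz, one_mul])) p.2
  have h1 := F.A.ln v1 v2 _ xQ _ (Or.inr rfl) b b1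
  rw [← conj_mul, h, (F.A.es v1 v2).h'.central _ xQ, mul_inv_cancel_right, mul_assoc, (F.A.es v1 v2).h'.sq,
    mul_one, F.A.qz] at h1
  have xi : (x p.1)⁻¹ = x p.1 := inv_eq_of_mul_eq_one_left xx
  refine ⟨(x p.1)⁻¹ * b * x p.1, by rwa [xi] at h1 ⊢, ?_⟩
  rw [GM_eq, show x p.1 * ((x p.1)⁻¹ * b * x p.1) * (x p.1)⁻¹ = b by group]
  exact b2

theorem genM (h6 : x 6 ∈ H) : K ≤ H := by
  have B := F.bas
  obtain ⟨hz, a, b⟩ := F.qs S hx hp
  have hQ : Q ≤ H := F.le_of_gens hz fun i hi => if c : i = 19 then c ▸ b h6 else a i hi c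
  obtain ⟨m, h1, h2⟩ := Bas.ini_spec (K := K) (z := z) (q := q) (H := H) (fun p hp' => by
    have c1 := (gl_chk p hp').1
    obtain ⟨r, r1, r2⟩ := F.epsl S ((by decide +kernel : ∀ l ∈ [0, 1, 2, 3, 5], l < 7 ∧ on l 0 = false) _ c1)
    exact ⟨_, mul_mem (mul_mem (hx _ c1) (hQ r1)) (inv_mem (hx _ c1)), r2⟩)
    (fun _ h => absurd h List.not_mem_nil) slp_chk
  obtain ⟨m, h1, h2⟩ := B.slp_spec h1 h2
  rw [band_eq_true, band_eq_true, band_eq_true, forceL_eq] at h2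
  have a := F.mem_KH isM_k23 k23_chk (B.okW_spec h1 h2.1)
  have b := F.mem_KH isM_h11 h11_chk (B.okW_spec h1 h2.2.1)
  have c := F.mem_KH isM_hγ hg_chk (B.okW_spec h1 h2.2.2.1)
  obtain ⟨r, r1, r2⟩ := F.epsl S (p := (6, 34)) (by decide +kernel)
  have d := F.mem_KH (isM_cT 1) c1_chk (B.okW_spec (List.forall_mem_cons.2
    ⟨⟨_, mul_mem (mul_mem h6 (hQ r1)) (inv_mem h6), r2⟩, h1⟩) h2.2.2.2)
  have k := co0_gen (H := KH φ H) ⟨1, one_mem _, (map_one φ).trans ((QuotientGroup.eq_one_iff _).2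
    (mem_center_iff.2 fun g => Subtype.ext (Equiv.ext fun v => ?_))).symm⟩ (by
      have := mul_mem (mul_mem d a) d
      rwa [k23, ← mul_assoc, ← mul_assoc, cT1_sq, one_mul, mul_assoc, cT1_sq, mul_one] at this) b c d
  · intro g hg
    obtain ⟨γ, hγ⟩ := QuotientGroup.mk_surjective (φ ⟨g, hg⟩)
    obtain ⟨c, c1, c2⟩ := k.ge (mem_top γ)
    exact (mul_mem_cancel_left (inv_mem c1)).1 (hQ ((F.M.ker (c⁻¹ * ⟨g, hg⟩)).1 (by
      rw [map_mul, map_inv, c2, inv_mul_eq_one]; exact hγ)))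
  · change (g * negCo0) • v = (negCo0 * g) • v
    rw [mul_smul, mul_smul, negCo0_smul, negCo0_smul, smul_neg]

end Fr

end H77.YM.AY
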