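import Cfsg.Agent.Lib.MAg.YG

/-! The homomorphism from the presented Monster. -/

set_option autoImplicit false
set_option maxRecDepth 100000

namespace H77.YM.AY

open Cfsg Cfsg.Spor H54 H16 H95 Subgroup H95.Ag H18.TC

variable {G : Type*} [Group G]

/-- elements of the wreath product -/
def LR (b : Bool) (π : Equiv.Perm (G × Bool)) : Prop :=
  ∃ α β : G, ∀ x c, π (x, c) = ((bif c then β else α) * x, xor b c)

theorem LR.mul {a b : Bool} {π σ : Equiv.Perm (G × Bool)} (h : LR a π) (k : LR b σ) :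
    LR (xor a b) (π * σ) := by
  obtain ⟨α, β, h⟩ := h
  obtain ⟨γ, δ, k⟩ := k
  cases b
  · exact ⟨α * γ, β * δ, fun x c => by cases c <;> simp [h, k, mul_assoc]⟩
  · exact ⟨β * γ, α * δ, fun x c => by cases c <;> simp [h, k, mul_assoc]⟩

theorem LR.inv {a : Bool} {π : Equiv.Perm (G × Bool)} (h : LR a π) : LR a π⁻¹ := by
  obtain ⟨α, β, h⟩ := h
  cases a
  · exact ⟨α⁻¹, β⁻¹, fun x c => by rw [Equiv.Perm.inv_eq_iff_eq, h]; cases c <;> simp⟩
  · exact ⟨β⁻¹, α⁻¹, fun x c => by rw [Equiv.Perm.inv_eq_iff_eq, h]; cases c <;> simp⟩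

set_option synthInstance.maxSize 1024 in
theorem exists_psi {u : ℕ → G} (hu : Sat (nds u) 16 RS) (h5 : u 5 = 1) :
    ∃ ψ : Monster →* G, ∀ k < 16, k ≠ 4 → u k * u k = 1 → u k ∈ ψ.range := by
  have s := sat_pgen (extra := Bimonster.extra) mem_gens mem_nodes
  obtain ⟨Ψ, hΨ⟩ := H18.TC.exists_hom (edges := Bimonster.edges) (extra := Bimonster.extra)
    mem_gens (by decide) ⟨hu.inv, hu.one, fun R hR => (List.mem_append.1 hR).elim
      (fun e => hu.rel R (List.mem_append_left _ e)) fun e => by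
        obtain ⟨r, hr, rfl⟩ := List.mem_map.1 e
        exact sat_of_spider hu r hr⟩
  have top := gsub_pgen_top (edges := Bimonster.edges) (extra := Bimonster.extra) mem_gens
  have a0 : pgen gens Bimonster.edges Bimonster.extra 0 = PresentedGroup.of .a := rfl
  generalize pgen gens Bimonster.edges Bimonster.extra = p at s hΨ top a0
  have cj : ∀ k < 16, IsConj (p 5) (p k) := by
    have st : ∀ {x y}, IsConj (p 5) (p x) → ([x, y, x, y, x, y] ∈ allRels gens Bimonster.edges Bimonster.extra ∨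
        [y, x, y, x, y, x] ∈ allRels gens Bimonster.edges Bimonster.extra) → IsConj (p 5) (p y) :=
      fun h c => h.trans (isConj_iff.2 ⟨_, s.conj c⟩)
    intro k hk
    induction k using Nat.strong_induction_on with
    | _ k ih =>
    have c4 := st (y := 4) (IsConj.refl _) (by decide +kernel)
    have c3 := st (y := 3) c4 (by decide +kernel)
    have c2 := st (y := 2) c3 (by decide +kernel)
    have c1 := st (y := 1) c2 (by decide +kernel)
    have c0 := st (y := 0) c1 (by decide +kernel)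
    by_cases h0 : k = 0
    · exact h0 ▸ c0
    obtain ⟨j, j1, j2⟩ := (by decide +kernel : ∀ k < 16, k ≠ 0 → ∃ j < k,
      [j, k, j, k, j, k] ∈ allRels gens Bimonster.edges Bimonster.extra) k hk h0
    exact st (ih j j1 (by omega)) (Or.inl j2)
  have lr : ∀ y, ∃ b, LR b (Ψ y) := fun y => by
    let K : Subgroup Bimonster :=
      { carrier := {y | ∃ b, LR b (Ψ y)}
        one_mem' := ⟨false, 1, 1, fun x c => by cases c <;> simp⟩
        mul_mem' := fun ⟨_, h⟩ ⟨_, k⟩ => ⟨_, map_mul Ψ _ _ ▸ h.mul k⟩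
        inv_mem' := fun ⟨_, h⟩ => ⟨_, map_inv Ψ _ ▸ h.inv⟩ }
    refine gsub_le (K := K) (fun k hk => ⟨true, (u k)⁻¹, u k, fun x c => ?_⟩) (top.ge (mem_top y))
    rw [hΨ k (List.mem_range.1 hk), nds_lt u (List.mem_range.1 hk)]; cases c <;> rfl
  have lr0 : ∀ y ∈ commutator Bimonster, LR false (Ψ y) := fun y hy => by
    let K : Subgroup Bimonster :=
      { carrier := {y | LR false (Ψ y)}
        one_mem' := ⟨1, 1, fun x c => by cases c <;> simp⟩
        mul_mem' := fun h k => by simpa using LR.mul h k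
        inv_mem' := fun h => by simpa using LR.inv h }
    refine (commutator_le (H₃ := K)).2 (fun a _ b _ => ?_) hy
    obtain ⟨i, hi⟩ := lr a
    obtain ⟨j, hj⟩ := lr b
    have := ((hi.mul hj).mul hi.inv).mul hj.inv
    change LR false (Ψ (a * b * a⁻¹ * b⁻¹))
    rw [map_mul, map_mul, map_mul, map_inv, map_inv]
    cases i <;> cases j <;> exact this
  have e5 : Ψ (p 5) = nd 1 := by rw [hΨ 5 (by decide), nds_lt u (by norm_num), h5]
  have inj : Function.Injective (κ (G := G)) := (injective_iff_map_eq_one _).2 fun a h =>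
    (mul_one a).symm.trans (congrArg (fun π : Equiv.Perm (G × Bool) => (π (1, false)).1) h)
  obtain ⟨c, hc⟩ := isConj_iff.1 (cj 0 (by norm_num))
  have rg : ∀ y : Monster, (Ψ.comp ((MulAut.conj c⁻¹).toMonoidHom.comp (Subgroup.subtype _))) y ∈
      (κ (G := G)).range := fun y => by
    obtain ⟨α, β, h⟩ := lr0 _ ((inferInstance : (commutator Bimonster).Normal).conj_mem _ y.2.2 c⁻¹)
    have h1 : c⁻¹ * y * c⁻¹⁻¹ * p 5 = p 5 * (c⁻¹ * y * c⁻¹⁻¹) := by
      have : y * (c * p 5 * c⁻¹) = c * p 5 * c⁻¹ * y := by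
        rw [hc, a0]; exact mem_centralizer_singleton_iff.1 y.2.1
      calc _ = c⁻¹ * (y * (c * p 5 * c⁻¹)) * c := by group
        _ = _ := by rw [this]; group
    have h2 : β = α := by
      have := congrArg (fun π => (Ψ π (1, false)).1) h1
      simpa only [map_mul Ψ _ (p 5), map_mul Ψ (p 5), e5, Equiv.Perm.mul_apply, nd_apply, h, cond_false, cond_true,
        Bool.not_false, Bool.xor_false, inv_one, one_mul, mul_one] using this
    exact ⟨α, Equiv.ext fun x => by obtain ⟨x, _ | _⟩ := x <;> exact ((h x _).trans (by rw [h2]; rfl)).symm⟩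
  refine ⟨(MonoidHom.ofInjective inj).symm.toMonoidHom.comp (MonoidHom.codRestrict _ _ rg), fun k hk h4 sq => ?_⟩
  obtain ⟨d, hd⟩ := isConj_iff.1 (cj k hk)
  have cm : Commute (p 5) (p k) := by
    by_cases h : k = 5
    · rw [h]
    · exact s.comm ((by decide +kernel : ∀ k < 16, k ≠ 4 → k ≠ 5 →
        [5, k, 5, k] ∈ allRels gens Bimonster.edges Bimonster.extra ∨
        [k, 5, k, 5] ∈ allRels gens Bimonster.edges Bimonster.extra) k hk h4 h)
  refine ⟨⟨c * (p k * p 5) * c⁻¹, mem_centralizer_singleton_iff.2 ?_,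
    (inferInstance : (commutator Bimonster).Normal).conj_mem _ ?_ c⟩, ?_⟩
  · rw [← a0, ← hc]; exact comm_conj c (cm.symm.mul_left rfl)
  · rw [← hd]; nth_rewrite 2 [s.inv 5]
    exact commutator_mem_commutator (mem_top d) (mem_top _)
  · refine (MonoidHom.ofInjective inj).symm_apply_eq.2 (Subtype.ext ?_)
    change Ψ (c⁻¹ * (c * (p k * p 5) * c⁻¹) * c⁻¹⁻¹) = κ (u k)
    rw [show c⁻¹ * (c * (p k * p 5) * c⁻¹) * c⁻¹⁻¹ = p k * p 5 by group, map_mul, e5, hΨ k hk, nds_lt u hk,
      nd_eq sq, mul_assoc, nd_sq, mul_one]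

/-- The presented Monster maps to every amalgam of Monster type. -/
theorem psi_am {z : G} {Q K : Subgroup G} {QW : G → Subgroup G} {φ : K →* Spor.Co1}
    {cls : leechLattice → G → Prop} (A : Am z Q K QW φ cls) : ∃ ψ : Monster →* G, K ≤ ψ.range ∧
      ∃ v w x, cls v w ∧ sqNorm (v : GolayPt → ℤ) = 64 ∧ x ∈ QW w ∧ x * z * x⁻¹ = z * w ∧ x ∈ ψ.range := by
  obtain ⟨q, F⟩ := exists_fr A
  obtain ⟨x, S⟩ := F.exists_sys
  obtain ⟨ψ, hψ⟩ := exists_psi (F.sat S) (P_zero q)
  have k : ∀ n < 16, n ≠ 4 → un q x n ∈ ψ.range := fun n hn h4 => hψ n hn h4 (F.un_sq S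
    ((by decide +kernel : ∀ n < 16, n ≠ 4 → isL n = false ∨ (ix n < 7 ∧ on (ix n) 0 = false)) n hn h4))
  have hx : ∀ l ∈ [0, 1, 2, 3, 5], x l ∈ ψ.range := by
    simp only [List.forall_mem_cons]
    exact ⟨k 0 (by decide) (by decide), k 2 (by decide) (by decide), k 7 (by decide) (by decide),
      k 12 (by decide) (by decide), k 9 (by decide) (by decide), by simp⟩
  have hp : ∀ j < 9, P q j ∈ ψ.range := fun j hj => by
    obtain ⟨n, a, b, c, rfl⟩ := (by decide +kernel : ∀ j < 9, ∃ n < 16, n ≠ 4 ∧ isL n = false ∧ ix n = j) j hj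
    have := k n a b
    rwa [un, if_neg (by simp [c])] at this
  obtain ⟨d, hd, -, h⟩ := F.exists_dA
  obtain ⟨v, v1, v2⟩ := F.cls_w hd.3 h
  have h0 := cb0_of (Bas.cand_cb (S.cand 0 (by norm_num)) (by decide +kernel))
  exact ⟨ψ, F.genM S hx hp (k 14 (by decide) (by decide)), v, _, _, v1, v2, h0.2.1, h0.2.2.1, hx 0 (by decide)⟩

end H77.YM.AY
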